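import Cfsg.Agent.Tr.D
import Cfsg.Agent.J4.Cv
import Cfsg.Agent.ZD.Cor

/-! Centraliser of shape `2 ^ 11 . Aut (M22)`: definitions. -/

set_option autoImplicit false
set_option maxRecDepth 1000000
set_option linter.unusedSectionVars false

namespace CF.Tr
open Cfsg Subgroup CF.BG CF.Bender CF.J4 CF.Comp CF.Dce CF.Comp.Mat CF.Dce.J4
open CF.Leech (ofMask_two_pow)

/-- permutations of the 24 points -/
abbrev Pm : Type := Equiv.Perm GolayPt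

/-- the Mathieu group of degree 22 -/
noncomputable abbrev MM : Subgroup Pm := Spor.M22

/-- three generators of `S2` -/
noncomputable def φ0 : ℕ → Pm := evs (el nA) wX

/-- the named elements -/
noncomputable def φ : ℕ → Pm := evs φ0 wN

theorem r0 : Reps D0 nX φ0 := Bt.reps_evs rA k5 (by decide +kernel)

theorem rN : Reps D0 nN φ := Bt.reps_evs r0 k5 (by decide +kernel)

theorem eq0 {u w : List ℕ} (h : sameW nX 24 5 u w = true) : ev φ0 u = ev φ0 w :=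
  Bt.eqv_sameW r0 k5 (D0_full.faithful ⊤) u w h

theorem eqN {u w : List ℕ} (h : sameW nN 24 5 u w = true) : ev φ u = ev φ w :=
  Bt.eqv_sameW rN k5 (D0_full.faithful ⊤) u w h

theorem neN {u w : List ℕ} (h : Bt.difW nN 24 5 u w = true) : ev φ u ≠ ev φ w :=
  Bt.nev_difW rN (by norm_num) 5 u w h

theorem φ0_mem (i : ℕ) : φ0 i ∈ S2 := ev_mem memA _

theorem φ_mem (i : ℕ) : φ i ∈ S2 := ev_mem φ0_mem _

theorem φ_ge {i : ℕ} (h : 17 ≤ i) : φ i = 1 := evs_ge _ (le_trans (by decide +kernel) h)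

theorem φ_φ0 {i : ℕ} (h : i < 3) : φ i = φ0 i := by
  rw [φ, evs, (by decide +kernel : ∀ i < 3, nth [] wN i = [2 * i + 1]) i h, ev_single]

theorem S2_le0 {K : Subgroup Pm} (h : ∀ i < 3, φ i ∈ K) : S2 ≤ K := S2_le fun i => by
  have k : ∀ j, φ0 j ∈ K := fun j => by
    by_cases hj : j < 3
    · exact φ_φ0 hj ▸ h j hj
    · rw [φ0, evs_ge _ (le_trans (by decide +kernel) (not_lt.1 hj))]; exact one_mem _
  by_cases hi : i < 4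
  · rw [← ev_single (el nA), ← eqA ((by decide +kernel : ∀ i < 4,
      sameW nA 24 5 (subst wX (nth [] wA i)) [2 * i + 1] = true) i hi), ← ev_evs]
    exact ev_mem k _
  · exact (show el nA i = 1 from D0_full.els_eq_one (by simpa [nA] using hi)) ▸ one_mem _

/-- order eleven -/
noncomputable abbrev pX : Pm := φ 0
/-- order ten, outer -/
noncomputable abbrev pS : Pm := φ 1
/-- order four -/
noncomputable abbrev pR : Pm := φ 2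
/-- the inner involution -/
noncomputable abbrev pZ : Pm := φ 3
noncomputable abbrev e34 : Pm := φ 4
noncomputable abbrev e35 : Pm := φ 5
noncomputable abbrev e13 : Pm := φ 6
noncomputable abbrev v1 : Pm := φ 7
noncomputable abbrev v2 : Pm := φ 8
noncomputable abbrev t3 : Pm := φ 9
/-- an outer involution with fixed points -/
noncomputable abbrev pB : Pm := φ 10
noncomputable abbrev ro : Pm := φ 11
noncomputable abbrev ro2 : Pm := φ 12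
noncomputable abbrev ta : Pm := φ 13
noncomputable abbrev pH : Pm := φ 14
/-- an outer involution without fixed points -/
noncomputable abbrev pC : Pm := φ 15
/-- order seven -/
noncomputable abbrev s7 : Pm := φ 16

theorem ev_MM {w : List ℕ} (h : imgW nN 1 w (2 ^ 23) = 2 ^ 23) : ev φ w ∈ MM := by
  have h1 := ev_smul_ofMask rN w (2 ^ 23)
  rw [h, ofMask_two_pow (by norm_num), Finset.smul_finset_singleton, Finset.singleton_inj] at h1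
  have m := ev_mem φ_mem w
  have n : ev φ w none = none := h1
  refine mem_M22.2 ⟨m.1, n, (S2_mem m (.inr rfl)).resolve_left fun e => ?_⟩
  exact absurd ((ev φ w).injective (e.trans n.symm)) (by simp)

theorem ev_nMM {w : List ℕ} (h : imgW nN 1 w (2 ^ 23) = 2 ^ 0) : ev φ w ∉ MM := fun m => by
  have h1 := ev_smul_ofMask rN w (2 ^ 23)
  rw [h, ofMask_two_pow (by norm_num), ofMask_two_pow (by norm_num), Finset.smul_finset_singleton,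
    Finset.singleton_inj] at h1
  have n : ev φ w none = some 0 := h1
  exact absurd ((mem_M22.1 m).2.1.symm.trans n) (by simp)

theorem φ_MM {i : ℕ} (h : i ∉ [1, 10, 15]) : φ i ∈ MM := by
  by_cases hi : i < 17
  · exact ev_single φ i ▸ ev_MM ((by decide +kernel : ∀ i < 17, i ∉ [1, 10, 15] →
      imgW nN 1 [2 * i + 1] (2 ^ 23) = 2 ^ 23) i hi h)
  · rw [φ_ge (not_lt.1 hi)]; exact one_mem _

theorem φ_nMM {i : ℕ} (h : i ∈ [1, 10, 15]) : φ i ∉ MM :=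
  ev_single φ i ▸ ev_nMM ((by decide +kernel : ∀ i ∈ [1, 10, 15], imgW nN 1 [2 * i + 1] (2 ^ 23) = 2 ^ 0) i h)

theorem φ_iv {i : ℕ} (h : i ∈ [3, 4, 5, 6, 7, 8, 9, 10, 14, 15]) : Iv (φ i) := by
  obtain ⟨h1, h2⟩ := (by decide +kernel : ∀ i ∈ [3, 4, 5, 6, 7, 8, 9, 10, 14, 15],
    Bt.difW nN 24 5 [2 * i + 1] [] = true ∧ sameW nN 24 5 [2 * i + 1, 2 * i + 1] [] = true) i h
  exact ⟨by simpa [evL_odd] using neN h1, by simpa [evL_odd] using eqN h2⟩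

/-- the elementary abelian group of order sixteen -/
def EE : Subgroup Pm := closure {pZ, e34, e35, e13}

/-- a Sylow two-subgroup of `MM` -/
def TM : Subgroup Pm := closure {pZ, e34, e35, e13, v2, t3}

/-- a Sylow two-subgroup of `S2` -/
noncomputable def TA : Subgroup Pm := clo φ [[21], [19], [17], [15], [13], [11], [9], [7]]

variable {G : Type*} [Group G]

/-- the subgroup generated by the elements of odd order centralising `f` -/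
def OL (f : G) : Subgroup G := closure {y | y ∈ 𝐂₁ f ∧ Odd (orderOf y)}

/-- `L` is a perfect central extension of `MM` -/
structure QT (L : Subgroup G) (θ : G → Pm) : Prop where
  hom : HomOn (𝐍 L) θ
  mem : ∀ g ∈ 𝐍 L, θ g ∈ S2
  ker : ∀ g ∈ 𝐍 L, (θ g = 1 ↔ g ∈ 𝐂 L)
  im : ∀ g ∈ L, θ g ∈ MM
  sur : ∀ m ∈ MM, ∃ g ∈ L, θ g = m
  pf : L ≤ ⁅L, L⁆

/-- with centre of order at most two -/
structure QZ (L : Subgroup G) (θ : G → Pm) : Prop extends QT L θ where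
  z2 : ∀ a ∈ L, ∀ b ∈ L, a ∈ 𝐂 L → b ∈ 𝐂 L → a ≠ 1 → b ≠ 1 → a = b

/-- the hypothesis on an involution -/
structure HI (f : G) (θ : G → Pm) : Prop extends QZ (OL f) θ where
  iv : Iv f

/-- conjugates of `f` commuting with `f` centralise `OL f` -/
def H0 (f : G) : Prop := ∀ g : G, Commute f (g * f * g⁻¹) → g * f * g⁻¹ ∈ 𝐂 (OL f)

/-- `ψ` is the quotient map `H → H / O` -/
structure Qm {Q : Type*} [Group Q] (H O : Subgroup G) (ψ : G → Q) : Prop where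
  le : O ≤ H
  hom : HomOn H ψ
  sur : ∀ q, ∃ g ∈ H, ψ g = q
  ker : ∀ g ∈ H, (ψ g = 1 ↔ g ∈ O)

/-- a class of involutions and points, modulo `X` -/
structure PT (H X : Subgroup G) (D : Set G) (P : G → Subgroup G) : Prop where
  le : ∀ d ∈ D, d ∈ H
  eqv : ∀ d ∈ D, ∀ g ∈ H, g * d * g⁻¹ ∈ D ∧ P (g * d * g⁻¹) = cj g (P d)
  tr : ∀ d ∈ D, ∀ e ∈ D, ∃ g ∈ H, g * d * g⁻¹ = e
  nX : X ⊴ H
  sq : ∀ d ∈ D, d * d = 1
  nm : ∀ d ∈ D, d ∉ X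
  XN : ∀ d ∈ D, X ≤ 𝐍 (P d)
  un : ∀ d ∈ D, ∀ e ∈ D, d ∈ 𝐍 (P e) → P d = P e
  cu : ∀ d ∈ D, ∀ e ∈ D, d * e ∉ X → d * e * (d * e) ∈ X →
    ∀ g ∈ H, g * (d * e) * g⁻¹ * (d * e)⁻¹ ∈ X → g ∈ 𝐍 (P d)

/-- products of `d` with a different commuting conjugate -/
def WW (d : G) : Set G := {w | ∃ e, IsConj d e ∧ e ≠ d ∧ Commute d e ∧ w = d * e}

/-- the point of `d` -/
def PP (d : G) : Subgroup G := ⨆ w ∈ WW d, ⨆ g ∈ 𝐂₁ w, cj g (OL d)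

/-- the odd core of the point -/
abbrev Th (d : G) : Subgroup G := 𝐎 {2}ᶜ (PP d)

/-- a minimal counterexample to the normality theorem -/
structure Mn (f : G) (θ : G → Pm) : Prop extends HI f θ where
  h0 : H0 f
  o1 : 𝐎 {2}ᶜ (⊤ : Subgroup G) = ⊥
  z1 : ∀ w : G, Iv w → 𝐂₁ w ≠ ⊤
  ih : ∀ H : Subgroup G, H ≠ ⊤ → f ∈ H → OL f ≤ H → H ≤ 𝐍 (OL f ⊔ 𝐎 {2}ᶜ H : Subgroup G)
  nn : ¬ (OL f).Normal

/-- with its points -/
structure Mp (f : G) (θ : G → Pm) : Prop extends Mn f θ where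
  pt : PT ⊤ ⊥ (ZD.Cl f) PP
  wne : (WW f).Nonempty
  pl : PP f = OL f ⊔ Th f
  th : ∀ w ∈ WW f, Th f ≤ 𝐂₁ w
  nt : 𝐍 (PP f) ≠ ⊤

/-- an inner pair `f`, `g * f * g⁻¹` -/
structure IP (f : G) (θ : G → Pm) (g : G) : Prop extends HI f θ where
  cm : Commute f (g * f * g⁻¹)
  tz : θ (g * f * g⁻¹) = pZ
  tz' : θ (g⁻¹ * f * g) = pZ
  ee : ∀ x ∈ OL f, θ x ∈ EE → θ (g⁻¹ * x * g) ∈ EE
  cc : ∀ y ∈ 𝐍 (OL (g * f * g⁻¹)), (∀ x ∈ OL f, Commute x (g * f * g⁻¹) → Commute x y) →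
    θ (g⁻¹ * y * g) = 1 ∨ θ (g⁻¹ * y * g) = pZ
  yy : ∀ a ∈ OL f, ∀ b ∈ OL f, Odd (orderOf a) → Odd (orderOf b) → Commute (θ a) pZ → Commute (θ b) pZ →
    (θ a * θ b) ^ 2 = pZ → θ (g⁻¹ * (a * b) ^ 2 * g) = pZ

/-- `V = W × ⟨f⟩` is elementary abelian and self-centralising, and all translations occur -/
structure Af (V W : Subgroup G) (f : G) : Prop where
  le : W ≤ V
  fV : f ∈ V
  fW : f ∉ W
  sq : ∀ a ∈ V, a * a = 1
  dec : ∀ v ∈ V, v ∈ W ∨ f * v ∈ W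
  cen : 𝐂 V ≤ V
  tr : ∀ w ∈ W, ∃ j ∈ 𝐂 W, j * f * j⁻¹ = f * w

/-- the abelian subgroup `J` of index two of `C(W) ∩ N(V)` -/
structure Jf (V W J : Subgroup G) (f : G) : Prop extends Af V W f where
  ab : Abel J
  WJ : W ≤ J
  fJ : f ∉ J
  del : ∀ j ∈ J, j * f * j⁻¹ * f ∈ W
  sur : ∀ w ∈ W, ∃ j ∈ J, j * f * j⁻¹ * f = w
  all : ∀ k ∈ 𝐂 W, k * f * k⁻¹ * f ∈ W → k ∈ J ∨ k * f ∈ J
  nor : 𝐂₁ f ⊓ 𝐍 W ≤ 𝐍 J
  ty : (∀ j ∈ J, j * j = 1) ∨ ∀ j ∈ J, f * j * f = j⁻¹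

/-- the halves `lam a` of the involutions `a` of `OL s` -/
structure B1 (s : G) (θ : G → Pm) (W J : Subgroup G) (lam : G → G) : Prop extends HI s θ where
  vs : 𝐂₁ s ⊓ 𝐂 (OL s) ≤ zpowers s
  inj : ∀ x ∈ OL s, θ x = 1 → x = 1
  nD : ∀ x ∈ OL s, ¬ IsConj s x
  mW : ∀ x, x ∈ W ↔ x ∈ OL s ∧ θ x ∈ EE
  jf : Jf (W ⊔ zpowers s) W J s
  el : ∀ j ∈ J, j * j = 1
  eqv : ∀ a ∈ OL s, Iv a → ∀ l ∈ OL s, lam (l * a * l⁻¹) = l * lam a * l⁻¹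
  sq : ∀ a ∈ OL s, Iv a → lam a * lam a = 1
  del : ∀ a ∈ OL s, Iv a → s * lam a * s = lam a * a
  cen : ∀ a ∈ OL s, Iv a → ∀ x ∈ OL s, Commute x a → Commute x (lam a)
  mJ : ∀ a ∈ W, a ≠ 1 → lam a ∈ J
  add : ∀ a ∈ W, ∀ b ∈ W, a ≠ 1 → b ≠ 1 → a ≠ b → lam (a * b) = lam a * lam b

/-- the hypothesis of the theorem -/
structure Hy (V : Subgroup G) (f : G) (θ : G → Pm) : Prop where
  iv : Iv f
  fV : f ∈ V
  sq : ∀ a ∈ V, a * a = 1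
  card : ♯V = 2 ^ 11
  nor : 𝐂₁ f ≤ 𝐍 V
  le : V ≤ 𝐂₁ f
  hom : HomOn (𝐂₁ f) θ
  mem : ∀ g ∈ 𝐂₁ f, θ g ∈ S2
  sur : ∀ a ∈ S2, ∃ g ∈ 𝐂₁ f, θ g = a
  ker : ∀ g ∈ 𝐂₁ f, (θ g = 1 ↔ g ∈ V)

/-- coordinates on `S / Z` in which the elements `g i` act by the matrices of type `t` -/
structure Mz (t : ℕ) (S Z : Subgroup G) (ν : G → ℕ) (f : G) (g : ℕ → G) : Prop where
  t3 : t < 3
  co : Co 11 S Z ν
  fS : f ∈ S
  nf : ν f = 1024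
  tb : Tb (Ac 11 S ν) g (nth (mo 11) (LN t))
  gZ : ∀ i, g i ∈ 𝐍 Z

/-- the faithful case -/
structure Mo (t : ℕ) (V : Subgroup G) (ν : G → ℕ) (f : G) (g : ℕ → G) (θ : G → Pm) : Prop
    extends Hy V f θ, Mz t V ⊥ ν f g where
  cen : 𝐂 V ≤ V
  gC : ∀ i, g i ∈ 𝐂₁ f
  ph : ∀ i, θ (g i) = φ i

/-- the orbit of `f` under `N(V)` -/
def Dl (V : Subgroup G) (f : G) : Set G := {d | ∃ n ∈ 𝐍 V, n * f * n⁻¹ = d}

/-- the orbit has 276 members -/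
structure C276 (V : Subgroup G) (f : G) : Prop where
  card : (Dl V f).ncard = 276
  gen : V ≤ closure (Dl V f)
  mx : ∀ K : Subgroup G, 𝐂₁ f ≤ K → K ≤ 𝐍 V → K = 𝐂₁ f ∨ K = 𝐍 V
  four : ∃ a ∈ Dl V f, ∃ b ∈ Dl V f, a * b ∈ Dl V f
  big : ∀ v ∈ V, v ≠ 1 → v ∉ Dl V f → ♯(𝐂₁ f ⊓ 𝐂₁ v) * 231 ≤ ♯(𝐂₁ f)

/-- the vectors with last coordinate zero -/
def Wz {t : ℕ} {S Z : Subgroup G} {ν : G → ℕ} {f : G} {g : ℕ → G} (h : Mz t S Z ν f g) : Subgroup G where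
  carrier := {v | v ∈ S ∧ ν v < 1024}
  one_mem' := ⟨one_mem _, by rw [h.co.one]; norm_num⟩
  mul_mem' := fun {a b} ha hb => ⟨mul_mem ha.1 hb.1, by
    rw [h.co.mul a ha.1 b hb.1]; exact Nat.xor_lt_two_pow (n := 10) ha.2 hb.2⟩
  inv_mem' := fun {a} ha => ⟨inv_mem ha.1, by rw [h.co.inv ha.1]; exact ha.2⟩

/-- the orbit is the coset `f W` -/
structure A6 (t : ℕ) (V : Subgroup G) (ν : G → ℕ) (f : G) (g : ℕ → G) (θ : G → Pm) (W J : Subgroup G) : Prop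
    extends Mo t V ν f g θ where
  t0 : t ≠ 0
  mW : ∀ v, v ∈ W ↔ v ∈ V ∧ ν v < 1024
  dl : ∀ v ∈ V, (IsConj f v ↔ v ∉ W)
  jf : Jf V W J f
  CW : 𝐂₁ f ≤ 𝐍 W
  h1 : ∀ x : G, x * f * x⁻¹ ∈ 𝐍 J → x ∈ 𝐍 J

/-- the homocyclic configuration -/
structure Hc (f : G) (W J : Subgroup G) : Prop where
  iv : Iv f
  ab : Abel J
  WJ : W ≤ J
  card : ♯W = 1024
  inv : ∀ j ∈ J, f * j * f = j⁻¹
  sq : ∀ j ∈ J, j * j ∈ W
  om : ∀ j ∈ J, (j * j = 1 ↔ j ∈ W)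
  rt : ∀ w ∈ W, ∃ j ∈ J, j * j = w
  CJ : 𝐂₁ f ≤ 𝐍 J
  h1 : ∀ x : G, x * f * x⁻¹ ∈ 𝐍 J → x ∈ 𝐍 J
  rf : ∀ k ∈ 𝐂 W, k * f * k⁻¹ * f ∈ W → k ∈ J ∨ k * f ∈ J
  cf : ∀ y ∈ 𝐂 W, Commute y f → y ∈ W ∨ y * f ∈ W
  p2 : ∀ x ∈ 𝐍 J, x * f * x⁻¹ * f ∈ J → ∃ k ∈ 𝐂 W, k⁻¹ * x ∈ 𝐂₁ f
  f2 : ∀ A : Subgroup G, (∀ a ∈ A, a * a ∈ 𝐂 W ∧ ∃ k ∈ 𝐂 W, k⁻¹ * a ∈ 𝐂₁ f) →
    A ≤ 𝐂 W ∨ ♯A * ♯(W ⊓ 𝐂 A) * 2 ≤ 1024 * ♯(A ⊓ 𝐂 W)

end CF.Tr
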