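import Cfsg.Agent.Tr.I1

/-! Translations and the abelian subgroup `J`. -/

set_option autoImplicit false
set_option maxRecDepth 1000000
set_option linter.unusedSectionVars false

namespace CF.Tr
open Cfsg Subgroup CF.BG CF.Bender CF.J4 CF.Comp CF.Dce CF.Comp.Mat CF.Dce.J4
open scoped commutatorElement

universe u
variable {G : Type u} [Group G] [Finite G] {f g : G} {V W J B : Subgroup G}

theorem tl0 {S T : Subgroup G} {w₀ : G} (WS : W ≤ S) (nS : S ⊴ ⊤) (nW : W ⊴ ⊤) (sq : ∀ a ∈ S, a * a = 1) (fS : f ∈ S)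
    (fW : f ∉ W) (tr : ∀ w ∈ W, ∃ g, g * f * g⁻¹ = f * w) (pT : PiGrp {2} T) (Tf : T ≤ 𝐂₁ f)
    (fix : ∀ w ∈ W, w ∈ 𝐂 T → w = 1 ∨ w = w₀) (span : W ≤ closure {x | ∃ g, x = g * w₀ * g⁻¹})
    (dec : ∀ v ∈ S, v ∈ W ∨ f * v ∈ W) : ∀ w ∈ W, ∃ g ∈ 𝐂 W, g * f * g⁻¹ = f * w := by
  by_cases b : W = ⊥
  · exact fun w hw => ⟨1, one_mem _, by simp [eq_one_of_mem_bot b hw]⟩
  have f2 := sq f fS
  have cl : ∀ g, f * (g * f * g⁻¹) ∈ W := fun g => (dec _ (nS.conj_mem trivial fS)).resolve_left fun k =>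
    fW (by simpa [mul_assoc] using nW.conj_mem' (mem_top g) k)
  have pW := pi2_grp fun x hx => sq x (WS hx)
  obtain ⟨P, s, l⟩ := exists_syl_le le_top pT
  have tp : ∀ w ∈ W, ∃ p ∈ P, p * f * p⁻¹ = f * w := fun w hw => by
    obtain ⟨g, e⟩ := tr w hw
    have c : (𝐂₁ f).index = ♯W := by
      rw [← card_conjugatesOf]
      refine Nat.card_congr ⟨fun x => ⟨f * x, (isConj_iff.1 x.2).elim fun g e => e ▸ cl g⟩,
        fun w => ⟨f * w, (tr w w.2).elim fun g e => isConj_iff.2 ⟨g, e⟩⟩, fun x => Subtype.ext ?_, fun x => Subtype.ext ?_⟩ <;>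
        simp [← mul_assoc, f2]
    obtain ⟨p, hp, y, hy, rfl⟩ := CF.Solv.exists_mul_eq_of_coprime_index (H := P) (K := 𝐂₁ f)
      (by rw [c, ← relIndex_top_right]; exact s.idx.coprime' pW) g
    exact ⟨p, hp, by rw [← e, ← comm_iff_cj.1 (c1_comm hy)]; simp [mul_assoc, (c1_comm hy).eq]⟩
  have nK : P ≤ 𝐍 (𝐂 S) := norm_cent (le_top.trans nS.norm)
  have all : ∀ z, (∀ p ∈ P, Commute z (p * f * p⁻¹)) → z ∈ 𝐂 S := fun z e => cen_of fun x hx => by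
    have k : ∀ w ∈ W, Commute z (f * w) := fun w hw => (tp w hw).elim fun p k => k.2 ▸ e p k.1
    have k1 := k 1 (one_mem _)
    rw [mul_one] at k1
    rcases dec x hx with a | a
    · simpa [← mul_assoc, f2] using (k1.mul_right (k x a)).symm
    · simpa [← mul_assoc, f2] using (k _ a).symm
  obtain ⟨z, hz, z1⟩ := exists_mem_ne_one (PiGrp.center_ne_bot (P := qt (𝐂 S) P) (s.pi.dvd (card_qt_dvd (𝐂 S) P)) fun e => b
    (eq_bot_of_forall fun w hw => by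
      obtain ⟨p, hp, k⟩ := tp w hw
      rwa [comm_iff_cj.1 (cen_comm ((qt_eq_bot nK).1 e hp) fS).symm, left_eq_mul] at k))
  obtain ⟨z, hz', nz, rfl⟩ := mem_qt.1 hz.1
  have cz : ∀ p ∈ P, ∀ x ∈ S, z * (p * x * p⁻¹) * z⁻¹ = p * (z * x * z⁻¹) * p⁻¹ := fun p hp x hx => by
    have := (qe_eq_iff (mul_mem (nK hp) nz) (mul_mem nz (nK hp))).1
      (by rw [qe_mul (nK hp) nz, qe_mul nz (nK hp)]; exact cen_comm hz.2 (qe_mem_qt hp (nK hp)))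
    calc _ = p * z * ((p * z)⁻¹ * (z * p) * x * ((p * z)⁻¹ * (z * p))⁻¹) * (p * z)⁻¹ := by group
      _ = _ := by rw [comm_iff_cj.1 (cen_comm this hx).symm]; group
  have e0 : z * f * z⁻¹ = f * w₀ := by
    rcases fix _ (cl z) (cen_of fun t ht => (c1_comm (Tf ht)).mul_right (comm_iff_cj.2 (by
      rw [← cz t (l ht) f fS, comm_iff_cj.1 (c1_comm (Tf ht))]))) with e | e
    · refine absurd ((qe_eq_one nz).2 (all z fun p hp => comm_iff_cj.2 ?_)) z1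
      rw [cz p hp f fS, eq_inv_of_mul_eq_one_right e, inv_sq f2]
    · rw [← e, ← mul_assoc, f2, one_mul]
  obtain ⟨w, hw, w1⟩ := exists_mem_ne_one (s.pi.inf_cent_ne_bot pW (le_top.trans nW.norm) b)
  obtain rfl := (fix w hw.1 (cent_anti l hw.2)).resolve_left w1
  have zW : z ∈ 𝐂 W := cen_of fun x hx => (comm_iff_cj.2 (by
    obtain ⟨p, hp, k⟩ := tp x hx
    have := cz p hp f fS
    rw [k, e0, show p * (f * w) * p⁻¹ = p * f * p⁻¹ * (p * w * p⁻¹) by group, k, comm_iff_cj.1 (cen_comm hw.2 hp),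
      show z * (f * x) * z⁻¹ = z * f * z⁻¹ * (z * x * z⁻¹) by group, e0, mul_assoc f w, mul_assoc f x, mul_right_inj,
      (abel_of_sq sq).mul_comm (WS hx) (WS hw.1), mul_right_inj] at this
    exact this)).symm
  let R : Subgroup G :=
    { carrier := {x | x ∈ W ∧ ∃ g ∈ 𝐂 W, g * f * g⁻¹ = f * x}
      one_mem' := ⟨one_mem _, 1, one_mem _, by simp⟩
      mul_mem' := fun {a b} ⟨ha, g, hg, e⟩ ⟨hb, k, hk, e'⟩ => ⟨mul_mem ha hb, g * k, mul_mem hg hk, by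
        rw [show g * k * f * (g * k)⁻¹ = g * (k * f * k⁻¹) * g⁻¹ by group, e', ← mul_assoc, mul_assoc _ b,
          (cen_comm (inv_mem hg) hb).eq, ← mul_assoc, e, mul_assoc]⟩
      inv_mem' := fun {a} ha => by rwa [inv_sq (sq a (WS ha.1))] }
  refine fun x hx => ((closure_le R).2 ?_ (span hx)).2
  rintro _ ⟨n, rfl⟩
  have k := cen_cj (nW.norm (mem_top n)) zW
  refine ⟨nW.conj_mem trivial hw.1, _, k, ?_⟩
  have e1 : f = n * f * n⁻¹ * (f * (n * f * n⁻¹)) := by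
    rw [(abel_of_sq sq).mul_comm fS (nS.conj_mem trivial fS), ← mul_assoc, sq_cj f2, one_mul]
  have m := cl n
  generalize f * (n * f * n⁻¹) = u at e1 m
  conv_lhs => rw [e1, ← mul_assoc, mul_assoc _ u, (cen_comm (inv_mem k) m).eq]
  conv_rhs => rw [e1, mul_assoc, (abel_of_sq sq).mul_comm (WS m) (WS (nW.conj_mem trivial hw.1))]
  rw [show n * z * n⁻¹ * (n * f * n⁻¹) * ((n * z * n⁻¹)⁻¹ * u) = n * (z * f * z⁻¹) * n⁻¹ * u by group, e0]; group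

theorem tl {S Z N T : Subgroup G} {w₀ : G} (ZW : Z ≤ W) (WS : W ≤ S) (SN : S ≤ N) (nS : N ≤ 𝐍 S) (nZ : N ≤ 𝐍 Z)
    (nW : N ≤ 𝐍 W) (sq : ∀ a ∈ S, a * a ∈ Z) (fS : f ∈ S) (fW : f ∉ W)
    (tr : ∀ w ∈ W, ∃ g ∈ N, g * f * g⁻¹ * (f * w)⁻¹ ∈ Z) (TN : T ≤ N) (pT : IsPGroup 2 T)
    (Tf : ∀ g ∈ T, g * f * g⁻¹ * f⁻¹ ∈ Z)
    (fix : ∀ w ∈ W, (∀ g ∈ T, g * w * g⁻¹ * w⁻¹ ∈ Z) → w ∈ Z ∨ w * w₀⁻¹ ∈ Z) (w0 : w₀ ∈ W)
    (span : W ≤ Z ⊔ closure {x | ∃ g ∈ N, x = g * w₀ * g⁻¹}) (dec : ∀ v ∈ S, v ∈ W ∨ f * v ∈ W) :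
    ∀ w ∈ W, ∃ g ∈ N, g * f * g⁻¹ * (f * w)⁻¹ ∈ Z ∧ ∀ x ∈ W, g * x * g⁻¹ * x⁻¹ ∈ Z := fun w hw => by
  have WN := WS.trans SN
  obtain ⟨Q, _, _, ψ, q⟩ := exists_qm (O := Z) (H := N) ⟨ZW.trans WN, nZ⟩
  have fN := SN fS
  have mW : ∀ x ∈ N, ψ x ∈ q.hom.im W WN ↔ x ∈ W := fun x hx => by rw [q.mem_sup WN hx, sup_eq_left.2 ZW]
  have e : ∀ g ∈ N, ∀ w ∈ W, ψ g * ψ f * (ψ g)⁻¹ = ψ f * ψ w ↔ g * f * g⁻¹ * (f * w)⁻¹ ∈ Z := fun g hg w hw => by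
    rw [← q.hom.conj hg fN, ← q.hom _ fN _ (WN hw), q.div' (mul_mem (mul_mem hg fN) (inv_mem hg)) (mul_mem fN (WN hw))]
  obtain ⟨g, hg, k⟩ := tl0 (W := q.hom.im W WN) (S := q.hom.im S SN) (T := q.hom.im T TN) (f := ψ f) (w₀ := ψ w₀)
    (fun y hy => by obtain ⟨x, hx, rfl⟩ := q.hom.mem_im.1 hy; exact q.hom.mem_im.2 ⟨x, WS hx, rfl⟩)
    (q.im_nor ⟨SN, nS⟩) (q.im_nor ⟨WN, nW⟩)
    (fun y hy => by obtain ⟨x, hx, rfl⟩ := q.hom.mem_im.1 hy; rw [← q.hom _ (SN hx) _ (SN hx), q.k1 (sq x hx)])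
    (q.hom.mem_im.2 ⟨f, fS, rfl⟩) (fun k => fW ((mW f fN).1 k))
    (fun y hy => by
      obtain ⟨x, hx, rfl⟩ := q.hom.mem_im.1 hy
      obtain ⟨g, hg, k⟩ := tr x hx
      exact ⟨ψ g, (e g hg x hx).2 k⟩)
    (im_pi _ _ (piGrp_of_isPGroup Nat.prime_two pT))
    (fun y hy => by obtain ⟨x, hx, rfl⟩ := q.hom.mem_im.1 hy; exact c1_of ((q.comm (TN hx) fN).2 (Tf x hx)))
    (fun y hy c => by
      obtain ⟨x, hx, rfl⟩ := q.hom.mem_im.1 hy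
      exact (fix x hx fun g hg => (q.comm (TN hg) (WN hx)).1 (cen_comm c (q.hom.mem_im.2 ⟨g, hg, rfl⟩))).imp q.k1
        (q.div' (WN hx) (WN w0)).2)
    (fun y hy => by
      obtain ⟨x, hx, rfl⟩ := q.hom.mem_im.1 hy
      refine (q.hom.mem_pre.1 ((sup_le (q.le_pre _) ((closure_le _).2 ?_) : _ ≤ q.hom.pre _) (span hx))).2
      rintro _ ⟨g, hg, rfl⟩
      exact q.hom.mem_pre.2 ⟨mul_mem (mul_mem hg (WN w0)) (inv_mem hg), subset_closure ⟨ψ g, q.hom.conj hg (WN w0)⟩⟩)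
    (fun y hy => by
      obtain ⟨x, hx, rfl⟩ := q.hom.mem_im.1 hy
      rw [← q.hom _ fN _ (SN hx), mW x (SN hx), mW _ (mul_mem fN (SN hx))]; exact dec x hx)
    _ ((mW w (WN hw)).2 hw)
  obtain ⟨g, gN, rfl⟩ := q.sur g
  exact ⟨g, gN, (e g gN w hw).1 k, fun x hx => (q.comm gN (WN hx)).1 (cen_comm hg ((mW x (WN hx)).2 hx)).symm⟩

/-- the translation attached to `k` -/
abbrev dl (f k : G) : G := k * f * k⁻¹ * f

namespace Af
variable (h : Af V W f) {j k x : G}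
include h

theorem f2 : f * f = 1 := h.sq f h.fV

theorem ab : Abel V := abel_of_sq h.sq

theorem sqW (hx : x ∈ W) : x * x = 1 := h.sq x (h.le hx)

theorem cW (hx : x ∈ V) : x ∈ 𝐂 W := cent_anti h.le (h.ab hx)

theorem d0 : dl f k = 1 ↔ Commute k f := by rw [comm_iff_c, inv_sq h.f2]

theorem mV (c : k ∈ 𝐂 W) (e : Commute k f) : k ∈ V := h.cen (cen_of fun x hx => by
  rcases h.dec x hx with a | a
  · exact cen_comm c a
  · simpa [← mul_assoc, h.f2] using e.symm.mul_left (cen_comm c a))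

/-- the elements of `C(W)` normalising `V` -/
def R : Subgroup G where
  carrier := {k | k ∈ 𝐂 W ∧ dl f k ∈ W}
  one_mem' := ⟨one_mem _, by simp [dl, h.f2]⟩
  mul_mem' := fun {a b} ha hb => ⟨mul_mem ha.1 hb.1, by
    rw [show dl f (a * b) = a * dl f b * a⁻¹ * (a * f⁻¹ * a⁻¹ * f) by unfold dl; group, comm_iff_cj.1 (cen_comm ha.1 hb.2).symm,
      inv_sq h.f2]
    exact mul_mem hb.2 ha.2⟩
  inv_mem' := fun {a} ha => ⟨inv_mem ha.1, by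
    have := conj_mem_of_norm (cent_le_norm W (h.cW h.fV)) (conj_mem_of_norm' (cent_le_norm W ha.1) ha.2)
    simpa [dl, mul_assoc, inv_sq h.f2, ← mul_assoc f f, h.f2] using this⟩

theorem mR : k ∈ h.R ↔ k ∈ 𝐂 W ∧ dl f k ∈ W := Iff.rfl

theorem hd : HomOn h.R (dl f) := fun a ha b hb => by
  rw [show dl f (a * b) = a * dl f b * a⁻¹ * (a * f⁻¹ * a⁻¹ * f) by unfold dl; group, comm_iff_cj.1 (cen_comm ha.1 hb.2).symm,
    inv_sq h.f2, h.ab.mul_comm (h.le hb.2) (h.le ha.2)]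

theorem VR (hx : x ∈ V) : x ∈ h.R ∧ dl f x = 1 :=
  have := h.d0.2 (h.ab.mul_comm hx h.fV)
  ⟨⟨h.cW hx, this ▸ one_mem _⟩, this⟩

theorem dcj (hx : x ∈ 𝐂₁ f) : dl f (x * k * x⁻¹) = x * dl f k * x⁻¹ := by
  conv_lhs => rw [dl, ← comm_iff_cj.1 (c1_comm hx)]
  group

theorem Rcj (hx : x ∈ 𝐂₁ f ⊓ 𝐍 W) (hk : k ∈ h.R) : x * k * x⁻¹ ∈ h.R :=
  ⟨cen_cj hx.2 hk.1, h.dcj hx.1 ▸ conj_mem_of_norm hx.2 hk.2⟩

theorem div (hj : j ∈ h.R) (hk : k ∈ h.R) (e : dl f j = dl f k) : j⁻¹ * k ∈ V :=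
  h.mV (mul_mem (inv_mem hj) hk).1 (h.d0.1 (hom_div h.hd hj hk e))

theorem sqV (hk : k ∈ h.R) : k * k ∈ V :=
  h.mV (mul_mem hk hk).1 (h.d0.1 (by rw [h.hd _ hk _ hk, h.sqW hk.2]))

theorem sq1 (hk : k ∈ h.R) (n : dl f k ≠ 1) : k * k ∈ W := (h.dec _ (h.sqV hk)).resolve_right fun a => n (h.d0.2 (by
  simpa [mul_assoc] using (cen_comm hk.1 a).symm.mul_right ((Commute.refl k).mul_right (Commute.refl k)).inv_right))

theorem sqw (hk : k ∈ h.R) (hx : x ∈ W) : k * x * (k * x) = k * k := by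
  rw [mul_assoc, ← mul_assoc x, (cen_comm hk.1 hx).eq, mul_assoc, h.sqW hx, mul_one]

theorem sqf (hk : k ∈ h.R) : k * f * (k * f) = dl f k * (k * k) := by
  rw [show dl f k * (k * k) = k * f * k⁻¹ * (f * (k * k)) by unfold dl; group, h.ab.mul_comm h.fV (h.sqV hk)]; group

theorem sqv (hk : k ∈ h.R) (hx : x ∈ V) : k * x * (k * x) = k * k ∧ x ∈ W ∨ k * x * (k * x) = dl f k * (k * k) := by
  rcases h.dec x hx with a | a
  · exact .inl ⟨h.sqw hk a, a⟩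
  · rw [← h.sqf hk, ← h.sqw (mul_mem hk (h.VR h.fV).1) a, mul_assoc k f, ← mul_assoc f, h.f2, one_mul]; exact .inr rfl

theorem uq (hj : j ∈ h.R) (hk : k ∈ h.R) (e : dl f j = dl f k) (n : dl f j ≠ 1) (s : j * j = k * k) : j⁻¹ * k ∈ W := by
  rcases h.sqv hj (h.div hj hk e) with a | a
  · exact a.2
  · rw [mul_inv_cancel_left, ← s, right_eq_mul] at a; exact absurd a n

theorem fj (hj : j ∈ h.R) : f * j * f = j * dl f j := by
  rw [← (cen_comm hj.1 hj.2).eq, ← inv_sq (h.sqW hj.2), dl, mul_inv_rev, mul_inv_rev, mul_inv_rev, inv_sq h.f2]; group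

theorem jf2 {w₁ k₀ : G} (hj : j ∈ h.R) (e : dl f j = w₁) (n1 : w₁ ≠ 1) (s : j * j = 1 ∨ j * j = w₁) (k0 : k₀ ∈ 𝐂₁ f ⊓ 𝐍 W)
    (c : Commute j (k₀ * j * k₀⁻¹))
    (d3 : W ≤ closure ({w₁} ∪ {x | ∃ k ∈ 𝐂₁ f ⊓ 𝐍 W, Commute k w₁ ∧ x = k * (k₀ * w₁ * k₀⁻¹) * k⁻¹})) : ∃ J, Jf V W J f := by
  have u : ∀ k ∈ 𝐂₁ f ⊓ 𝐍 W, Commute k w₁ → j⁻¹ * (k * j * k⁻¹) ∈ W := fun k hk c =>
    h.uq hj (h.Rcj hk hj) (by rw [h.dcj hk.1, e, comm_iff_cj.1 c]) (e ▸ n1) (by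
      rw [show k * j * k⁻¹ * (k * j * k⁻¹) = k * (j * j) * k⁻¹ by group]
      rcases s with s | s <;> rw [s]
      exacts [by simp, (comm_iff_cj.1 c).symm])
  have su : ∀ K : Subgroup G, K ≤ h.R → j ∈ K → (∀ k ∈ 𝐂₁ f ⊓ 𝐍 W, Commute k w₁ → k * k₀ * j * (k * k₀)⁻¹ ∈ K) →
      ∀ w ∈ W, ∃ x ∈ K, dl f x = w := fun K l m a w hw => clo_im (h.hd.mono l) (by
    rintro _ (rfl | ⟨k, hk, c, rfl⟩)
    · exact ⟨j, m, e⟩
    · exact ⟨_, a k hk c, by rw [h.dcj (mul_mem hk k0).1, e]; group⟩) w (d3 hw)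
  have c1 : ∀ k ∈ h.R, k * j * k⁻¹ * j⁻¹ = 1 ∨ k * j * k⁻¹ * j⁻¹ = w₁ := fun k hk => by
    obtain ⟨x, hx, t⟩ := su (h.R ⊓ 𝐂₁ j) inf_le_left ⟨hj, self_mem_cent1 j⟩ (fun k hk a => ⟨h.Rcj (mul_mem hk k0) hj, c1_of (by
      have := (comm_cj c k).symm.mul_right (cen_comm (h.Rcj hk (h.Rcj k0 hj)).1 (inv_mem (u k hk a))).symm
      simpa [mul_assoc] using this)⟩) _ hk.2
    have cx := comm_iff_cj.1 (c1_comm hx.2)
    rw [← mul_inv_cancel_left x k]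
    have m := h.div hx.1 hk t
    generalize x⁻¹ * k = v at m
    rw [show x * v * j * (x * v)⁻¹ = x * (v * j * v⁻¹) * x⁻¹ by group]
    rcases h.dec v m with a | a
    · rw [comm_iff_cj.1 (cen_comm hj.1 a), cx]; exact .inl (mul_inv_cancel _)
    · rw [show v * j * v⁻¹ = f⁻¹ * (f * v * j * (f * v)⁻¹) * f by group, comm_iff_cj.1 (cen_comm hj.1 a), inv_sq h.f2, h.fj hj,
        ← (cen_comm hj.1 hj.2).eq, show x * (dl f j * j) * x⁻¹ = x * dl f j * x⁻¹ * (x * j * x⁻¹) by group, cx,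
        comm_iff_cj.1 (cen_comm hx.1.1 hj.2).symm, e]
      exact .inr (mul_inv_cancel_right _ _)
  have c2 : ∀ k ∈ 𝐂₁ f ⊓ 𝐍 W, Commute (k * j * k⁻¹) j := fun k hk => by
    by_cases a : Commute k w₁
    · simpa using ((Commute.refl j).mul_left (cen_comm hj.1 (u k hk a)))
    refine comm_iff_c.2 ((c1 _ (h.Rcj hk hj)).resolve_right fun b => ?_)
    rcases c1 _ (h.Rcj (inv_mem hk) hj) with t | t
    · exact n1 (b.symm.trans (comm_iff_c.1 (by simpa [mul_assoc] using (comm_cj (comm_iff_c.2 t) k).symm)))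
    · refine a (comm_iff_cj.2 ?_)
      rw [← inv_sq (h.sqW (e ▸ hj.2 : w₁ ∈ W)), ← b]
      conv_lhs => rw [b, inv_sq (h.sqW (e ▸ hj.2 : w₁ ∈ W)), ← t]
      group
  let A : Set G := W ∪ {x | ∃ k ∈ 𝐂₁ f ⊓ 𝐍 W, x = k * j * k⁻¹}
  have l : closure A ≤ h.R := (closure_le _).2 (by rintro _ (a | ⟨k, hk, rfl⟩); exacts [(h.VR (h.le a)).1, h.Rcj hk hj])
  have ab : Abel (closure A) := (closure_le _).2 fun x hx => cen_of (clo_le_cen fun y hy => by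
    rcases hy with b | ⟨k', hk', rfl⟩
    · exact cen_comm (l (subset_closure hx)).1 b
    rcases hx with a | ⟨k, hk, rfl⟩
    · exact (cen_comm (h.Rcj hk' hj).1 a).symm
    · simpa [mul_assoc] using comm_cj (c2 _ (mul_mem (inv_mem hk) hk')) k)
  have WJ : W ≤ closure A := fun x hx => subset_closure (.inl hx)
  have jJ : j ∈ closure A := subset_closure (.inr ⟨1, one_mem _, by simp⟩)
  have su' := su _ l jJ fun k hk _ => subset_closure (.inr ⟨_, mul_mem hk k0, rfl⟩)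
  refine ⟨closure A, h, ab, WJ, fun a => n1 (e ▸ h.d0.2 (ab.mul_comm jJ a)), fun x hx => (l hx).2, su', fun k a b => ?_,
    fun x hx => mem_norm_of_cj_le (cj_le_iff.2 ((closure_le _).2 fun y hy => mem_cj_inv.2 (subset_closure ?_))), ?_⟩
  · obtain ⟨x, hx, t⟩ := su' _ b
    have m := h.div (l hx) ⟨a, b⟩ t
    refine (h.dec _ m).imp (fun t => by simpa using mul_mem hx (WJ t)) fun t => ?_
    simpa [h.ab.mul_comm h.fV m, ← mul_assoc] using mul_mem hx (WJ t)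
  · rcases hy with a | ⟨k, hk, rfl⟩
    exacts [.inl (conj_mem_of_norm hx.2 a), .inr ⟨_, mul_mem hx hk, by group⟩]
  refine s.imp (fun s x hx => ?_) fun s x hx => ?_
  · refine (clo_pre (hom_mul ab (hom_id _) (hom_id _) (fun _ a => a) fun _ a => a) (T := ⊥)
      (fun y hy => ⟨subset_closure hy, ?_⟩) x hx).2
    rcases hy with a | ⟨k, -, rfl⟩
    exacts [h.sqW a, sq_cj s k]
  · have nf : ∀ y ∈ closure A, f * y * f⁻¹ ∈ closure A := fun y hy => by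
      rw [inv_sq h.f2, h.fj (l hy)]; exact mul_mem hy (WJ (l hy).2)
    have := (clo_pre (hom_mul ab (hom_cjf _ f) (hom_id _) nf fun _ a => a) (T := ⊥)
      (fun y hy => ⟨subset_closure hy, ?_⟩) x hx).2
    · exact eq_inv_of_mul_eq_one_left (by simpa only [inv_sq h.f2] using mem_bot.1 this)
    rcases hy with a | ⟨k, hk, rfl⟩
    · rw [comm_iff_cj.1 (h.ab.mul_comm h.fV (h.le a))]; exact h.sqW a
    · rw [mem_bot, inv_sq h.f2, h.fj (h.Rcj hk hj), h.dcj hk.1, e, ← s,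
        show k * j * k⁻¹ * (k * (j * j) * k⁻¹) * (k * j * k⁻¹) = k * (j * j * (j * j)) * k⁻¹ by group, s, h.sqW (e ▸ hj.2)]
      simp

theorem jf {w₁ w₂ : G} (m1 : w₁ ∈ W) (n1 : w₁ ≠ 1) (n2 : w₂ ≠ w₁)
    (c2 : ∃ k ∈ 𝐂₁ f ⊓ 𝐍 W, k * w₁ * k⁻¹ = w₂)
    (d1 : ∀ w ∈ W, (∀ k ∈ 𝐂₁ f ⊓ 𝐍 W, Commute k w₁ → Commute (k * k) w) → w = 1 ∨ w = w₁)
    (d2 : ∀ w ∈ W, (∀ k ∈ 𝐂₁ f ⊓ 𝐍 W, (k * w₁ * k⁻¹ = w₁ ∧ k * w₂ * k⁻¹ = w₂ ∨ k * w₁ * k⁻¹ = w₂ ∧ k * w₂ * k⁻¹ = w₁) →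
      Commute k w) → w = 1 ∨ w = w₁ * w₂)
    (d3 : W ≤ closure ({w₁} ∪ {x | ∃ k ∈ 𝐂₁ f ⊓ 𝐍 W, Commute k w₁ ∧ x = k * w₂ * k⁻¹})) : ∃ J, Jf V W J f := by
  obtain ⟨k₀, k0, rfl⟩ := c2
  have fR := h.VR h.fV
  have df : ∀ j ∈ h.R, dl f (j * f) = dl f j := fun j hj => by rw [h.hd _ hj _ fR.1, fR.2, mul_one]
  obtain ⟨j, hj, e, s⟩ : ∃ j ∈ h.R, dl f j = w₁ ∧ j * j = 1 := by
    obtain ⟨j, c, e⟩ := h.tr w₁ m1
    have e' : dl f j = w₁ := by rw [dl, e, h.ab.mul_comm h.fV (h.le m1), mul_assoc, h.f2, mul_one]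
    have hj : j ∈ h.R := ⟨c, e' ▸ m1⟩
    rcases d1 _ (h.sq1 hj (e' ▸ n1)) (fun k hk a => by
      have := h.sqv hj (h.div hj (h.Rcj hk hj) (by rw [h.dcj hk.1, e', comm_iff_cj.1 a]))
      rw [mul_inv_cancel_left, show k * j * k⁻¹ * (k * j * k⁻¹) = k * (j * j) * k⁻¹ by group, e'] at this
      rcases this with t | t
      · exact (comm_iff_cj.2 t.1).mul_left (comm_iff_cj.2 t.1)
      · rw [comm_iff_cj, show k * k * (j * j) * (k * k)⁻¹ = k * (k * (j * j) * k⁻¹) * k⁻¹ by group, t,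
          show k * (w₁ * (j * j)) * k⁻¹ = k * w₁ * k⁻¹ * (k * (j * j) * k⁻¹) by group, t, comm_iff_cj.1 a, ← mul_assoc,
          h.sqW m1, one_mul]) with t | t
    · exact ⟨j, hj, e', t⟩
    · exact ⟨j * f, mul_mem hj fR.1, (df j hj).trans e', by rw [h.sqf hj, e', t, h.sqW m1]⟩
  have hi := h.Rcj k0 hj
  have ei : dl f (k₀ * j * k₀⁻¹) = k₀ * w₁ * k₀⁻¹ := by rw [h.dcj k0.1, e]
  have si := sq_cj s k₀
  have fi : k₀ * (j * f) * k₀⁻¹ = k₀ * j * k₀⁻¹ * f := by rw [← mul_assoc, mul_assoc _ f, ← (c1_comm (inv_mem k0).1).eq]; group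
  have m2 := ei ▸ hi.2
  have n3 : k₀ * w₁ * k₀⁻¹ ≠ 1 := fun t => n1 (cj_eq_one t)
  have u : ∀ {a b : G}, a ∈ h.R → b ∈ h.R → a * a = 1 → b * b = 1 → dl f a ≠ 1 → ∀ k ∈ 𝐂₁ f ⊓ 𝐍 W,
      k * dl f b * k⁻¹ = dl f a → ∃ x ∈ W, k * b * k⁻¹ = a * x := fun {a b} ha hb sa sb n k hk t =>
    ⟨_, h.uq ha (h.Rcj hk hb) (by rw [h.dcj hk.1, t]) n (by rw [sa, sq_cj sb]), by simp⟩
  have p : ∀ {a b x y : G}, a ∈ h.R → b ∈ h.R → x ∈ W → y ∈ W → a * x * (b * y) * (a * x * (b * y)) = a * b * (a * b) :=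
    fun {a b x y} ha hb hx hy => by
      rw [show a * x * (b * y) = a * (x * b) * y by group, (cen_comm hb.1 hx).eq,
        show a * (b * x) * y = a * b * (x * y) by group, h.sqw (mul_mem ha hb) (mul_mem hx hy)]
  generalize hi' : k₀ * j * k₀⁻¹ = i at hi ei si fi
  have β := h.sq1 (mul_mem hj hi) (by
    rw [h.hd _ hj _ hi, e, ei]; exact fun t => n2 (by rw [eq_inv_of_mul_eq_one_right t, inv_sq (h.sqW m1)]))
  rcases d2 _ β (fun k hk a => comm_iff_cj.2 (by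
    rw [show k * (j * i * (j * i)) * k⁻¹ = k * j * k⁻¹ * (k * i * k⁻¹) * (k * j * k⁻¹ * (k * i * k⁻¹)) by group]
    rcases a with a | a
    · obtain ⟨x, hx, t1⟩ := u hj hj s s (e ▸ n1) k hk (e ▸ a.1)
      obtain ⟨y, hy, t2⟩ := u hi hi si si (ei ▸ n3) k hk (ei ▸ a.2)
      rw [t1, t2, p hj hi hx hy]
    · obtain ⟨x, hx, t1⟩ := u hi hj si s (ei ▸ n3) k hk (by rw [e, ei]; exact a.1)
      obtain ⟨y, hy, t2⟩ := u hj hi s si (e ▸ n1) k hk (by rw [e, ei]; exact a.2)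
      rw [t1, t2, p hi hj hx hy, ← inv_sq (h.sqW β), mul_inv_rev, mul_inv_rev, inv_sq s, inv_sq si])) with t | t
  · exact h.jf2 hj e n1 (.inl s) k0 (hi' ▸ comm_of_sqs s si t) d3
  · refine h.jf2 (mul_mem hj fR.1) ((df j hj).trans e) n1 (.inr (by rw [h.sqf hj, s, e, mul_one])) k0 ?_ d3
    have t' : j * i = i * j * (w₁ * (k₀ * w₁ * k₀⁻¹)) := by
      rw [← t, show i * j * (j * i * (j * i)) = i * (j * j) * i * (j * i) by group, s, mul_one, si, one_mul]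
    rw [fi, Commute, SemiconjBy, show j * f * (i * f) = j * (f * i * f) by group, h.fj hi,
      show i * f * (j * f) = i * (f * j * f) by group, h.fj hj, e, ei, ← mul_assoc, t', mul_assoc, mul_assoc w₁, h.sqW m2]
    group
end Af

theorem Af.cj (h : Af V W f) (g : G) : Af (cj g V) (cj g W) (g * f * g⁻¹) :=
  ⟨cj_mono g h.le, conj_mem_cj.2 h.fV, fun a => h.fW (conj_mem_cj.1 a),
    fun a ha => by obtain ⟨a, ha', rfl⟩ := mem_cj_iff.1 ha; exact sq_cj (h.sq a ha') g,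
    fun v hv => by simpa [mem_cj, mul_assoc] using h.dec _ (mem_cj.1 hv), cj_cent g V ▸ cj_mono g h.cen, fun w hw => by
      obtain ⟨j, h1, h2⟩ := h.tr _ (mem_cj.1 hw)
      exact ⟨g * j * g⁻¹, cj_cent g W ▸ conj_mem_cj.2 h1, by
        rw [show g * j * g⁻¹ * (g * f * g⁻¹) * (g * j * g⁻¹)⁻¹ = g * (j * f * j⁻¹) * g⁻¹ by group, h2]; group⟩⟩

theorem Jf.cj (h : Jf V W J f) (g : G) : Jf (cj g V) (cj g W) (cj g J) (g * f * g⁻¹) :=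
  ⟨h.toAf.cj g, abel_cj.2 h.ab, cj_mono g h.WJ, fun a => h.fJ (conj_mem_cj.1 a),
    fun j hj => by simpa [mem_cj, mul_assoc] using h.del _ (mem_cj.1 hj), fun w hw => by
      obtain ⟨j, h1, h2⟩ := h.sur _ (mem_cj.1 hw)
      exact ⟨g * j * g⁻¹, conj_mem_cj.2 h1, by
        rw [show g * j * g⁻¹ * (g * f * g⁻¹) * (g * j * g⁻¹)⁻¹ * (g * f * g⁻¹) = g * (j * f * j⁻¹ * f) * g⁻¹ by group, h2]
        group⟩,
    fun k hk a => by simpa [mem_cj, mul_assoc] using h.all _ (mem_cen_cj.1 hk) (by simpa [mem_cj, mul_assoc] using a),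
    by rw [← cj_cent1, ← cj_norm, ← cj_inf, cj_norm_iff]; exact h.nor,
    h.ty.imp (fun a j hj => by obtain ⟨j, hj', rfl⟩ := mem_cj_iff.1 hj; exact sq_cj (a j hj') g) fun a j hj => by
      obtain ⟨j, hj', rfl⟩ := mem_cj_iff.1 hj
      rw [show g * f * g⁻¹ * (g * j * g⁻¹) * (g * f * g⁻¹) = g * (f * j * f) * g⁻¹ by group, a j hj']; group⟩

theorem Jf.cW (h : Jf V W J f) : J ≤ 𝐂 W := h.ab.trans (cent_anti h.WJ)

theorem Jf.JR (h : Jf V W J f) : J ≤ h.toAf.R := fun j hj => ⟨h.cW hj, h.del j hj⟩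

theorem Jf.cf (h : Jf V W J f) {j : G} (hj : j ∈ J) (c : Commute j f) : j ∈ W :=
  (h.dec j (h.mV (h.cW hj) c)).resolve_right fun a => h.fJ ((mul_mem_cancel_right hj).1 (h.WJ a))

theorem Jf.card (h : Jf V W J f) : ♯J = ♯W * ♯W := by
  rw [h.toAf.hd.card_eq h.JR (Z := W) fun g => ⟨fun a => ⟨h.WJ a, (h.VR (h.le a)).2⟩, fun a => h.cf a.1 (h.d0.1 a.2)⟩]
  congr 2
  exact congrArg _ (le_antisymm (fun w hw => by obtain ⟨j, hj, rfl⟩ := h.toAf.hd.mem_im.1 hw; exact h.del j hj)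
    fun w hw => h.toAf.hd.mem_im.2 (h.sur w hw))

theorem Jf.nV (h : Jf V W J f) {k : G} (hk : k ∈ 𝐍 V) (kW : k ∈ 𝐍 W) : k ∈ 𝐍 J := by
  have m := conj_mem_of_norm hk h.fV
  obtain ⟨j, hj, e⟩ := h.sur _ (h.toAf.ab.mul_comm h.fV m ▸ (h.dec _ m).resolve_left fun a =>
    h.fW ((mem_norm.1 kW f).2 a))
  rw [mul_left_inj] at e
  simpa using mul_mem (le_norm_self J hj) (h.nor (mem_inf.2 ⟨c1_of (comm_iff_cj.2 (by
    rw [show j⁻¹ * k * f * (j⁻¹ * k)⁻¹ = j⁻¹ * (k * f * k⁻¹) * j by group, ← e]; group)),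
    mul_mem (inv_mem (cent_le_norm W (h.cW hj))) kW⟩))

theorem Jf.uq (h : Jf V W J f) (ab : Abel B) (c : B ≤ 𝐂 W) (d : ∀ b ∈ B, b * f * b⁻¹ * f ∈ W) {a b : G} (ha : a ∈ B)
    (hb : b ∈ B) (n1 : a * f * a⁻¹ ≠ f) (n2 : b * f * b⁻¹ ≠ f) (n3 : a * f * a⁻¹ ≠ b * f * b⁻¹) : B ≤ J := fun x hx => by
  refine (h.all x (c hx) (d x hx)).resolve_right fun m => ?_
  have k : ∀ y ∈ B, y ∈ J → Commute y f := fun y hy t => by
    simpa using (show Commute y x from ab.mul_comm hy hx).inv_right.mul_right (h.ab.mul_comm t m)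
  have k1 : ∀ y ∈ B, y * f * y⁻¹ ≠ f → y * f ∈ J := fun y hy n =>
    (h.all y (c hy) (d y hy)).resolve_left fun t => n (comm_iff_cj.1 (k y hy t))
  have := comm_iff_cj.1 (k _ (mul_mem ha (inv_mem hb)) (by simpa using mul_mem (k1 a ha n1) (inv_mem (k1 b hb n2))))
  rw [ab.mul_comm ha (inv_mem hb)] at this
  exact n3 (by rw [← this]; conv_lhs => rw [this]
               group)

end CF.Tr
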