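import Cfsg.Agent.Tr.A

/-! General lemmas and the first facts on `S2`. -/

set_option autoImplicit false
set_option maxRecDepth 1000000
set_option linter.unusedSectionVars false

namespace CF.Tr
open Cfsg Subgroup CF.BG CF.Bender CF.J4 CF.Comp CF.Dce CF.Comp.Mat CF.Dce.J4
open scoped commutatorElement

theorem idx2 {a b : Pm} (ha : a ∈ S2) (hb : b ∈ S2) (h1 : a ∉ MM) (h2 : b ∉ MM) : a * b ∈ MM := by
  have k : ∀ {c : Pm}, c ∈ S2 → c ∉ MM → c none = some 0 ∧ c (some 0) = none := fun {c} hc n => by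
    rcases S2_mem hc (.inl rfl) with e | e <;> rcases S2_mem hc (.inr rfl) with e' | e'
    · exact absurd (c.injective (e.trans e'.symm)) (by simp)
    · exact absurd (mem_M22.2 ⟨hc.1, e, e'⟩) n
    · exact ⟨e, e'⟩
    · exact absurd (c.injective (e.trans e'.symm)) (by simp)
  exact mem_M22.2 ⟨mul_mem ha.1 hb.1, by rw [Equiv.Perm.mul_apply, (k hb h2).1, (k ha h1).2],
    by rw [Equiv.Perm.mul_apply, (k hb h2).2, (k ha h1).1]⟩

theorem MM_le : MM ≤ S2 := M22_le_S2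

theorem MM_cj {a m : Pm} (ha : a ∈ S2) (hm : m ∈ MM) : a * m * a⁻¹ ∈ MM := conj_mem_of_norm (S2_norm ha) hm

theorem S2_der {a b : Pm} (ha : a ∈ S2) (hb : b ∈ S2) : a * b * a⁻¹ * b⁻¹ ∈ MM := by
  by_cases h1 : a ∈ MM
  · simpa only [mul_assoc] using mul_mem h1 (MM_cj hb (inv_mem h1))
  by_cases h2 : b ∈ MM
  · exact mul_mem (MM_cj ha h2) (inv_mem h2)
  rw [mul_assoc]
  exact mul_mem (idx2 ha hb h1 h2) (idx2 (inv_mem ha) (inv_mem hb) (by simpa using h1) (by simpa using h2))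

theorem S2_sq {a : Pm} (ha : a ∈ S2) : a * a ∈ MM :=
  (em (a ∈ MM)).elim (fun h => mul_mem h h) fun h => idx2 ha ha h h

section Gen
variable {G : Type*} [Group G] {x y g f : G} {K L H Y : Subgroup G}

theorem evl (f : ℕ → G) :
    evL f 1 = f 0 ∧ evL f 2 = (f 0)⁻¹ ∧ evL f 3 = f 1 ∧ evL f 4 = (f 1)⁻¹ ∧ evL f 5 = f 2 ∧ evL f 6 = (f 2)⁻¹ ∧
    evL f 7 = f 3 ∧ evL f 8 = (f 3)⁻¹ ∧ evL f 9 = f 4 ∧ evL f 10 = (f 4)⁻¹ ∧ evL f 11 = f 5 ∧ evL f 12 = (f 5)⁻¹ ∧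
    evL f 13 = f 6 ∧ evL f 14 = (f 6)⁻¹ ∧ evL f 15 = f 7 ∧ evL f 16 = (f 7)⁻¹ ∧ evL f 17 = f 8 ∧ evL f 18 = (f
    8)⁻¹ ∧ evL f 19 = f 9 ∧ evL f 20 = (f 9)⁻¹ ∧ evL f 21 = f 10 ∧ evL f 22 = (f 10)⁻¹ ∧ evL f 23 = f 11 ∧ evL f
    24 = (f 11)⁻¹ ∧ evL f 25 = f 12 ∧ evL f 26 = (f 12)⁻¹ ∧ evL f 27 = f 13 ∧ evL f 28 = (f 13)⁻¹ ∧ evL f 29 = f
    14 ∧ evL f 30 = (f 14)⁻¹ ∧ evL f 31 = f 15 ∧ evL f 32 = (f 15)⁻¹ ∧ evL f 33 = f 16 ∧ evL f 34 = (f 16)⁻¹ := by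
  simp [evL]

theorem odd_sq1 (o : Odd (orderOf x)) (h : x * x = 1) : x = 1 := Suz.eq_one_of_odd_of_mul_self o h

theorem odd_mem (o : Odd (♯K)) (h : x ∈ K) : Odd (orderOf x) := o.of_dvd_nat (orderOf_dvd_card' h)

theorem cj_eq_one (h : g * x * g⁻¹ = 1) : x = 1 := by simpa using h

theorem cj_eq_one' (h : g⁻¹ * x * g = 1) : x = 1 := cj_eq_one (g := g⁻¹) (by simpa using h)

theorem odd_sqrt (o : Odd (orderOf x)) : ∃ k : ℕ, (x * x) ^ k = x := by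
  obtain ⟨k, e⟩ := o
  refine ⟨k + 1, ?_⟩
  rw [← pow_two, ← pow_mul, show 2 * (k + 1) = orderOf x + 1 by omega, pow_succ, pow_orderOf_eq_one, one_mul]

theorem mem_of_sq (o : Odd (orderOf x)) (h : x * x ∈ K) : x ∈ K :=
  (odd_sqrt o).elim fun k e => e ▸ pow_mem h k

theorem odd_mul (o : Odd (orderOf x)) (o' : Odd (orderOf y)) (c : Commute x y) : Odd (orderOf (x * y)) :=
  (o.mul o').of_dvd_nat c.orderOf_mul_dvd_mul_orderOf

theorem odd_inv (o : Odd (orderOf x)) : Odd (orderOf x⁻¹) := by rwa [orderOf_inv]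

theorem odd_pow (o : Odd (orderOf x)) (k : ℕ) : Odd (orderOf (x ^ k)) := o.of_dvd_nat (orderOf_pow_dvd k)

theorem odd_cj (o : Odd (orderOf x)) (g : G) : Odd (orderOf (g * x * g⁻¹)) := by rwa [orderOf_conj']

theorem odd_cj' (o : Odd (orderOf x)) (g : G) : Odd (orderOf (g⁻¹ * x * g)) := by simpa using odd_cj o g⁻¹

theorem comm_of_sq (o : Odd (orderOf x)) (c : Commute (x * x) y) : Commute x y :=
  (odd_sqrt o).elim fun k e => e ▸ c.pow_left k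

theorem comm_cj (c : Commute x y) (g : G) : Commute (g * x * g⁻¹) (g * y * g⁻¹) := by
  have := congrArg (fun a => g * a * g⁻¹) c.eq
  simpa [Commute, SemiconjBy, mul_assoc] using this

theorem comm_cj' (c : Commute x y) (g : G) : Commute (g⁻¹ * x * g) (g⁻¹ * y * g) := by simpa using comm_cj c g⁻¹

theorem comm_iff_cj : Commute x y ↔ x * y * x⁻¹ = y := mul_inv_eq_iff_eq_mul.symm

theorem comm_iff_c : Commute x y ↔ x * y * x⁻¹ * y⁻¹ = 1 := comm_iff_cj.trans mul_inv_eq_one.symm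

theorem comm_of_sqs (hx : x * x = 1) (hy : y * y = 1) (h : x * y * (x * y) = 1) : Commute x y := by
  have := eq_inv_of_mul_eq_one_right h
  rwa [mul_inv_rev, inv_eq_of_mul_eq_one_right hx, inv_eq_of_mul_eq_one_right hy] at this

theorem sq_mul (hx : x * x = 1) (hy : y * y = 1) (c : Commute x y) : x * y * (x * y) = 1 := by
  rw [mul_assoc, ← mul_assoc y, ← c.eq, mul_assoc, hy, mul_one, hx]

theorem sq_cj (hx : x * x = 1) (g : G) : g * x * g⁻¹ * (g * x * g⁻¹) = 1 := by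
  rw [show g * x * g⁻¹ * (g * x * g⁻¹) = g * (x * x) * g⁻¹ by group, hx]; simp

theorem cen_comm (h : y ∈ 𝐂 L) (hx : x ∈ L) : Commute x y := mem_cent.1 h x hx

theorem cen_of (h : ∀ x ∈ L, Commute x y) : y ∈ 𝐂 L := mem_cent.2 h

theorem c1_comm (h : y ∈ 𝐂₁ x) : Commute y x := mem_cent1.1 h

theorem c1_of (h : Commute y x) : y ∈ 𝐂₁ x := mem_cent1.2 h

theorem cen_cj (hg : g ∈ 𝐍 L) (h : y ∈ 𝐂 L) : g * y * g⁻¹ ∈ 𝐂 L := conj_mem_of_norm (norm_le_norm_cent L hg) h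

theorem clo_le_cen {s : Set G} (h : ∀ x ∈ s, Commute x y) : ∀ x ∈ closure s, Commute x y := fun _ hx =>
  c1_comm ((closure_le (𝐂₁ y)).2 (fun a ha => c1_of (h a ha)) hx)

theorem sq_zp (hf : f * f = 1) (h : x ∈ zpowers f) : x = 1 ∨ x = f := by
  by_cases e : f = 1
  · subst e; exact .inl (by simpa using h)
  · exact ZD.iv_zpowers ⟨e, hf⟩ h

theorem mem_sup_zp (hf : f * f = 1) (n : f ∈ 𝐍 K) : x ∈ K ⊔ zpowers f ↔ x ∈ K ∨ x * f ∈ K := by
  refine ⟨fun h => ?_, fun h => h.elim (fun h => mem_sup_left h) fun h => ?_⟩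
  · obtain ⟨a, ha, b, hb, rfl⟩ := (mem_sup_norm' (zpowers_le.2 n)).1 h
    rcases sq_zp hf hb with rfl | rfl
    · exact .inl (by simpa using ha)
    · exact .inr (by simpa [mul_assoc, hf] using ha)
  · simpa [mul_assoc, hf] using mul_mem (mem_sup_left h : _ ∈ K ⊔ zpowers f) (mem_sup_right (mem_zpowers f))

theorem pi2_of_sq (h : x * x = 1) : PiElt {2} x := piElt_of_pow_eq_one Nat.prime_two (by rwa [pow_two])

theorem pi2_grp [Finite G] (h : ∀ x ∈ K, x * x = 1) : PiGrp {2} K := piGrp_of_forall_elt fun x hx => pi2_of_sq (h x hx)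

theorem abel_of_sq (h : ∀ x ∈ K, x * x = 1) : Abel K :=
  abel_of_forall fun x hx y hy => comm_of_sqs (h x hx) (h y hy) (h _ (mul_mem hx hy))

theorem odd_elt : PiElt {2}ᶜ x ↔ Odd (orderOf x) := by
  rw [PiElt, piNat_compl_single Nat.prime_two, Nat.two_dvd_ne_zero, Nat.odd_iff]

theorem inv_sq (h : x * x = 1) : x⁻¹ = x := inv_eq_of_mul_eq_one_right h

theorem dih_inv {a b t : G} (ha : a * a = 1) (hb : b * b = 1) (ht : t ∈ zpowers (a * b)) :
    a * t * a = t⁻¹ ∧ b * t * b = t⁻¹ := by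
  obtain ⟨k, rfl⟩ := ht
  have k1 : a * (a * b) * a⁻¹ = (a * b)⁻¹ := by rw [← mul_assoc, ha, one_mul, mul_inv_rev, inv_sq hb]
  have k2 : b * (a * b) * b⁻¹ = (a * b)⁻¹ := by rw [mul_inv_rev, inv_sq ha, inv_sq hb, mul_assoc, mul_assoc, hb, mul_one]
  constructor
  · simpa only [inv_sq ha, inv_zpow] using show a * (a * b) ^ k * a⁻¹ = (a * b)⁻¹ ^ k by rw [← conj_zpow, k1]
  · simpa only [inv_sq hb, inv_zpow] using show b * (a * b) ^ k * b⁻¹ = (a * b)⁻¹ ^ k by rw [← conj_zpow, k2]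

theorem inv_cj {b t : G} (hb : b * b = 1) (h : b * t * b = t⁻¹) : t * b * t⁻¹ = t * t * b := by
  rw [← h, mul_assoc b, ← mul_assoc (t * b), mul_assoc t b b, hb, mul_one, mul_assoc]

theorem odd_root (o : Odd (orderOf x)) : ∃ s ∈ zpowers x, s * s = x ∧ Odd (orderOf s) := by
  obtain ⟨k, e⟩ := odd_sqrt o
  exact ⟨x ^ k, pow_mem (mem_zpowers x) k, by rw [← (Commute.refl x).mul_pow, e], odd_pow o k⟩

theorem dih_odd {a b : G} (ha : a * a = 1) (hb : b * b = 1) (o : Odd (orderOf (a * b))) :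
    ∃ c ∈ zpowers (a * b), c * b * c⁻¹ = a := by
  obtain ⟨s, h1, h2, -⟩ := odd_root o
  exact ⟨s, h1, by rw [inv_cj hb (dih_inv ha hb h1).2, h2, mul_assoc, hb, mul_one]⟩

theorem dih_sq {a b : G} (ha : a * a = 1) (hb : b * b = 1) (o : Odd (orderOf (a * b * (a * b)))) :
    ∃ c ∈ zpowers (a * b * (a * b)), Commute a (c * b * c⁻¹) := by
  obtain ⟨s, h1, h2, o'⟩ := odd_root o
  obtain ⟨t, h3, h4, -⟩ := odd_root o'
  have l : zpowers (a * b * (a * b)) ≤ zpowers (a * b) := zpowers_le.2 (mul_mem (mem_zpowers _) (mem_zpowers _))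
  have h5 := zpowers_le.2 h1 h3
  refine ⟨t, h5, comm_of_sqs ha (sq_cj hb t) ?_⟩
  have c := ((abel_zpowers _).mul_comm (l h1) (mem_zpowers _))
  have e : a * (s * b) = s⁻¹ * (a * b) := by
    rw [← (dih_inv ha hb (l h1)).1, mul_assoc, mul_assoc, ← mul_assoc a a, ha, one_mul]
  rw [inv_cj hb (dih_inv ha hb (l h5)).2, h4, e]
  calc s⁻¹ * (a * b) * (s⁻¹ * (a * b)) = s⁻¹ * s⁻¹ * (s * (a * b)) * s⁻¹ * (a * b) := by group
    _ = (s * s)⁻¹ * (a * b * (a * b)) := by rw [c]; group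
    _ = 1 := by rw [h2, inv_mul_cancel]

section Hom
variable {Q : Type*} [Group Q] {π : G → Q}

theorem hom_ord (h : HomOn K π) (hx : x ∈ K) : orderOf (π x) ∣ orderOf x :=
  orderOf_dvd_of_pow_eq_one (by rw [← h.pow hx, pow_orderOf_eq_one, h.one])

theorem hom_odd (h : HomOn K π) (hx : x ∈ K) (o : Odd (orderOf x)) : Odd (orderOf (π x)) :=
  o.of_dvd_nat (hom_ord h hx)

theorem hom_comm (h : HomOn K π) (hx : x ∈ K) (hy : y ∈ K) (c : Commute x y) : Commute (π x) (π y) := by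
  rw [Commute, SemiconjBy, ← h x hx y hy, ← h y hy x hx, c.eq]

theorem hom_sq (h : HomOn K π) (hx : x ∈ K) (e : x * x = 1) : π x * π x = 1 := by rw [← h x hx x hx, e, h.one]

theorem hom_c (h : HomOn K π) (hx : x ∈ K) (hy : y ∈ K) :
    π (x * y * x⁻¹ * y⁻¹) = π x * π y * (π x)⁻¹ * (π y)⁻¹ := by
  rw [h _ (mul_mem (mul_mem hx hy) (inv_mem hx)) _ (inv_mem hy), h.conj hx hy, h.inv hy]

theorem hom_div (h : HomOn K π) (hx : x ∈ K) (hy : y ∈ K) (e : π x = π y) : π (x⁻¹ * y) = 1 := by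
  rw [h _ (inv_mem hx) _ hy, h.inv hx, e, inv_mul_cancel]

theorem hom_div' (h : HomOn K π) (hx : x ∈ K) (hy : y ∈ K) (e : π x = π y) : π (x * y⁻¹) = 1 := by
  rw [h _ hx _ (inv_mem hy), h.inv hy, e, mul_inv_cancel]

theorem hom_cjf (K : Subgroup G) (g : G) : HomOn K fun x => g * x * g⁻¹ := fun a _ b _ => by group

theorem hom_id (K : Subgroup G) : HomOn K fun x => x := fun _ _ _ _ => rfl

theorem hom_mul {A : Subgroup Q} {π' : G → Q} (ab : Abel A) (h : HomOn K π) (h' : HomOn K π') (m : ∀ x ∈ K, π x ∈ A)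
    (m' : ∀ x ∈ K, π' x ∈ A) : HomOn K fun x => π x * π' x := fun a ha b hb => by
  simp only [h a ha b hb, h' a ha b hb]
  rw [mul_assoc, ← mul_assoc (π b), ab.mul_comm (m b hb) (m' a ha)]; group

theorem hom_comp {R : Type*} [Group R] {A : Subgroup Q} {π' : Q → R} (h : HomOn K π) (h' : HomOn A π')
    (m : ∀ x ∈ K, π x ∈ A) : HomOn K fun x => π' (π x) := fun a ha b hb => by
  simp only [h a ha b hb, h' _ (m a ha) _ (m b hb)]

theorem mem_ker (h : HomOn K π) : x ∈ h.pre ⊥ ↔ x ∈ K ∧ π x = 1 := by rw [h.mem_pre, mem_bot]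

theorem odd_lift [Finite G] (h : HomOn K π) (hg : g ∈ K) (o : Odd (orderOf (π g))) :
    ∃ x ∈ zpowers g, Odd (orderOf x) ∧ π x = π g := by
  obtain ⟨z, h1, h2, h3, h4, h6⟩ := constt_spec {2}ᶜ g
  have l := zpowers_le.2 hg
  refine ⟨_, h1, odd_elt.1 h3, ?_⟩
  have e : π z = 1 := by
    refine PiElt.eq_one (π := {2}ᶜ) ?_ (h4.dvd (hom_ord h (l h2)))
    obtain ⟨k, e⟩ := h2
    have : π (g ^ k) = π g ^ k := h.hom.map_zpow ⟨g, hg⟩ k
    exact (odd_elt.2 o).of_mem_zpowers ⟨k, this.symm.trans (congrArg π e)⟩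
  conv_rhs => rw [← h6, h _ (l h1) _ (l h2), e, mul_one]

theorem im_comm (h : HomOn K π) {A B : Subgroup G} (a : A ≤ K) (b : B ≤ K) (c : ⁅A, B⁆ ≤ K) :
    h.im ⁅A, B⁆ c = ⁅h.im A a, h.im B b⁆ := by
  refine le_antisymm (fun q hq => ?_) (commutator_le.2 fun p hp q hq => ?_)
  · obtain ⟨x, hx, rfl⟩ := h.mem_im.1 hq
    refine (h.mem_pre.1 ((commutator_le (H₃ := h.pre _)).2 (fun p hp q hq => h.mem_pre.2 ⟨c
      (commutator_mem_commutator hp hq), ?_⟩) hx)).2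
    rw [commutatorElement_def, hom_c h (a hp) (b hq)]
    exact commutator_mem_commutator (h.mem_im.2 ⟨p, hp, rfl⟩) (h.mem_im.2 ⟨q, hq, rfl⟩)
  · obtain ⟨x, hx, rfl⟩ := h.mem_im.1 hp
    obtain ⟨y, hy, rfl⟩ := h.mem_im.1 hq
    exact h.mem_im.2 ⟨_, commutator_mem_commutator hx hy, hom_c h (a hx) (b hy)⟩

theorem im_norm (h : HomOn K π) (a : H ≤ K) (hg : g ∈ K) (n : g ∈ 𝐍 H) : π g ∈ 𝐍 (h.im H a) := by
  have k : ∀ g ∈ K, g ∈ 𝐍 H → ∀ q ∈ h.im H a, π g * q * (π g)⁻¹ ∈ h.im H a := fun g hg n q hq => by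
    obtain ⟨x, hx, rfl⟩ := h.mem_im.1 hq
    exact h.mem_im.2 ⟨_, conj_mem_of_norm n hx, h.conj hg (a hx)⟩
  refine mem_norm.2 fun q => ⟨k g hg n q, fun hq => ?_⟩
  simpa [h.inv hg, mul_assoc] using k g⁻¹ (inv_mem hg) (inv_mem n) _ hq

theorem pre_le (h : HomOn K π) (T : Subgroup Q) : h.pre T ≤ K := fun _ hx => (h.mem_pre.1 hx).1

theorem pre_norm (h : HomOn K π) {T : Subgroup Q} (hg : g ∈ K) (n : π g ∈ 𝐍 T) : g ∈ 𝐍 (h.pre T) :=
  mem_norm.2 fun x => by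
    rw [h.mem_pre, h.mem_pre]
    refine ⟨fun k => ⟨mul_mem (mul_mem hg k.1) (inv_mem hg), h.conj hg k.1 ▸ (mem_norm.1 n _).1 k.2⟩, fun k => ?_⟩
    have : x ∈ K := by simpa [mul_assoc] using mul_mem (mul_mem (inv_mem hg) k.1) hg
    exact ⟨this, (mem_norm.1 n _).2 (h.conj hg this ▸ k.2)⟩

theorem clo_im (h : HomOn K π) {s : Set Q} (e : ∀ q ∈ s, ∃ x ∈ K, π x = q) : ∀ q ∈ closure s, ∃ x ∈ K, π x = q :=
  fun _ hq => h.mem_im.1 ((closure_le (h.im K le_rfl)).2 (fun q hq => h.mem_im.2 (e q hq)) hq)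

theorem clo_pre (h : HomOn K π) {s : Set G} {T : Subgroup Q} (e : ∀ x ∈ s, x ∈ K ∧ π x ∈ T) :
    ∀ x ∈ closure s, x ∈ K ∧ π x ∈ T :=
  fun _ hx => h.mem_pre.1 ((closure_le (h.pre T)).2 (fun x hx => h.mem_pre.2 (e x hx)) hx)

/-- a perfect group has trivial image in a soluble group -/
theorem pf_sol [Finite Q] (h : HomOn L π) (pf : L ≤ ⁅L, L⁆) {T : Subgroup Q} (s : Sol T) (e : ∀ x ∈ L, π x ∈ T) :
    ∀ x ∈ L, π x = 1 := fun x hx => by
  have l : h.im L le_rfl ≤ T := fun q hq => by obtain ⟨x, hx, rfl⟩ := h.mem_im.1 hq; exact e x hx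
  refine eq_one_of_mem_bot ((s.mono l).eq_bot_of_le_der fun q hq => ?_) (h.mem_im.2 ⟨x, hx, rfl⟩)
  obtain ⟨x, hx, rfl⟩ := h.mem_im.1 hq
  exact im_comm h le_rfl le_rfl (der_le L) ▸ h.mem_im.2 ⟨x, pf hx, rfl⟩
end Hom

theorem cc_sol [Finite G] (pf : L ≤ ⁅L, L⁆) (s : Sol Y) (c : Y ≤ 𝐂 L) (e : ∀ x ∈ L, x * y * x⁻¹ * y⁻¹ ∈ Y) : y ∈ 𝐂 L := by
  have e' : ∀ x ∈ L, y * x * y⁻¹ * x⁻¹ ∈ Y := fun x hx => by simpa [mul_assoc] using inv_mem (e x hx)
  have h : HomOn L fun x => y * x * y⁻¹ * x⁻¹ := fun a ha b hb => by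
    have := (cen_comm (c (e' b hb)) (inv_mem ha)).eq
    calc y * (a * b) * y⁻¹ * (a * b)⁻¹ = y * a * y⁻¹ * (y * b * y⁻¹ * b⁻¹ * a⁻¹) := by group
      _ = _ := by rw [← this]; group
  exact cen_of fun x hx => (comm_iff_c.2 (pf_sol h pf s e' x hx)).symm

/-- a perfect subgroup of `K Z`, `Z` central, lies in `K` -/
theorem pf_le (pf : L ≤ ⁅L, L⁆) (e : ∀ x ∈ L, ∃ a ∈ K, ∃ c, x = a * c ∧ c ∈ 𝐂 L ∧ c ∈ 𝐂 K) : L ≤ K :=
  pf.trans (commutator_le.2 fun x hx y hy => by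
    obtain ⟨a, ha, c, e1, h1, h2⟩ := e x hx
    obtain ⟨b, hb, d, e2, h3, h4⟩ := e y hy
    have k1 := (cen_comm h1 hy).eq
    have k2 := (cen_comm h4 (inv_mem ha)).eq
    have : ⁅x, y⁆ = ⁅a, b⁆ := calc
      ⁅x, y⁆ = a * (c * y) * c⁻¹ * a⁻¹ * y⁻¹ := by rw [e1, commutatorElement_def]; group
      _ = a * b * (d * a⁻¹) * d⁻¹ * b⁻¹ := by rw [← k1, e2]; group
      _ = _ := by rw [← k2, commutatorElement_def]; group
    exact this ▸ der_le K (commutator_mem_commutator ha hb))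

theorem inv_of_fpf [Finite G] {O : Subgroup G} (hf : f * f = 1) (o : Odd (♯O)) (h1 : f ∈ 𝐍 O)
    (e : ∀ y ∈ O, Commute y f → y = 1) : ∀ y ∈ O, f * y * f = y⁻¹ := fun y hy => by
  have fi : f⁻¹ = f := inv_eq_of_mul_eq_one_right hf
  let α : MulAut O := O.normalizerMonoidHom ⟨f, h1⟩
  have a : ∀ x : O, ((α x : O) : G) = f * x * f := fun x => (show _ = f * x * f⁻¹ from rfl).trans (by rw [fi])
  have := MonoidHom.FixedPointFree.coe_eq_inv_of_involutive (φ := α)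
    (fun x hx => Subtype.ext (e x x.2 (comm_iff_cj.2 (by rw [fi, ← a, hx])).symm))
    fun x => Subtype.ext (by rw [a, a, ← mul_assoc, ← mul_assoc, hf, one_mul, mul_assoc, hf, mul_one])
  rw [← a ⟨y, hy⟩, this]; rfl
end Gen

set_option quotPrecheck false in
/-- an identity between words in the named elements -/
scoped notation "weq " a:max b:max => (by simpa only [ev_cons, ev_nil, mul_one, evl, mul_assoc, Commute, SemiconjBy,
  pow_succ, pow_zero, one_mul, mul_inv_rev, inv_inv] using eqN (u := a) (w := b) (by decide +kernel))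

set_option quotPrecheck false in
/-- different words in the named elements -/
scoped notation "wne " a:max b:max => (by simpa only [ev_cons, ev_nil, mul_one, evl, mul_assoc, Commute, SemiconjBy,
  pow_succ, pow_zero, one_mul, mul_inv_rev, inv_inv, ne_eq] using neN (u := a) (w := b) (by decide +kernel))

set_option quotPrecheck false in
/-- a word lying in `MM` -/
scoped notation "wmm " u:max => (by simpa only [ev_cons, ev_nil, mul_one, evl, mul_assoc,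
  pow_succ, pow_zero, one_mul, mul_inv_rev, inv_inv] using ev_MM (w := u) (by decide +kernel))

example : Commute e13 pZ := weq [13, 7] [7, 13]
example : ¬ Commute e13 pB := wne [13, 21] [21, 13]
example : ro ^ 3 = 1 := weq [23, 23, 23] []
example : pS * pS ∈ MM := wmm [3, 3]

theorem odd_MM {a : Pm} (ha : a ∈ S2) (o : Odd (orderOf a)) : a ∈ MM := mem_of_sq o (S2_sq ha)

theorem MM_simple {N : Subgroup Pm} (h1 : N ≤ MM) (h2 : MM ≤ 𝐍 N) : N = ⊥ ∨ N = MM := by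
  have := isSimpleGroup_M22
  rcases (NormalIn.normal ⟨h1, h2⟩).eq_bot_or_eq_top with e | e
  · exact .inl (by rw [← map_subgroupOf h1, e, Subgroup.map_bot])
  · exact .inr (by rw [← map_subgroupOf h1, e, map_top_subtype])

theorem nrmA {N : Subgroup Pm} (h1 : N ≤ S2) (h2 : MM ≤ 𝐍 N) (h3 : N ≠ ⊥) : MM ≤ N := by
  rcases MM_simple (inf_le_left (b := N)) (norm_inf (le_norm_self _) h2) with e | e
  · exact absurd (eq_bot_of_forall fun x hx =>
      S2_cent (h1 hx) (cent_of_inf_eq_bot (h1.trans S2_norm) h2 (inf_comm MM N ▸ e) hx)) h3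
  · exact e.ge.trans inf_le_right

theorem pZ_iv : Iv pZ := φ_iv (by decide)

theorem pZ_MM : pZ ∈ MM := φ_MM (by decide)

theorem m34 : e34 ∈ MM := φ_MM (by decide)
theorem m35 : e35 ∈ MM := φ_MM (by decide)
theorem m13 : e13 ∈ MM := φ_MM (by decide)
theorem mv1 : v1 ∈ MM := φ_MM (by decide)
theorem mv2 : v2 ∈ MM := φ_MM (by decide)
theorem mt3 : t3 ∈ MM := φ_MM (by decide)
theorem mro : ro ∈ MM := φ_MM (by decide)
theorem mro2 : ro2 ∈ MM := φ_MM (by decide)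
theorem mta : ta ∈ MM := φ_MM (by decide)
theorem mpH : pH ∈ MM := φ_MM (by decide)
theorem ms7 : s7 ∈ MM := φ_MM (by decide)
theorem i34 : Iv e34 := φ_iv (by decide)
theorem i35 : Iv e35 := φ_iv (by decide)
theorem i13 : Iv e13 := φ_iv (by decide)
theorem iv1 : Iv v1 := φ_iv (by decide)
theorem iv2 : Iv v2 := φ_iv (by decide)
theorem it3 : Iv t3 := φ_iv (by decide)
theorem ipB : Iv pB := φ_iv (by decide)
theorem ipH : Iv pH := φ_iv (by decide)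
theorem ipC : Iv pC := φ_iv (by decide)

theorem conj_pow' {G : Type*} [Group G] (a b : G) (n : ℕ) : (a⁻¹ * b * a) ^ n = a⁻¹ * b ^ n * a := by
  simpa using conj_pow (a := a⁻¹) (b := b) (i := n)

theorem ro_odd : Odd (orderOf ro) := Odd.of_dvd_nat (n := 3) (by decide) (orderOf_dvd_of_pow_eq_one (by
  simpa [evL, pow_succ, mul_assoc] using eqN (u := [23, 23, 23]) (w := []) (by decide +kernel)))

theorem ro_ne : ro ≠ 1 := by simpa [evL] using neN (u := [23]) (w := []) (by decide +kernel)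

theorem MM_odd : MM ≤ closure {o | o ∈ MM ∧ Odd (orderOf o)} := by
  refine nrmA ((closure_le _).2 fun o ho => MM_le ho.1) (le_norm_of_cj_le fun m hm => cj_le_iff.2 ((closure_le _).2
    fun o ho => mem_cj_inv.2 (subset_closure ⟨MM_cj (MM_le hm) ho.1, odd_cj ho.2 m⟩))) ?_
  exact ne_bot_of_mem (subset_closure ⟨φ_MM (by decide), ro_odd⟩) ro_ne

theorem MM_pf : MM ≤ ⁅MM, MM⁆ :=
  nrmA ((der_le _).trans MM_le) (norm_comm_left _ _) fun e =>
    pZ_iv.ne (S2_cent (MM_le pZ_MM) (der_eq_bot.1 e pZ_MM))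

theorem S2_odd {a : Pm} (ha : a ∈ S2) (e : ∀ o ∈ MM, Odd (orderOf o) → Commute o a) : a = 1 :=
  S2_cent ha (cen_of fun x hx => clo_le_cen (fun o ho => e o ho.1 ho.2) x (MM_odd hx))

end CF.Tr
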