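import Cfsg.Agent.Tr.Q2

/-! Classes of involutions fixing one point each. -/

set_option autoImplicit false
set_option maxRecDepth 1000000
set_option linter.unusedSectionVars false

namespace CF.Tr
open Cfsg Subgroup CF.BG CF.Bender CF.J4 CF.Comp CF.Dce CF.Comp.Mat CF.Dce.J4
open scoped commutatorElement

universe u
variable {G : Type u} [Group G] [Finite G]

theorem zp_le_clo (a b : G) : zpowers (a * b) ≤ closure {a, b} :=
  zpowers_le.2 (mul_mem (subset_closure (by simp)) (subset_closure (by simp)))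

theorem dih' {a b : G} (ha : a * a = 1) (hb : b * b = 1) : Odd (orderOf (a * b)) ∨
    ∃ z ∈ zpowers (a * b), Iv z ∧ Commute z a ∧ Commute z b ∧
      (((∃ g ∈ zpowers (a * b), g * b * g⁻¹ = a * z) ∧ ∃ g ∈ zpowers (a * b), g * a * g⁻¹ = b * z) ∨
       ((∃ g ∈ zpowers (a * b), g * a * g⁻¹ = a * z) ∧ (∃ g ∈ zpowers (a * b), g * b * g⁻¹ = b * z) ∧
        ((∃ g ∈ zpowers (a * b), g * a * g⁻¹ * b * (g * a * g⁻¹ * b) = z) ∨ z ∈ zpowers ((a * b) ^ 4)))) := by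
  refine (Nat.even_or_odd _).symm.imp_right fun ⟨m, e⟩ => ?_
  have p := orderOf_pos (a * b)
  have mm : ∀ k : ℕ, (a * b) ^ k ∈ zpowers (a * b) := pow_mem (mem_zpowers _)
  have i : Iv ((a * b) ^ m) := ⟨pow_ne_one_of_lt_orderOf (by omega) (by omega), by rw [← pow_add, ← e, pow_orderOf_eq_one]⟩
  have ca : Commute ((a * b) ^ m) a := (comm_iff_cj.2 (by rw [inv_sq ha, (dih_inv ha hb (mm m)).1, i.inv])).symm
  have cb : Commute ((a * b) ^ m) b := (comm_iff_cj.2 (by rw [inv_sq hb, (dih_inv ha hb (mm m)).2, i.inv])).symm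
  have k1 : ∀ k : ℕ, (a * b) ^ k * a * ((a * b) ^ k)⁻¹ = (a * b) ^ (2 * k) * a := fun k => by
    rw [inv_cj ha (dih_inv ha hb (mm k)).1, ← pow_add, two_mul]
  have k2 : ∀ k : ℕ, (a * b) ^ k * b * ((a * b) ^ k)⁻¹ = (a * b) ^ (2 * k) * b := fun k => by
    rw [inv_cj hb (dih_inv ha hb (mm k)).2, ← pow_add, two_mul]
  refine ⟨_, mm m, i, ca, cb, ?_⟩
  rw [← ca.eq, ← cb.eq]
  obtain ⟨j, rfl | rfl⟩ := Nat.even_or_odd' m
  · refine .inr ⟨⟨_, mm j, k1 j⟩, ⟨_, mm j, k2 j⟩, ?_⟩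
    obtain ⟨l, rfl | rfl⟩ := Nat.even_or_odd' j
    · exact .inr (by rw [← mul_assoc, pow_mul]; exact pow_mem (mem_zpowers _) l)
    · exact .inl ⟨_, mm l, by rw [k1, mul_assoc _ a, ← pow_succ, ← pow_add, two_mul (2 * l + 1)]⟩
  · refine .inl ⟨⟨_, mm (j + 1), ?_⟩, _, mm j, ?_⟩
    · rw [k2, show 2 * (j + 1) = 2 * j + 1 + 1 by ring, pow_succ _ (2 * j + 1), mul_assoc, mul_assoc, hb, mul_one]
    · rw [k1, pow_succ, mul_assoc, mul_assoc, hb, mul_one]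

theorem dih {a b : G} (ha : a * a = 1) (hb : b * b = 1) : (∃ g ∈ closure {a, b}, g * a * g⁻¹ = b) ∨
    ∃ z ∈ zpowers (a * b), Iv z ∧ Commute z a ∧ Commute z b ∧
      (((∃ g ∈ closure {a, b}, g * b * g⁻¹ = a * z) ∧ ∃ g ∈ closure {a, b}, g * a * g⁻¹ = b * z) ∨
       ((∃ g ∈ closure {a, b}, g * a * g⁻¹ = a * z) ∧ ∃ g ∈ closure {a, b}, g * b * g⁻¹ = b * z)) := by
  have l := zp_le_clo a b
  refine (dih' ha hb).imp (fun o => ?_) fun ⟨z, h1, h2, h3, h4, h5⟩ => ⟨z, h1, h2, h3, h4, h5.imp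
    (fun ⟨⟨g, k1, k2⟩, g', k3, k4⟩ => ⟨⟨g, l k1, k2⟩, g', l k3, k4⟩)
    fun ⟨⟨g, k1, k2⟩, ⟨g', k3, k4⟩, _⟩ => ⟨⟨g, l k1, k2⟩, g', l k3, k4⟩⟩
  obtain ⟨c, h1, h2⟩ := dih_odd ha hb o
  exact ⟨c⁻¹, inv_mem (l h1), by rw [← h2]; group⟩

/-- a reflection conjugate to `b` interchanging `a` and `b` -/
theorem dih_rf {a b : G} (ha : a * a = 1) (hb : b * b = 1) (o : Odd (orderOf (a * b))) :
    ∃ g, g * b * g⁻¹ * a * (g * b * g⁻¹)⁻¹ = b := by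
  obtain ⟨c, h1, h2⟩ := dih_odd ha hb o
  obtain ⟨s, h3, h4, -⟩ := odd_root (o.of_dvd_nat (orderOf_dvd_of_mem_zpowers h1))
  have k := inv_cj hb (dih_inv ha hb (zpowers_le.2 h1 h3)).2
  refine ⟨s, ?_⟩
  have k' := inv_sq (sq_cj hb s)
  rw [k, h4] at k' ⊢
  rw [k']
  nth_rw 1 [← k']
  rw [← h2]; group

namespace CT
/-- the abstract form of `PT` -/
structure PA (Ω : Type u) [MulAction G Ω] (D : Set G) : Prop where
  conj : ∀ {d : G}, d ∈ D → ∀ g : G, g * d * g⁻¹ ∈ D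
  iv : ∀ {d : G}, d ∈ D → Iv d
  ex : ∀ {d : G}, d ∈ D → ∃ p : Ω, d • p = p
  uniq : ∀ {d : G}, d ∈ D → ∀ {p q : Ω}, d • p = p → d • q = q → p = q
  all : ∀ p : Ω, ∃ d ∈ D, d • p = p
  cu : ∀ {d e : G}, d ∈ D → e ∈ D → d ≠ e → Commute d e → ∀ {p : Ω}, d • p = p → ∀ g, Commute g (d * e) → g • p = p

variable {Ω : Type u} [MulAction G Ω] [Finite Ω] {D : Set G} {a b : Ω} {s t u y z : G}

theorem PA.cz (h : PA Ω D) (hs : s ∈ D) (sa : s • a = a) (i : Iv z) (c : Commute z s) (m : s * z ∈ D)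
    (c' : Commute z u) : u • a = a :=
  h.cu hs m (by simpa using i.ne) ((Commute.refl s).mul_right c.symm) sa u
    (by rw [← mul_assoc, (h.iv hs).sq, one_mul]; exact c'.symm)

theorem PA.rf (h : PA Ω D) (hs : s ∈ D) (ht : t ∈ D) (sa : s • a = a) (tb : t • b = b) (n : a ≠ b) :
    ∃ r ∈ D, r * s * r⁻¹ = t ∧ r • a = b := by
  rcases dih' (h.iv hs).sq (h.iv ht).sq with o | ⟨z, -, i, c1, c2, k⟩
  · obtain ⟨g, e⟩ := dih_rf (h.iv hs).sq (h.iv ht).sq o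
    exact ⟨_, h.conj ht g, e, h.uniq ht (by
      generalize g * t * g⁻¹ = r at e
      rw [← e]; simp [mul_smul, sa]) tb⟩
  · refine absurd (h.uniq ht (h.cz hs sa i c1 ?_ c2) tb) n
    rcases k with ⟨⟨g, -, e⟩, -⟩ | ⟨⟨g, -, e⟩, -⟩
    exacts [e ▸ h.conj ht g, e ▸ h.conj hs g]

theorem PA.ct2 (h : PA Ω D) (ht : t ∈ D) (tb : t • b = b) (n : b ≠ a) (u2 : u * u = 1)
    (cu : ∀ g, Commute g u → g • a = a) (ub : u • b = b) : u • t • a = t • a := by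
  obtain ⟨s, hs, sa⟩ := h.all a
  have ua := cu u (Commute.refl u)
  let J : Set G := {r | r ∈ D ∧ u • r • a = r • a ∧ r • a ≠ a}
  let K : Set G := {r | r ∈ D ∧ ∃ c, u • c = c ∧ c ≠ a ∧ r • c = c}
  have h1 : J ⊆ K := fun r ⟨hr, k1, k2⟩ => by
    have inv : ∀ g ∈ closure {r, u}, g • a = a → g • r • a = r • a := fun g hg => by
      suffices (g • a = a ∧ g • r • a = r • a) ∨ (g • a = r • a ∧ g • r • a = a) from
        fun e => this.elim (·.2) fun k => absurd (k.1.symm.trans e) k2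
      refine closure_induction_left (.inl ⟨one_smul _ _, one_smul _ _⟩) (fun x hx g _ k => ?_) (fun x hx g _ k => ?_) hg
      all_goals
        have rr : r • r • a = a := by rw [← mul_smul, (h.iv hr).sq, one_smul]
        rcases hx with rfl | rfl <;> rcases k with k | k <;>
          simp [mul_smul, k.1, k.2, rr, ua, k1, (h.iv hr).inv, inv_sq u2]
    rcases dih (h.iv hr).sq u2 with ⟨g, -, e⟩ | ⟨z, hz, i, c1, c2, ⟨-, g, hg, e⟩ | ⟨⟨g, -, e⟩, -⟩⟩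
    · exact absurd (h.uniq (e ▸ h.conj hr g) k1 ua) k2
    · have f := cu (u * z) ((Commute.refl u).mul_left c2)
      exact absurd (h.uniq (e ▸ h.conj hr g) (inv _ (mul_mem (subset_closure (by simp)) (zp_le_clo r u hz)) f) f) k2
    · obtain ⟨c, rc⟩ := h.ex hr
      exact ⟨hr, c, h.cz hr rc i c1 (e ▸ h.conj hr g) c2, fun e => k2 (e ▸ rc), rc⟩
  have h2 : K ⊆ (fun r => r * s * r⁻¹) '' J := fun r ⟨hr, c, k1, k2, k3⟩ => by
    obtain ⟨x, hx, e1, e2⟩ := h.rf hs hr sa k3 k2.symm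
    exact ⟨x, ⟨hx, e2 ▸ k1, e2 ▸ k2⟩, e1⟩
  have := Set.eq_of_subset_of_ncard_le h1 ((Set.ncard_le_ncard h2).trans (Set.ncard_image_le (Set.toFinite _)))
  exact (this.ge ⟨ht, b, ub, n, tb⟩).2.1

theorem PA.wa (h : PA Ω D) (nl : ∀ d ∈ D, ∀ e ∈ D, d ≠ e → Commute d e → ∀ p : Ω, (d * e) • p = p → d • p = p)
    (n : a ≠ b) (hy : y ∈ closure D) (y2 : ∀ p : Ω, (y * y) • p = p) (y1 : ∃ p : Ω, y • p ≠ p) :
    ∃ d ∈ D, ∀ p : Ω, (d * y) • p = p := by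
  let N := (MulAction.toPermHom G Ω).ker
  have mN : ∀ g, g ∈ N ↔ ∀ p : Ω, g • p = p := fun g => ⟨fun k p => congrFun (congrArg (↑) k) p, fun k => Equiv.ext k⟩
  obtain ⟨A, e⟩ := ZD.exists_quot_act N fun g => (mN g).1
  let π := QuotientGroup.mk' N
  have k1 : ∀ g, π g = 1 ↔ ∀ p : Ω, g • p = p := fun g => (QuotientGroup.eq_one_iff g).trans (mN g)
  have w : ZD.WZ Ω (π '' D) := by
    refine ⟨?_, ?_, ?_, ?_, ?_⟩
    · rintro _ ⟨d, hd, rfl⟩ g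
      obtain ⟨g, rfl⟩ := QuotientGroup.mk'_surjective N g
      exact ⟨_, h.conj hd g, by simp [π]⟩
    · rintro _ ⟨d, hd, rfl⟩
      exact ⟨fun k => n (h.uniq hd ((k1 d).1 k a) ((k1 d).1 k b)), by rw [← map_mul, (h.iv hd).sq, map_one]⟩
    · rintro _ ⟨d, hd, rfl⟩
      exact (h.ex hd).imp fun p k => (e d p).trans k
    · rintro _ ⟨d, hd, rfl⟩ p q k k'
      exact h.uniq hd ((e d p).symm.trans k) ((e d q).symm.trans k')
    · rintro _ _ ⟨d, hd, rfl⟩ ⟨d', hd', rfl⟩ ne c p q k k'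
      rw [← map_mul, e] at k k'
      rcases dih (h.iv hd).sq (h.iv hd').sq with ⟨g, hg, e'⟩ | ⟨z, hz, i, c1, c2, k2⟩
      · refine absurd ?_ ne
        have : g ∈ (𝐂₁ (π d)).comap π := (closure_le _).2 (by rintro x (rfl | rfl); exacts [c1_of rfl, c1_of c.symm]) hg
        rw [← e', map_mul, map_mul, map_inv, comm_iff_cj.1 (c1_comm this)]
      · have m : d * z ∈ D := by
          rcases k2 with ⟨⟨g, -, e⟩, -⟩ | ⟨⟨g, -, e⟩, -⟩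
          exacts [e ▸ h.conj hd' g, e ▸ h.conj hd g]
        have f : ∀ p : Ω, (d * d') • p = p → d • p = p := fun p k => nl d hd _ m (by simpa using i.ne)
          ((Commute.refl d).mul_right c1.symm) p (by
            rw [← mul_assoc, (h.iv hd).sq, one_mul]
            exact (zpowers_le (H := MulAction.stabilizer G p)).2 k hz)
        exact h.uniq hd (f p k) (f q k')
  have ld : ∀ p : Ω, p ∈ ZD.LD Ω (π '' D) ⊤ := fun p => (h.all p).elim fun d k =>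
    ⟨π d, trivial, ⟨d, k.1, rfl⟩, (e d p).trans k.2⟩
  obtain ⟨d, hd, e'⟩ := w.ai (ld a) (ld b) n (fun u _ i => by
      obtain ⟨u, rfl⟩ := QuotientGroup.mk'_surjective N u
      by_contra k
      push Not at k
      exact i.ne ((k1 u).2 fun p => (e u p).symm.trans (k p (ld p)))) (t := π y)
    ((closure_le ((ZD.LM (π '' D) ⊤).comap π)).2 (fun d hd => subset_closure ⟨⟨d, hd, rfl⟩, trivial⟩) hy)
    ⟨fun k => y1.elim fun p k' => k' ((k1 y).1 k p), by rw [← map_mul]; exact (k1 _).2 y2⟩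
  exact ⟨d, hd, (k1 _).1 (by rw [map_mul, ← e', ← map_mul, (h.iv hd).sq, map_one])⟩
end CT

variable {H X : Subgroup G} {D : Set G} {P : G → Subgroup G} {s t u y : G}

theorem PT.fix (h : PT H X D P) (hs : s ∈ D) : s ∈ 𝐍 (P s) := by
  rw [← cj_eq_self, ← (h.eqv s hs s (h.le s hs)).2, mul_inv_cancel_right]

/-- the points -/
abbrev Pts (D : Set G) (P : G → Subgroup G) : Type u := {K : Subgroup G // ∃ d ∈ D, P d = K}

theorem PT.pa (h : PT H X D P) : ∃ (Q : Type u) (_ : Group Q) (_ : Finite Q) (ψ : G → Q) (_ : MulAction Q (Pts D P)),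
    Qm H X ψ ∧ (∀ g ∈ H, ∀ p q : Pts D P, ψ g • p = q ↔ cj g p.1 = q.1) ∧ CT.PA (Pts D P) (ψ '' D) := by
  obtain ⟨Q, _, _, ψ, q⟩ := exists_qm h.nX
  choose σ s1 s2 using q.sur
  have m : ∀ g ∈ H, ∀ p : Pts D P, ∃ d ∈ D, P d = cj g p.1 := fun g hg ⟨_, d, hd, rfl⟩ => ⟨_, h.eqv d hd g hg⟩
  have e : ∀ g ∈ H, ∀ p : Pts D P, cj (σ (ψ g)) p.1 = cj g p.1 := fun g hg ⟨_, d, hd, rfl⟩ => by
    rw [← mul_inv_cancel_left g (σ (ψ g)), ← cj_cj, cj_of_norm (h.XN d hd ((q.div hg (s1 _)).1 (s2 _).symm))]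
  let A : MulAction Q (Pts D P) :=
    { smul := fun y p => ⟨cj (σ y) p.1, m _ (s1 y) p⟩
      one_smul := fun p => Subtype.ext (by
        show cj (σ 1) p.1 = _
        rw [← q.hom.one, e 1 (one_mem _), cj_one])
      mul_smul := fun x y p => Subtype.ext (by
        show cj (σ (x * y)) p.1 = cj (σ x) (cj (σ y) p.1)
        rw [cj_cj, ← e _ (mul_mem (s1 x) (s1 y)), q.hom _ (s1 x) _ (s1 y), s2, s2]) }
  have k : ∀ g ∈ H, ∀ p r : Pts D P, ψ g • p = r ↔ cj g p.1 = r.1 := fun g hg p r => by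
    rw [Subtype.ext_iff, ← e g hg]; rfl
  have u : ∀ d ∈ D, ∀ p : Pts D P, ψ d • p = p → P d = p.1 := fun d hd ⟨_, r, hr, rfl⟩ f =>
    h.un d hd r hr (cj_eq_self.1 ((k d (h.le d hd) _ _).1 f))
  refine ⟨Q, inferInstance, inferInstance, ψ, A, q, k, ?_, ?_, ?_, ?_, ?_, ?_⟩
  · rintro _ ⟨d, hd, rfl⟩ y
    exact ⟨_, (h.eqv d hd _ (s1 y)).1, by rw [q.hom.conj (s1 y) (h.le d hd), s2]⟩
  · rintro _ ⟨d, hd, rfl⟩
    exact ⟨fun f => h.nm d hd ((q.ker d (h.le d hd)).1 f), hom_sq q.hom (h.le d hd) (h.sq d hd)⟩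
  · rintro _ ⟨d, hd, rfl⟩
    exact ⟨⟨_, d, hd, rfl⟩, (k d (h.le d hd) _ _).2 (cj_of_norm (h.fix hd))⟩
  · rintro _ ⟨d, hd, rfl⟩ p r f f'
    exact Subtype.ext ((u d hd p f).symm.trans (u d hd r f'))
  · rintro ⟨_, d, hd, rfl⟩
    exact ⟨_, ⟨d, hd, rfl⟩, (k d (h.le d hd) _ _).2 (cj_of_norm (h.fix hd))⟩
  · rintro _ _ ⟨d, hd, rfl⟩ ⟨r, hr, rfl⟩ n c p f y c'
    have m := mul_mem (h.le d hd) (h.le r hr)
    rw [← s2 y, ← q.hom _ (h.le d hd) _ (h.le r hr), q.comm (s1 y) m] at c'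
    rw [← s2 y, k _ (s1 y), ← u d hd p f, cj_eq_self]
    refine h.cu d hd r hr (fun x => n ((q.div (h.le d hd) (h.le r hr)).2 (by rwa [inv_sq (h.sq d hd)]))) ?_ _ (s1 y) c'
    rw [← q.ker _ (mul_mem m m), q.hom _ m _ m, q.hom _ (h.le d hd) _ (h.le r hr)]
    exact sq_mul (hom_sq q.hom (h.le d hd) (h.sq d hd)) (hom_sq q.hom (h.le r hr) (h.sq r hr)) c

theorem PT.sw (h : PT H X D P) (hs : s ∈ D) (ht : t ∈ D) : ∃ r ∈ D, cj r (P s) = P t ∧ cj r (P t) = P s := by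
  by_cases n : P s = P t
  · exact ⟨s, hs, n ▸ cj_of_norm (h.fix hs), n ▸ cj_of_norm (h.fix hs)⟩
  obtain ⟨Q, _, _, ψ, A, q, k, a⟩ := h.pa
  obtain ⟨_, ⟨r, hr, rfl⟩, -, e⟩ := a.rf (a := ⟨_, s, hs, rfl⟩) (b := ⟨_, t, ht, rfl⟩) ⟨s, hs, rfl⟩ ⟨t, ht, rfl⟩
    ((k s (h.le s hs) _ _).2 (cj_of_norm (h.fix hs))) ((k t (h.le t ht) _ _).2 (cj_of_norm (h.fix ht)))
    fun e => n (congrArg Subtype.val e)
  have := (k r (h.le r hr) _ _).1 e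
  exact ⟨r, hr, this, by rw [← show cj r (P s) = P t from this, cj_cj, h.sq r hr, cj_one]⟩

theorem PT.ct2 (h : PT H X D P) (hs : s ∈ D) (ht : t ∈ D) (n : P t ≠ P s) (hu : u ∈ H) (u2 : u * u ∈ X)
    (cu : ∀ g ∈ H, g * u * g⁻¹ * u⁻¹ ∈ X → g ∈ 𝐍 (P s)) (ut : u ∈ 𝐍 (P t)) : u ∈ 𝐍 (cj t (P s)) := by
  obtain ⟨Q, _, _, ψ, A, q, k, a⟩ := h.pa
  have := a.ct2 (a := ⟨_, s, hs, rfl⟩) (b := ⟨_, t, ht, rfl⟩) (u := ψ u) ⟨t, ht, rfl⟩
    ((k t (h.le t ht) _ _).2 (cj_of_norm (h.fix ht))) (fun e => n (congrArg Subtype.val e))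
    (by rw [← q.hom _ hu _ hu, q.k1 u2]) (fun y c => by
      obtain ⟨g, hg, rfl⟩ := q.sur y
      exact (k g hg _ _).2 (cj_of_norm (cu g hg ((q.comm hg hu).1 c)))) ((k u hu _ _).2 (cj_of_norm ut))
  rwa [k u hu, ← (k t (h.le t ht) ⟨_, s, hs, rfl⟩ _).1 rfl, cj_eq_self] at this

theorem PT.ct3 (h : PT ⊤ ⊥ D P) (hs : s ∈ D) (ht : t ∈ D) (n : P t ≠ P s) (u2 : u * u = 1)
    (cu : 𝐂₁ u ≤ 𝐍 (P s)) (ut : u ∈ 𝐍 (P t)) : ∃ z ∈ zpowers (t * u), Iv z ∧ Commute z t ∧ Commute z u ∧ t * z ∈ D ∧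
      ((∃ g ∈ zpowers (t * u), g * t * g⁻¹ * u * (g * t * g⁻¹ * u) = z) ∨ z ∈ zpowers ((t * u) ^ 4)) := by
  have k : ∀ d ∈ D, Commute d u → d ∉ 𝐍 (P t) := fun d hd c m =>
    n ((h.un d hd t ht m).symm.trans (h.un d hd s hs (cu (c1_of c))))
  rcases dih' (h.sq t ht) u2 with o | ⟨z, hz, i, c1, c2, ⟨-, g, -, e⟩ | ⟨⟨g, -, e⟩, -, e'⟩⟩
  · obtain ⟨c, -, e⟩ := dih_odd (h.sq t ht) u2 o
    exact absurd ut (k u (by simpa [← e, mul_assoc] using (h.eqv t ht c⁻¹ trivial).1) (Commute.refl u))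
  · exact absurd (mul_mem ut (zpowers_le.2 (mul_mem (h.fix ht) ut) hz))
      (k _ (e ▸ (h.eqv t ht g trivial).1) ((Commute.refl u).mul_left c2))
  · exact ⟨z, hz, i, c1, c2, e ▸ (h.eqv t ht g trivial).1, e'⟩

theorem PT.wa (h : PT H X D P)
    (nl : ∀ d ∈ D, ∀ e ∈ D, ∀ r ∈ D, d * e ∉ X → d * e * (d * e) ∈ X → d * e ∈ 𝐍 (P r) → P r = P d)
    (hs : s ∈ D) (ht : t ∈ D) (n : P t ≠ P s) (hy : y ∈ closure D) (y2 : ∀ r ∈ D, y * y ∈ 𝐍 (P r))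
    (y1 : ∃ r ∈ D, y ∉ 𝐍 (P r)) : ∃ d ∈ D, ∀ r ∈ D, d * y ∈ 𝐍 (P r) := by
  obtain ⟨Q, _, _, ψ, A, q, k, a⟩ := h.pa
  obtain ⟨yH, y3⟩ := clo_pre q.hom (T := closure (ψ '' D)) (fun d hd => ⟨h.le d hd, subset_closure ⟨d, hd, rfl⟩⟩) y hy
  obtain ⟨_, ⟨d, hd, rfl⟩, e⟩ := a.wa (a := ⟨_, t, ht, rfl⟩) (b := ⟨_, s, hs, rfl⟩) (y := ψ y) (by
      rintro _ ⟨d, hd, rfl⟩ _ ⟨e, he, rfl⟩ ne c ⟨_, r, hr, rfl⟩ f
      have m := mul_mem (h.le d hd) (h.le e he)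
      rw [← q.hom _ (h.le d hd) _ (h.le e he), k _ m, cj_eq_self] at f
      refine (k d (h.le d hd) _ _).2 (cj_of_norm ?_)
      show d ∈ 𝐍 (P r)
      rw [nl d hd e he r hr
        (fun x => ne ((q.div (h.le d hd) (h.le e he)).2 (by rwa [inv_sq (h.sq d hd)]))) ?_ f]
      · exact h.fix hd
      rw [← q.ker _ (mul_mem m m), q.hom _ m _ m, q.hom _ (h.le d hd) _ (h.le e he)]
      exact sq_mul (hom_sq q.hom (h.le d hd) (h.sq d hd)) (hom_sq q.hom (h.le e he) (h.sq e he)) c)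
    (fun e => n (congrArg Subtype.val e)) y3
    (fun ⟨_, r, hr, rfl⟩ => by rw [← q.hom _ yH _ yH, k _ (mul_mem yH yH)]; exact cj_of_norm (y2 r hr))
    (y1.elim fun r hr => ⟨⟨_, r, hr.1, rfl⟩, fun f => hr.2 (cj_eq_self.1 ((k y yH _ _).1 f))⟩)
  refine ⟨d, hd, fun r hr => cj_eq_self.1 ((k _ (mul_mem (h.le d hd) yH) ⟨_, r, hr, rfl⟩ ⟨_, r, hr, rfl⟩).1 ?_)⟩
  rw [q.hom _ (h.le d hd) _ yH, e]

end CF.Tr
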