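import Cfsg.Agent.Tr.Q2

/-! The wreathed configuration and the isolated case: the involution is not a product of commutators. -/

set_option autoImplicit false
set_option maxRecDepth 1000000
set_option linter.unusedSectionVars false

namespace CF.Tr
open Cfsg Subgroup CF.BG CF.Bender CF.J4 CF.Comp CF.Dce CF.Comp.Mat CF.Dce.J4
open scoped commutatorElement

variable {G : Type*} [Group G] [Finite G]
variable {θ θ' θ'' : G → Pm} {f g x y d : G} {L' L'' H K : Subgroup G}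

namespace EG

theorem ab2 (n : f ∈ 𝐍 K) (f2 : f * f = 1) (dec : ∀ g ∈ H, g ∈ K ∨ f * g ∈ K) :
    ∀ x ∈ H, ∀ y ∈ H, x * y * x⁻¹ * y⁻¹ ∈ K := by
  have k : ∀ {a}, a ∈ K → f⁻¹ * a * f ∈ K := fun h => conj_mem_of_norm' n h
  have e : f⁻¹ * f⁻¹ = 1 := by rw [← mul_inv_rev, f2, inv_one]
  intro x hx y hy
  rcases dec x hx with a | a <;> rcases dec y hy with b | b
  · exact mul_mem (mul_mem (mul_mem a b) (inv_mem a)) (inv_mem b)
  · simpa [mul_assoc] using mul_mem a (k (mul_mem (mul_mem b (inv_mem a)) (inv_mem b)))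
  · simpa [mul_assoc] using mul_mem (k (mul_mem (mul_mem a b) (inv_mem a))) (inv_mem b)
  · have := mul_mem (mul_mem (k a) (mul_mem b (inv_mem a))) (k (inv_mem b))
    have e1 : f⁻¹ * (f * x) * f * (f * y * (f * x)⁻¹) * (f⁻¹ * (f * y)⁻¹ * f) =
      x * (f * f) * y * x⁻¹ * (f⁻¹ * f⁻¹) * y⁻¹ := by group
    rwa [e1, f2, e, mul_one, mul_one] at this

theorem z2 (h : QZ L' θ) : ♯(𝐙 L') ≤ 2 := by
  by_cases e : 𝐙 L' = ⊥
  · rw [e, card_bot]; norm_num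
  · obtain ⟨a, ha, a1⟩ := exists_mem_ne_one e
    refine (card_le (K := zpowers a) fun b hb => ?_).trans (card_zp_le (by rw [sq, h.sq ha.1 ha.2]) two_pos)
    by_cases b1 : b = 1
    · exact b1 ▸ one_mem _
    · exact h.z2 a ha.1 b hb.1 ha.2 hb.2 a1 b1 ▸ mem_zpowers a

/-- an involution of the class of `f` cannot normalise two commuting components -/
theorem no (h : HI d θ) (q : QT L' θ') (q' : QT L'' θ'') (c : L'' ≤ 𝐂 L') (n : d ∈ 𝐍 L') (n' : d ∈ 𝐍 L'') : False := by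
  obtain ⟨ρ, hρ, ρ1, oρ, cρ⟩ := o0 (q'.mem d n') (hom_sq q'.hom n' h.iv.sq)
  obtain ⟨o, ho, oo, rfl, co⟩ := q'.odl n' h.iv.sq hρ oρ cρ
  have od := mem_OL co oo
  have k := h.toQT
  have t1 : θ o ≠ 1 := fun e => ρ1 (by rw [odd_sq1 oo (h.sq od (k.k2 (k.ln od) e)), q'.hom.one])
  obtain ⟨Q, l1, l2, big⟩ : ∃ Q, Q ≤ L' ∧ Q ≤ OL d ∧ 80 ≤ ♯Q := by
    have l1 : L' ⊓ OL d ≤ L' := inf_le_left
    refine ⟨L' ⊓ OL d, l1, inf_le_right, (eg1 (q.mem d n) (hom_sq q.hom n h.iv.sq)).trans ?_⟩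
    rw [q.hl.card_eq l1 (Z := (q.hl.mono l1).pre ⊥) fun g => mem_ker _]
    refine (card_le (K := q.hl.im _ l1) ((closure_le _).2 fun a ha => ?_)).trans (Nat.le_mul_of_pos_right _ (card_pos' _))
    obtain ⟨x, hx, ox, e, cx⟩ := q.odl n h.iv.sq ha.1 ha.2.1 ha.2.2
    exact q.hl.mem_im.2 ⟨x, ⟨hx, mem_OL cx ox⟩, e⟩
  have e := k.hl.card_eq l2 (Z := (k.hl.mono l2).pre ⊥) fun g => mem_ker _
  have a : ♯(k.hl.im Q l2) ≤ 36 := (card_le fun a ha => by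
    obtain ⟨x, hx, rfl⟩ := k.hl.mem_im.1 ha
    exact ⟨k.im x (l2 hx), c1_of (hom_comm k.hl (l2 hx) od (cen_comm (c ho) (l1 hx)))⟩).trans
      (eg2 (k.im o od) (hom_odd k.hl od oo) t1)
  have b : ♯((k.hl.mono l2).pre ⊥) ≤ 2 := (card_le fun a ha => by
    have := (mem_ker _).1 ha
    exact ⟨l2 this.1, k.k2 (k.ln (l2 this.1)) this.2⟩).trans (z2 h.toQZ)
  have := Nat.mul_le_mul a b
  omega

/-- the elements that recover the product of the two components -/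
def Gd (f δ : G) : Prop := δ ∈ OL f ∧ δ * δ = 1 ∧ δ ∉ 𝐂 (OL f) ∧ IsConj f (f * δ)

theorem Gd.cj {δ : G} (h : Gd f δ) (g : G) : Gd (g * f * g⁻¹) (g * δ * g⁻¹) := by
  obtain ⟨h1, h2, h3, h4⟩ := h
  rw [Gd, OL_cj, ← cj_cent, conj_mem_cj, conj_mem_cj]
  exact ⟨h1, sq_cj h2 g, h3, ((isConj_iff.2 ⟨g, rfl⟩ : IsConj f _).symm.trans h4).trans
    (isConj_iff.2 ⟨g, conj_mul.symm⟩)⟩

section
variable (h : HI f θ) (q : QT L' θ') (c : BG.cj f L' ≤ 𝐂 L')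
include h q c

theorem cm (hx : x ∈ L') (hy : y ∈ L') : Commute y (f * x * f⁻¹) := cen_comm (c (conj_mem_cj.2 hx)) hy

theorem hd : HomOn L' fun x => x * (f * x * f⁻¹) := fun a ha b hb => by
  simp only
  rw [← (cm h q c ha hb).mul_mul_mul_comm]; group

theorem ker (hx : x ∈ L') (e : ∀ y ∈ L', Commute (y * (f * y * f⁻¹)) (x * (f * x * f⁻¹))) : x ∈ 𝐂 L' :=
  q.cc (q.ln hx) fun y hy => by
    have m := mul_mem (mul_mem (mul_mem hy hx) (inv_mem hy)) (inv_mem hx)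
    have := hom_c (hd h q c) hy hx
    rw [comm_iff_c.1 (e y hy)] at this
    exact eq_inv_of_mul_eq_one_left this ▸ inv_mem (c (conj_mem_cj.2 m))

theorem mL (hx : x ∈ L') : x * (f * x * f⁻¹) ∈ OL f :=
  (clo_pre (hd h q c) (T := OL f) (fun o ho => ⟨ho.1, mem_OL (by
    have c2 := cm h q c ho.1 ho.1
    rw [Commute, SemiconjBy]
    calc o * (f * o * f⁻¹) * f = f * o * f⁻¹ * (f * f) * o * f⁻¹ := by
          rw [h.iv.sq, mul_one, ← c2.eq]; congr 1; exact h.iv.inv.symm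
      _ = _ := by group) (odd_mul ho.2 (odd_cj ho.2 f) (cm h q c ho.1 ho.1))⟩) x (q.odg hx)).2

theorem sur (hy : y ∈ OL f) : ∃ x ∈ L', x * (f * x * f⁻¹) = y := by
  obtain ⟨θ1, q1, -⟩ := q.map (hd h q c) le_rfl fun x hx e => ker h q c hx fun y _ => e ▸ Commute.one_right _
  have l : (hd h q c).im L' le_rfl ≤ OL f := fun a ha => by
    obtain ⟨x, hx, rfl⟩ := (hd h q c).mem_im.1 ha; exact mL h q c hx
  refine (hd h q c).mem_im.1 (h.toQT.le_of (K := (hd h q c).im L' le_rfl) (fun m hm => ?_) hy)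
  rcases h.toQT.im2 q1 (l.trans (le_norm_self _)) with k | k
  · obtain ⟨x, hx, -, nx⟩ := q1.nc
    exact absurd (cent_anti l (k hx)) nx
  · obtain ⟨g, hg, e⟩ := k m hm
    exact ⟨g, hg, l hg, e⟩

theorem cj2 : BG.cj f (BG.cj f L') = L' := by rw [cj_cj, h.iv.sq, cj_one]

theorem cen (hx : x ∈ 𝐙 L') : x * (f * x * f⁻¹) ∈ 𝐂 (L' ⊔ BG.cj f L' : Subgroup G) := by
  rw [cent_sup]
  exact mul_mem ⟨hx.2, cent_symm c hx.1⟩ ⟨c (conj_mem_cj.2 hx.1), cj_cent f L' ▸ conj_mem_cj.2 hx.2⟩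

theorem LJ : OL f ≤ L' ⊔ BG.cj f L' := fun y hy => by
  obtain ⟨x, hx, rfl⟩ := sur h q c hy
  exact mul_mem (mem_sup_left hx) (mem_sup_right (conj_mem_cj.2 hx))

theorem JN : L' ⊔ BG.cj f L' ≤ 𝐍 L' := sup_le (le_norm_self _) (norm_of_cent c)

theorem JN' : L' ⊔ BG.cj f L' ≤ 𝐍 (BG.cj f L') := sup_le (norm_of_cent' c) (le_norm_self _)

theorem xf (hx : x ∈ L') (x2 : x * x = 1) : x * f * x⁻¹ = f * (x * (f * x * f⁻¹)) := by
  rw [(cm h q c hx hx).eq, h.iv.inv, inv_sq x2]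
  calc x * f * x = f * f * x * f * x := by rw [h.iv.sq, one_mul]
    _ = _ := by group

theorem ex : ∃ δ, Gd f δ := by
  obtain ⟨x, hx, x2, nx⟩ := q.nc
  exact ⟨_, mL h q c hx, hom_sq (π := fun x => x * (f * x * f⁻¹)) (hd h q c) hx x2, fun k => nx (ker h q c hx fun y hy => cen_comm k (mL h q c hy)),
    xf h q c hx x2 ▸ isConj_iff.2 ⟨x, rfl⟩⟩

theorem can {δ : G} (k : Gd f δ) : OL f ⊔ OL (f * δ) = L' ⊔ BG.cj f L' := by
  obtain ⟨h1, h2, h3, h4⟩ := k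
  obtain ⟨x0, m0, rfl⟩ := sur h q c h1
  have hh := hd h q c
  obtain ⟨z, hz, cz, x2⟩ := q.li' m0 (by
    rw [← q.hl _ m0 _ m0]
    exact q.k1 (ker h q c (mul_mem m0 m0) fun y _ => by rw [show _ * _ = _ from hh _ m0 _ m0, h2]; exact Commute.one_right _))
  have hx := mul_mem m0 hz
  have e0 : x0 * z * (f * (x0 * z) * f⁻¹) = _ := hh _ m0 _ hz
  have zc := cen h q c ⟨hz, cz⟩
  have nx : x0 * z ∉ 𝐂 L' := fun k => h3 (by
    have := mul_mem (cen h q c ⟨hx, k⟩) (inv_mem zc)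
    rw [e0, mul_inv_cancel_right] at this
    exact cent_anti (LJ h q c) this)
  generalize x0 * z = x at *
  have l2 : OL (x * f * x⁻¹) ≤ L' ⊔ BG.cj f L' := OL_cj f x ▸ cj_le_of_mem (mem_sup_left hx) (LJ h q c)
  have e1 : OL (f * (x0 * (f * x0 * f⁻¹))) = OL (x * f * x⁻¹) := by
    obtain ⟨g, hg⟩ := isConj_iff.1 h4
    have e2 : f * (x0 * (f * x0 * f⁻¹)) = g * x⁻¹ * (x * f * x⁻¹) * (g * x⁻¹)⁻¹ := by rw [← hg]; group
    rw [e2]
    refine (h.cj x).eq_of ?_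
    rw [← e2, show f * (x0 * (f * x0 * f⁻¹)) = x * f * x⁻¹ * (z * (f * z * f⁻¹))⁻¹ by rw [xf h q c hx x2, e0]; group]
    exact mul_mem (OL_cen _) (inv_mem (cent_anti l2 zc))
  rw [e1]
  have LK : ∀ y ∈ L', y * (f * y * f⁻¹) ∈ OL f ⊔ OL (x * f * x⁻¹) := fun y hy => mem_sup_left (mL h q c hy)
  have l1 : L' ≤ OL f ⊔ OL (x * f * x⁻¹) := by
    refine ((q.nn (H := (OL f ⊔ OL (x * f * x⁻¹)) ⊓ L') (inf_le_right.trans (le_norm_self _))
      (le_norm_iff.2 fun y hy a ha => ⟨?_, conj_mem_of_norm (q.ln hy) ha.2⟩)).resolve_right fun k => ?_).trans inf_le_left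
    · have := conj_mem_of_norm (le_norm_self _ (LK y hy)) ha.1
      rwa [mul_assoc y, ← (cm h q c hy ha.2).eq, show y * (a * (f * y * f⁻¹)) * (y * (f * y * f⁻¹))⁻¹ = y * a * y⁻¹ by
        group] at this
    · refine nx (q.cc (q.ln hx) fun y hy => ?_)
      have m : x * (y * (f * y * f⁻¹)) * x⁻¹ ∈ OL (x * f * x⁻¹) := OL_cj f x ▸ conj_mem_cj.2 (mL h q c hy)
      have := mul_mem (LK y hy) (inv_mem (mem_sup_right m))
      rw [mul_assoc x (y * _), mul_assoc y _ x⁻¹, ← (cm h q c hy (inv_mem hx)).eq,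
        show y * (f * y * f⁻¹) * (x * (y * (x⁻¹ * (f * y * f⁻¹))))⁻¹ = y * x * y⁻¹ * x⁻¹ by group] at this
      exact k (mem_inf.2 ⟨this, mul_mem (conj_mem_of_norm (q.ln hy) hx) (inv_mem hx)⟩)
  refine le_antisymm (sup_le (LJ h q c) l2) (sup_le l1 fun a ha => ?_)
  obtain ⟨y, hy, rfl⟩ := mem_cj_iff.1 ha
  simpa using mul_mem (inv_mem (l1 hy)) (LK y hy)

theorem can' (g : G) {δ : G} (k : Gd (g * f * g⁻¹) δ) :
    OL (g * f * g⁻¹) ⊔ OL (g * f * g⁻¹ * δ) = BG.cj g (L' ⊔ BG.cj f L') := by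
  have k' := k.cj g⁻¹
  rw [show g⁻¹ * (g * f * g⁻¹) * g⁻¹⁻¹ = f by group] at k'
  rw [← can h q c k', cj_sup, ← OL_cj, ← OL_cj]
  congr 2; group

theorem ne : BG.cj f L' ≠ L' := fun e => by
  obtain ⟨x, hx, -, nx⟩ := q.nc
  exact nx (c (e.ge hx))

theorem perm (n : g ∈ 𝐍 (L' ⊔ BG.cj f L' : Subgroup G)) : BG.cj g L' = L' ∨ BG.cj g L' = BG.cj f L' := by
  have l : BG.cj g L' ≤ L' ⊔ BG.cj f L' := cj_le_of_norm n le_sup_left
  have l' : L' ⊔ BG.cj f L' ≤ 𝐍 (BG.cj g L') := by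
    rw [← cj_norm, ← cj_of_norm n]; exact cj_mono g (JN h q c)
  rcases q.nn (l.trans (JN h q c)) (le_sup_left.trans l') with a | a
  · exact .inl (eq_of_card_eq a (by simp)).symm
  rcases (q.cj f).nn (l.trans (JN' h q c)) (le_sup_right.trans l') with b | b
  · exact .inr (eq_of_card_eq b (by simp)).symm
  obtain ⟨x, hx, -, nx⟩ := (q.cj g).nc
  exact absurd (cent_anti l (le_cent_sup a b hx)) nx

theorem fJ : f ∈ 𝐍 (L' ⊔ BG.cj f L' : Subgroup G) := cj_eq_self.1 (by rw [cj_sup, cj2 h q c, sup_comm])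

theorem n2 (n : g ∈ 𝐍 (L' ⊔ BG.cj f L' : Subgroup G)) (k : g ∈ 𝐍 L') : g ∈ 𝐍 (BG.cj f L') := by
  rcases perm h q c (mul_mem n (fJ h q c)) with e | e
  · rw [← cj_cj, cj_eq_iff, cj_of_norm (inv_mem k)] at e
    exact absurd e (ne h q c)
  · rwa [← cj_cj, cj_eq_self] at e
end
end EG

open EG in
theorem HI.eg (h : HI f θ) (q : QT L' θ') (c : BG.cj f L' ≤ 𝐂 L') : f ∉ commutator G := by
  have fJ := fJ h q c
  have n : f ∈ 𝐍 (𝐍 L' ⊓ 𝐍 (L' ⊔ BG.cj f L' : Subgroup G) : Subgroup G) := mem_norm_of_cj_le fun a ha => by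
    obtain ⟨k, hk, rfl⟩ := mem_cj_iff.1 ha
    refine mem_inf.2 ⟨?_, mul_mem (mul_mem fJ hk.2) (inv_mem fJ)⟩
    have := n2 h q c hk.2 hk.1
    rw [mem_norm_cj, h.iv.inv] at this
    rwa [h.iv.inv]
  have dec : ∀ g ∈ 𝐍 (L' ⊔ BG.cj f L' : Subgroup G), g ∈ 𝐍 L' ⊓ 𝐍 (L' ⊔ BG.cj f L' : Subgroup G) ∨
      f * g ∈ 𝐍 L' ⊓ 𝐍 (L' ⊔ BG.cj f L' : Subgroup G) := fun g hg => (perm h q c hg).imp
    (fun e => ⟨cj_eq_self.1 e, hg⟩) fun e => ⟨cj_eq_self.1 (by rw [← cj_cj, e, cj2 h q c]), mul_mem fJ hg⟩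
  have ab := ab2 n h.iv.sq dec
  refine ft (K := 𝐍 L' ⊓ 𝐍 (L' ⊔ BG.cj f L' : Subgroup G)) h.iv fJ (fun k => ne h q c (cj_of_norm k.1)) ⟨inf_le_right, le_norm_iff.2 fun x hx y hy => ?_⟩ ab fun g hg => ?_
  · simpa using mul_mem (ab x hx y hy.2) hy
  rcases perm h q c hg with e | e
  · exact (no (h.cj g) q (q.cj f) c (cj_eq_self.1 e) (n2 h q c hg (cj_eq_self.1 e))).elim
  · obtain ⟨δ, k⟩ := ex (h.cj g) q (e ▸ c)
    rw [← cj_eq_self, ← can' h q c g k, can (h.cj g) q (e ▸ c) k, e]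

theorem HI.iso (h : HI f θ) (v : 𝐂₁ f ⊓ 𝐂 (OL f) ≤ zpowers f) (n : f ∉ OL f) (h0 : H0 f) : f ∉ commutator G := by
  have q := h.toQT
  have oO := odd_of_pi (O_pi {2}ᶜ (⊤ : Subgroup G))
  have nO : (𝐎 {2}ᶜ (⊤ : Subgroup G)).Normal := normalIn_top.1 (O_normal _ _)
  have dec : ∀ g, ∃ o ∈ 𝐎 {2}ᶜ (⊤ : Subgroup G), Commute (o * g) f := fun g => by
    have m := ZD.zstar_in (M := ⊤) h.iv trivial (fun g _ c => (sq_zp h.iv.sq (v ⟨c1_of (Eq.symm c), h0 g c⟩)).resolve_left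
      (h.iv.conj g).ne) (mem_top g)
    rw [h.iv.inv, mul_assoc, mul_assoc, ← mul_assoc g] at m
    obtain ⟨o, ho, e⟩ := dih_odd h.iv.sq (sq_cj h.iv.sq g) (odd_mem oO m)
    exact ⟨o, zpowers_le.2 m ho, comm_iff_cj.2 (Eq.trans (by group) e)⟩
  have nN : (𝐎 {2}ᶜ ⊤ ⊔ OL f : Subgroup G).Normal := normalIn_top.1 ⟨le_top, fun g _ => by
    obtain ⟨o, ho, k⟩ := dec g
    have := mul_mem (le_norm_self (𝐎 {2}ᶜ ⊤ ⊔ OL f) (mem_sup_left (inv_mem ho)))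
      (norm_sup (fun _ _ => le_normalizer_of_normal (mem_top _)) (OL_nor f) (c1_of k))
    rwa [inv_mul_cancel_left] at this⟩
  have lf : ∀ a, Commute a f → θ a ∈ MM → ∀ b, Commute b f → a * b * a⁻¹ * b⁻¹ ∈ OL f := fun a ca m b cb => by
    obtain ⟨l, hl, e⟩ := q.sur _ m
    have k : Commute (l⁻¹ * a) b := by
      rcases sq_zp h.iv.sq (v ⟨c1_of ((OL_comm hl).inv_left.mul_left ca), q.div (q.ln hl) (OL_nr ca) e⟩) with k | k <;>
        rw [k]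
      exacts [Commute.one_left _, cb.symm]
    have : a * b * a⁻¹ * b⁻¹ = l * (b * l⁻¹ * b⁻¹) := by
      calc _ = l * (l⁻¹ * a * b) * a⁻¹ * b⁻¹ := by group
        _ = _ := by rw [k.eq]; group
    exact this ▸ mul_mem hl (conj_mem_of_norm (OL_nr cb) (inv_mem hl))
  have ab : ∀ a b, Commute a f → Commute b f → a * b * a⁻¹ * b⁻¹ ∈ OL f := fun a b ca cb => by
    by_cases m : θ a ∈ MM
    · exact lf a ca m b cb
    by_cases m' : θ b ∈ MM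
    · simpa [mul_assoc] using inv_mem (lf b cb m' a ca)
    · have := lf (a * b) (ca.mul_left cb) (q.hom a (OL_nr ca) b (OL_nr cb) ▸
        idx2 (q.mem a (OL_nr ca)) (q.mem b (OL_nr cb)) m m') a ca
      simpa [mul_assoc] using inv_mem (conj_mem_of_norm' (OL_nr ca) this)
  intro m
  have l : commutator G ≤ 𝐎 {2}ᶜ ⊤ ⊔ OL f := commutator_le.2 fun a _ b _ => by
    obtain ⟨o, ho, ca⟩ := dec a
    obtain ⟨p, hp, cb⟩ := dec b
    have := mem_sup_right (S := 𝐎 {2}ᶜ ⊤) (ab _ _ ca cb)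
    rw [← QuotientGroup.eq_one_iff] at this ⊢
    have e : ∀ o ∈ 𝐎 {2}ᶜ (⊤ : Subgroup G), ((o : G) : G ⧸ (𝐎 {2}ᶜ ⊤ ⊔ OL f : Subgroup G)) = 1 := fun o ho =>
      (QuotientGroup.eq_one_iff o).2 (mem_sup_left ho)
    simpa [e o ho, e p hp, commutatorElement_def] using this
  obtain ⟨o, ho, y, hy, e⟩ := (mem_sup_norm' (fun _ _ => le_normalizer_of_normal (mem_top _))).1 (l m)
  have : o ∈ OL f := mem_OL (by
    rw [eq_mul_inv_of_mul_eq e]; exact (Commute.refl f).mul_left (OL_comm hy).inv_left) (odd_mem oO ho)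
  have k := mul_mem this hy
  exact n (by rwa [e] at k)

end CF.Tr
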