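import Cfsg.Agent.Tr.B
import Cfsg.Agent.Tr.FD
import Cfsg.Agent.Bt.Pc
import Cfsg.Agent.Bt.Enum
import Cfsg.Agent.Bt.Out
import Cfsg.Agent.Dce.Count

/-! Facts on `S2`: Sylow subgroups, classes, centralisers. -/

set_option autoImplicit false
set_option maxRecDepth 1000000
set_option linter.unusedSectionVars false
set_option synthInstance.maxSize 100000

namespace CF.Tr
open Cfsg Subgroup CF.BG CF.Bender CF.J4 CF.Comp CF.Dce CF.Comp.Mat CF.Dce.J4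
open scoped commutatorElement

/-- equal words -/
noncomputable abbrev eN (u w : List ℕ) : Prop := sameW nN 24 5 u w = true
/-- different words -/
noncomputable abbrev dN (u w : List ℕ) : Prop := Bt.difW nN 24 5 u w = true
/-- commuting words -/
noncomputable abbrev cN' (u w : List ℕ) : Prop := eN (lapp u w) (lapp w u)
/-- words that do not commute -/
noncomputable abbrev ncN (u w : List ℕ) : Prop := dN (lapp u w) (lapp w u)
/-- a word in `MM` -/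
noncomputable abbrev mN (w : List ℕ) : Prop := imgW nN 1 w (2 ^ 23) = 2 ^ 23
/-- a word outside `MM` -/
noncomputable abbrev oN (w : List ℕ) : Prop := imgW nN 1 w (2 ^ 23) = 2 ^ 0
/-- a word of odd order -/
noncomputable abbrev odN (w : List ℕ) : Prop := ∃ k ∈ [3, 5, 7], eN (wpow w k) []
/-- `m` conjugates `u` to `w` -/
noncomputable abbrev jN (m u w : List ℕ) : Prop := eN (lapp m u) (lapp w m)
/-- commutator of words -/
noncomputable abbrev cw (u w : List ℕ) : List ℕ := lapp u (lapp w (lapp (winv u) (winv w)))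
/-- an index for a word -/
noncomputable def key (w : List ℕ) : ℕ :=
  List.rec (motive := fun _ => ℕ) 0 (fun x _ r => Nat.add r (Nat.shiftLeft 1 (Nat.shiftRight (Nat.sub x 7) 1))) w

section W
variable {u w m : List ℕ}

theorem heN : Bt.Eqv φ (sameW nN 24 5) := fun _ _ h => eqN h
theorem cN'.cm (h : cN' u w) : Commute (ev φ u) (ev φ w) := by
  simpa only [ev_lapp, Commute, SemiconjBy] using eqN h
theorem ncN.nc (h : ncN u w) : ¬ Commute (ev φ u) (ev φ w) := by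
  simpa only [ev_lapp, Commute, SemiconjBy, ne_eq] using neN h
theorem jN.cj (h : jN m u w) : ev φ m * ev φ u * (ev φ m)⁻¹ = ev φ w := heN.conj h
theorem dN.sq (h : dN (lapp w w) []) : ev φ w * ev φ w ≠ 1 := by simpa only [ev_lapp, ev_nil] using neN h
theorem eN.sq (h : eN (lapp w w) []) : ev φ w * ev φ w = 1 := by simpa only [ev_lapp, ev_nil] using eqN h
theorem eN.one (h : eN w []) : ev φ w = 1 := eqN h
theorem dN.one (h : dN w []) : ev φ w ≠ 1 := neN h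
theorem odN.od (h : odN w) : Odd (orderOf (ev φ w)) := by
  obtain ⟨k, hk, e⟩ := h
  exact Odd.of_dvd_nat ((by decide : ∀ k ∈ [3, 5, 7], Odd k) k hk) (orderOf_dvd_of_pow_eq_one (ev_wpow φ w k ▸ e.one))
theorem ev_cw (u w : List ℕ) : ev φ (cw u w) = ⁅ev φ u, ev φ w⁆ := by
  simp only [ev_lapp, ev_winv, commutatorElement_def, mul_assoc]
theorem ev1 (i : ℕ) : ev φ [2 * i + 1] = φ i := ev_single φ i
theorem evz : ev φ [7] = pZ := ev1 3
theorem evb : ev φ [21] = pB := ev1 10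
theorem evc : ev φ [31] = pC := ev1 15
theorem evr : ev φ [23] = ro := ev1 11
theorem ev7 : ev φ [33] = s7 := ev1 16
theorem evx : ev φ [1] = pX := ev1 0
theorem evs2 : ev φ [3, 3] = pS * pS := by simp only [ev_cons, ev_nil, mul_one, evl]
theorem evS (w : List ℕ) : ev φ w ∈ S2 := ev_mem φ_mem w
end W

section Gen
variable {G : Type*} [Group G] [Finite G]

theorem prod_cover {A K C : Subgroup G} (hA : A ≤ C) (hK : K ≤ C) (d : A ⊓ K = ⊥) (c : ♯C ≤ ♯A * ♯K) :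
    ♯C = ♯A * ♯K ∧ ∀ g ∈ C, ∃ a ∈ A, ∃ k ∈ K, g = a * k := by
  let m : A × K → C := fun p => ⟨p.1 * p.2, mul_mem (hA p.1.2) (hK p.2.2)⟩
  have i : Function.Injective m := fun p q e => by
    have e' : (p.1 : G) * p.2 = q.1 * q.2 := congrArg Subtype.val e
    have k : (q.1 : G)⁻¹ * p.1 = q.2 * (p.2 : G)⁻¹ := by rw [inv_mul_eq_iff_eq_mul, ← mul_assoc, ← e']; simp
    have o : (q.1 : G)⁻¹ * p.1 = 1 := mem_bot.1 (d ▸ mem_inf.2 ⟨mul_mem (inv_mem q.1.2) p.1.2,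
      k ▸ mul_mem q.2.2 (inv_mem p.2.2)⟩)
    exact Prod.ext (Subtype.ext (inv_mul_eq_one.1 o).symm) (Subtype.ext (mul_inv_eq_one.1 (k ▸ o)).symm)
  have l := Nat.card_le_card_of_injective m i
  rw [Nat.card_prod] at l
  refine ⟨le_antisymm c l, fun g hg => ?_⟩
  obtain ⟨p, e⟩ := (i.bijective_of_nat_card_le (by rwa [Nat.card_prod])).2 ⟨g, hg⟩
  exact ⟨_, p.1.2, _, p.2.2, (congrArg Subtype.val e).symm⟩

/-- no word lies in the group generated by the later ones -/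
noncomputable def pcNe (ne : List ℕ → List ℕ → Bool) (p : ℕ) (ss : List (List ℕ)) : Bool :=
  List.rec (motive := fun _ => Bool) true (fun s t ih => Bool.rec false ih (Bt.pcAll p (fun w => ne w s) t)) ss

theorem pc_card {f : ℕ → G} {ne : List ℕ → List ℕ → Bool} (hn : Bt.Nev f ne) {p : ℕ} (hp : p.Prime)
    {ss : List (List ℕ)} (h : Bt.Pc f p ss) (c : pcNe ne p ss = true) : ♯(clo f ss) = p ^ ss.length := by
  induction ss with
  | nil => simp [clo_nil]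
  | cons s t ih =>
    obtain ⟨c1, c2⟩ := Bt.and_of_rec c
    have := Fact.mk hp
    obtain ⟨k, e⟩ := IsPGroup.iff_card.1 (h.pgroup hp.ne_zero)
    have l := h.card_le hp.ne_zero
    have lt : clo f t < clo f (s :: t) := lt_of_le_of_ne (clo_le.2 fun w hw => ev_mem_clo _ (List.mem_cons_of_mem _ hw))
      fun q => by
        obtain ⟨w, e1, e2⟩ := h.2.2.all hp.ne_zero c1 _ (q.ge (ev_mem_clo f List.mem_cons_self))
        exact hn _ _ e2 e1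
    have lt' := card_lt lt
    rw [ih h.2.2 c2, e, Nat.pow_lt_pow_iff_right hp.one_lt] at lt'
    rw [e, Nat.pow_le_pow_iff_right hp.one_lt] at l
    rw [e, le_antisymm l lt']
end Gen

theorem hdN : Bt.Nev φ (Bt.difW nN 24 5) := fun _ _ h => neN h

theorem exN : Exact D0 nN φ cN S2 :=
  ⟨rN, by norm_num, by decide +kernel, inferInstance, fun w _ => evS w, card_S2.le.trans (by decide +kernel)⟩

theorem cen_le {a : List ℕ} {fw kg : List (List ℕ)} {T : Bt.Tr} {m : ℕ}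
    (h : Bt.stdOK nN 24 5 cN [a] [a] [] [] fw kg T m = true) : ♯(S2 ⊓ 𝐂₁ (ev φ a)) ≤ m :=
  Bt.card_cent_le exN (by norm_num) k5 (D0_full.faithful ⊤) le_top trivial (fun w _ => evS w) h

theorem clo_ge {ws : List (List ℕ)} {c : List Lvl} {s : ℕ} (h : Bt.geOK nN 24 (subC ws c) s = true) :
    s ≤ ♯(clo φ ws) := le_card_clo rN (by norm_num) h

/-- run through the products of two lists of normal forms -/
noncomputable def cenAll (p : ℕ) (As Ks : List (List ℕ)) (P : List ℕ → Prop) [DecidablePred P] : Bool :=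
  Bt.pcAll p (fun u => Bt.pcAll 2 (fun w => decide (P (lapp u w))) Ks) As

/-- the centraliser of `a` is the product of two groups -/
structure Cv (a : Pm) (p : ℕ) (As Ks : List (List ℕ)) (m : ℕ) : Prop where
  pa : Bt.Pc φ p As
  pk : Bt.Pc φ 2 Ks
  p0 : p ≠ 0
  card : ♯(S2 ⊓ 𝐂₁ a) = m
  cov : ∀ g ∈ S2 ⊓ 𝐂₁ a, ∃ a ∈ clo φ As, ∃ k ∈ clo φ Ks, g = a * k

theorem Cv.of {a : List ℕ} {p m : ℕ} {As Ks : List (List ℕ)} (hp : p.Prime) (p2 : p ≠ 2) (pa : Bt.Pc φ p As)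
    (pk : Bt.Pc φ 2 Ks) (le : ♯(S2 ⊓ 𝐂₁ (ev φ a)) ≤ m)
    (h : pcNe (Bt.difW nN 24 5) p As = true ∧ pcNe (Bt.difW nN 24 5) 2 Ks = true ∧ (∀ w ∈ As, cN' w a) ∧
      (∀ w ∈ Ks, cN' w a) ∧ m = p ^ As.length * 2 ^ Ks.length) : Cv (ev φ a) p As Ks m := by
  obtain ⟨h1, h2, h3, h4, h5⟩ := h
  have c1 := pc_card hdN hp pa h1
  have c2 := pc_card hdN Nat.prime_two pk h2
  have := prod_cover (C := S2 ⊓ 𝐂₁ (ev φ a)) (clo_le.2 fun w hw => ⟨evS w, c1_of (h3 w hw).cm⟩)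
    (clo_le.2 fun w hw => ⟨evS w, c1_of (h4 w hw).cm⟩) (disjoint_iff.1 (Subgroup.disjoint_of_coprime_natCard (by
      rw [c1, c2]; exact Nat.coprime_pow_primes _ _ hp Nat.prime_two p2))) (by rw [c1, c2, ← h5]; exact le)
  exact ⟨pa, pk, hp.ne_zero, by rw [this.1, c1, c2, h5], this.2⟩

theorem Cv.all {a g : Pm} {p m : ℕ} {As Ks : List (List ℕ)} (h : Cv a p As Ks m) (P : List ℕ → Prop) [DecidablePred P]
    (c : cenAll p As Ks P = true) (hg : g ∈ S2) (e : Commute g a) : ∃ w, ev φ w = g ∧ P w := by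
  obtain ⟨x, hx, y, hy, rfl⟩ := h.cov g ⟨hg, c1_of e⟩
  obtain ⟨u, rfl, hu⟩ := h.pa.all h.p0 c x hx
  obtain ⟨w, rfl, hw⟩ := h.pk.all two_ne_zero hu y hy
  exact ⟨_, ev_lapp φ u w, of_decide_eq_true hw⟩

theorem pc_all {p : ℕ} (hp : p ≠ 0) {ss : List (List ℕ)} (h : Bt.Pc φ p ss) (P : List ℕ → Prop) [DecidablePred P]
    (c : Bt.pcAll p (fun w => decide (P w)) ss = true) {g : Pm} (hg : g ∈ clo φ ss) : ∃ w, ev φ w = g ∧ P w :=
  (h.all hp c g hg).imp fun _ k => ⟨k.1, of_decide_eq_true k.2⟩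

/-- the generators of `TA` -/
abbrev wT : List (List ℕ) := [[21], [19], [17], [15], [13], [11], [9], [7]]

theorem pcTA : Bt.Pc φ 2 wT := heN.pc (c := pcT) (by decide +kernel)
theorem pcP9 : Bt.Pc φ 3 [[25], [23]] := heN.pc (c := pc9) (by decide +kernel)
theorem pc1 {w : List ℕ} {p : ℕ} (h : eN (wpow w p) []) : Bt.Pc φ p [w] :=
  ⟨by rw [clo_nil]; simp, by rw [← ev_wpow, h.one]; exact one_mem _, trivial⟩

theorem cvZ : Cv pZ 3 [[23]] wT 768 := evz ▸ Cv.of Nat.prime_three (by decide) (pc1 (by decide +kernel)) pcTA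
  (cen_le (fw := tZF) (kg := tZK) (T := tZ) (by decide +kernel)) (by decide +kernel)
theorem cvR : Cv ro 3 [[25], [23]] [[21], [13], [7]] 72 := evr ▸ Cv.of Nat.prime_three (by decide) pcP9
  (heN.pc (c := pc8) (by decide +kernel)) (cen_le (fw := tRF) (kg := tRK) (T := tR) (by decide +kernel))
  (by decide +kernel)
theorem cvS : Cv (pS * pS) 5 [[3, 3]] [[31]] 10 := evs2 ▸ Cv.of Nat.prime_five (by decide) (pc1 (by decide +kernel))
  (pc1 (by decide +kernel)) (cen_le (fw := tSF) (kg := tSK) (T := tS) (by decide +kernel)) (by decide +kernel)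
theorem cv7 : Cv s7 7 [[33]] [[21]] 14 := ev7 ▸ Cv.of (by norm_num) (by decide) (pc1 (by decide +kernel))
  (pc1 (by decide +kernel)) (cen_le (fw := t7F) (kg := t7K) (T := t7) (by decide +kernel)) (by decide +kernel)
theorem cvX : Cv pX 11 [[1]] [] 11 := evx ▸ Cv.of (by norm_num) (by decide) (pc1 (by decide +kernel))
  trivial (cen_le (fw := tXF) (kg := tXK) (T := tX) (by decide +kernel)) (by decide +kernel)

theorem TA_card : ♯TA = 256 := pc_card hdN Nat.prime_two pcTA (by decide +kernel)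

theorem TA_le : TA ≤ S2 := clo_le.2 fun w _ => evS w

theorem pB_n : pB ∉ MM := φ_nMM (by decide)
theorem pC_n : pC ∉ MM := φ_nMM (by decide)

/-- conjugation in `S2` can be done in `MM` -/
theorem to_M {P : Pm → Prop} {k : Pm} (hk : k ∈ S2) (n : k ∉ MM) (c : ∀ x, P x → P (k * x)) (h : ∃ x ∈ S2, P x) :
    ∃ m ∈ MM, P m := by
  obtain ⟨x, hx, e⟩ := h
  by_cases m : x ∈ MM
  exacts [⟨x, m, e⟩, ⟨_, idx2 hk hx n m, c x e⟩]

theorem sylA {Q : Subgroup Pm} (h : Q ≤ S2) (p : IsPGroup 2 Q) : ∃ m ∈ MM, ∀ g ∈ Q, m * g * m⁻¹ ∈ TA := by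
  have b : pB ∈ TA := evb ▸ ev_mem_clo φ (by simp)
  refine to_M (φ_mem 10) pB_n (fun x e g hg => ?_)
    (Bt.exists_conj_le (m := 3465) TA_le Nat.prime_two (by rw [card_S2, TA_card]) (by decide) h p)
  simpa [mul_assoc] using mul_mem (mul_mem b (e g hg)) (inv_mem b)

theorem cls {t : Pm} (h : t ∈ S2) (i : Iv t) :
    ∃ m ∈ MM, m * t * m⁻¹ = pZ ∨ m * t * m⁻¹ = pB ∨ m * t * m⁻¹ = pC := by
  obtain ⟨m, hm, e⟩ := sylA (zpowers_le.2 h) (IsPGroup.of_card (n := 1) i.card)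
  obtain ⟨w, e1, e2⟩ := pc_all two_ne_zero pcTA (fun w => dN (lapp w w) [] ∨ eN w [] ∨ (mN (nth [] tbC (key w)) ∧
    ∃ r ∈ ([[7], [21], [31]] : List (List ℕ)), jN (nth [] tbC (key w)) w r)) (by decide +kernel) (e t (mem_zpowers t))
  rcases e2 with k | k | ⟨k, r, hr, k'⟩
  · exact absurd (e1 ▸ sq_cj i.2 m) k.sq
  · exact absurd (cj_eq_one (e1 ▸ k.one)) i.1
  refine ⟨_, mul_mem (ev_MM k) hm, ?_⟩
  have := k'.cj
  rw [e1, show ∀ a : Pm, a * (m * t * m⁻¹) * a⁻¹ = a * m * t * (a * m)⁻¹ from fun a => by group] at this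
  rw [this]
  simp only [List.mem_cons, List.not_mem_nil, or_false] at hr
  rcases hr with rfl | rfl | rfl
  exacts [.inl evz, .inr (.inl evb), .inr (.inr evc)]

theorem cj_M {m t : Pm} (hm : m ∈ MM) : m * t * m⁻¹ ∈ MM ↔ t ∈ MM := by
  rw [mul_mem_cancel_right (inv_mem hm), mul_mem_cancel_left hm]

theorem clsM {t : Pm} (h : t ∈ MM) (i : Iv t) : ∃ m ∈ MM, m * pZ * m⁻¹ = t := by
  obtain ⟨m, hm, e | e | e⟩ := cls (MM_le h) i
  · exact ⟨m⁻¹, inv_mem hm, by rw [← e]; group⟩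
  · exact absurd (e ▸ (cj_M hm).2 h) pB_n
  · exact absurd (e ▸ (cj_M hm).2 h) pC_n

theorem clsO {t : Pm} (h : t ∈ S2) (i : Iv t) (n : t ∉ MM) : ∃ m ∈ MM, t = m * pB * m⁻¹ ∨ t = m * pC * m⁻¹ := by
  obtain ⟨m, hm, e | e | e⟩ := cls h i
  · exact absurd ((cj_M hm).1 (e ▸ pZ_MM)) n
  · exact ⟨m⁻¹, inv_mem hm, .inl (by rw [← e]; group)⟩
  · exact ⟨m⁻¹, inv_mem hm, .inr (by rw [← e]; group)⟩

theorem cls' {t : Pm} (h : t ∈ S2) (i : Iv t) : ∃ m ∈ MM, ∃ r ∈ [pZ, pB, pC], t = m * r * m⁻¹ := by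
  obtain ⟨m, hm, e⟩ := cls h i
  exact ⟨m⁻¹, inv_mem hm, m * t * m⁻¹, by simpa using e, by group⟩

theorem s2_odd : Odd (orderOf (pS * pS)) := evs2 ▸ odN.od (by decide +kernel)
theorem s7_odd : Odd (orderOf s7) := ev7 ▸ odN.od (by decide +kernel)
theorem ms2 : pS * pS ∈ MM := S2_sq (φ_mem 1)

theorem o0 {t : Pm} (h : t ∈ S2) (i : t * t = 1) : ∃ o ∈ MM, o ≠ 1 ∧ Odd (orderOf o) ∧ Commute o t := by
  by_cases e : t = 1
  · exact ⟨ro, mro, ro_ne, ro_odd, e ▸ Commute.one_right _⟩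
  obtain ⟨m, hm, r, hr, rfl⟩ := cls' h ⟨e, i⟩
  suffices ∃ o ∈ MM, o ≠ 1 ∧ Odd (orderOf o) ∧ Commute o r by
    obtain ⟨o, h1, h2, h3, h4⟩ := this
    exact ⟨_, (cj_M hm).2 h1, fun e => h2 (cj_eq_one e), odd_cj h3 m, comm_cj h4 m⟩
  simp only [List.mem_cons, List.not_mem_nil, or_false] at hr
  rcases hr with rfl | rfl | rfl
  · exact ⟨ro, mro, ro_ne, ro_odd, weq [23, 7] [7, 23]⟩
  · exact ⟨ro, mro, ro_ne, ro_odd, weq [23, 21] [21, 23]⟩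
  · exact ⟨pS * pS, ms2, wne [3, 3] [], s2_odd, weq [3, 3, 31] [31, 3, 3]⟩

theorem cyc {y : Pm} (h : y ∈ MM) {p c : ℕ} (hp : p.Prime) (o : orderOf y = p) {w : List ℕ}
    (k : mN w ∧ eN (wpow w p) [] ∧ dN w [] ∧ 443520 = p * c ∧ ¬ p ∣ c) : ∃ m ∈ MM, ∃ j : ℕ, m * y ^ j * m⁻¹ = ev φ w := by
  obtain ⟨k1, k2, k3, k4, k5⟩ := k
  have := Fact.mk hp
  have ow : orderOf (ev φ w) = p := orderOf_eq_prime (ev_wpow φ w p ▸ k2.one) k3.one
  obtain ⟨m, hm, e⟩ := Bt.exists_conj_mem (a := 1) (zpowers_le.2 (ev_MM k1)) hp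
    (by rw [card_M22, Nat.card_zpowers, ow]; exact k4) k5 h (by rw [pow_one, ← o, pow_orderOf_eq_one])
  have := eq_of_card_le (zpowers_le.2 e) (by rw [Nat.card_zpowers, Nat.card_zpowers, orderOf_conj', o, ow])
  obtain ⟨j, ej⟩ := (mem_powers_iff_mem_zpowers.2 (this.ge (mem_zpowers _)))
  exact ⟨m, hm, j, by rw [← conj_pow]; exact ej⟩

theorem o1 {ρ : Pm} (h : ρ ∈ MM) (o : Odd (orderOf ρ)) (n : ρ ≠ 1) :
    ∃ m ∈ MM, ∃ k : ℕ, m * ρ ^ k * m⁻¹ ∈ [ro, pS * pS, s7, pX] := by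
  obtain ⟨p, hp, d⟩ := Nat.exists_prime_and_dvd (mt orderOf_eq_one_iff.1 n)
  have oy : orderOf (ρ ^ (orderOf ρ / p)) = p := orderOf_pow_orderOf_div (orderOf_pos ρ).ne' d
  have my := pow_mem h (orderOf ρ / p)
  have d2 : p ∣ 2 ^ 7 * 3 ^ 2 * 5 * 7 * 11 := d.trans ((orderOf_dvd_card' h).trans (by rw [card_M22]; decide))
  have fin : ∀ {w : List ℕ}, (∃ m ∈ MM, ∃ j : ℕ, m * (ρ ^ (orderOf ρ / p)) ^ j * m⁻¹ = ev φ w) →
      ev φ w ∈ [ro, pS * pS, s7, pX] → ∃ m ∈ MM, ∃ k : ℕ, m * ρ ^ k * m⁻¹ ∈ [ro, pS * pS, s7, pX] :=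
    fun ⟨m, hm, j, e⟩ k => ⟨m, hm, _, by rw [pow_mul, e]; exact k⟩
  simp only [hp.dvd_mul, hp.prime.dvd_pow_iff_dvd (by norm_num : 7 ≠ 0), hp.prime.dvd_pow_iff_dvd two_ne_zero,
    Nat.prime_dvd_prime_iff_eq hp Nat.prime_two, Nat.prime_dvd_prime_iff_eq hp Nat.prime_three,
    Nat.prime_dvd_prime_iff_eq hp Nat.prime_five, Nat.prime_dvd_prime_iff_eq hp (by norm_num : Nat.Prime 7),
    Nat.prime_dvd_prime_iff_eq hp (by norm_num : Nat.Prime 11)] at d2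
  rcases d2 with (((rfl | rfl) | rfl) | rfl) | rfl
  · exact absurd (o.of_dvd_nat d) (by decide)
  · have c9 : ♯(clo φ [[25], [23]]) = 9 := pc_card hdN hp pcP9 (by decide +kernel)
    obtain ⟨m, hm, e⟩ := Bt.exists_conj_mem (a := 1) (m := 49280) (P := clo φ [[25], [23]])
      (clo_le.2 fun w hw => ev_MM ((by decide +kernel : ∀ w ∈ [[25], [23]], mN w) w hw)) hp
      (by rw [card_M22, c9]) (by decide) my (orderOf_dvd_iff_pow_eq_one.1 oy.dvd)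
    obtain ⟨w, e1, k | ⟨u, -, k1, k2⟩⟩ := pc_all three_ne_zero pcP9 (fun w => eN w [] ∨ ∃ u ∈ ([[], [29], [28, 17, 15],
      [17, 2, 13, 15], [28, 13, 2, 28], [15, 28, 17], [28, 25, 31, 4, 1], [31, 5, 23, 3]] : List (List ℕ)),
      mN u ∧ jN u w [23])
      (by decide +kernel) e
    · rw [cj_eq_one (e1.symm.trans k.one), orderOf_one] at oy; omega
    · refine fin (w := [23]) ⟨_, mul_mem (ev_MM k1) hm, 1, ?_⟩ (by rw [evr]; simp)
      rw [← k2.cj, e1]; group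
  · exact fin (cyc my hp oy (w := [3, 3]) (c := 88704) (by decide +kernel)) (by rw [evs2]; simp)
  · exact fin (cyc my hp oy (w := [33]) (c := 63360) (by decide +kernel)) (by rw [ev7]; simp)
  · exact fin (cyc my hp oy (w := [1]) (c := 40320) (by decide +kernel)) (by rw [evx]; simp)

/-- the check for `o2` -/
noncomputable abbrev o2N (r : List ℕ) (L : List (List ℕ × List ℕ)) (w : List ℕ) : Prop :=
  dN (lapp w w) [] ∨ eN w [] ∨ ∃ c ∈ L, mN c.1 ∧ mN c.2 ∧ odN c.1 ∧ cN' c.1 w ∧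
    eN (lapp (cw (cw c.1 r) r) (cw (cw c.1 r) r)) [] ∧ jN c.2 w (lapp w (cw (cw c.1 r) r)) ∧ ncN (cw (cw c.1 r) r) r

theorem o2' {t r : Pm} (h : t ∈ S2) (i : Iv t) (hr : r ∈ [ro, pS * pS, s7, pX]) (c : Commute t r) :
    ∃ a ∈ MM, ∃ l ∈ MM, Odd (orderOf a) ∧ Commute a t ∧ ⁅⁅a, r⁆, r⁆ * ⁅⁅a, r⁆, r⁆ = 1 ∧
      t * ⁅⁅a, r⁆, r⁆ = l * t * l⁻¹ ∧ ¬ Commute ⁅⁅a, r⁆, r⁆ r := by
  suffices ∃ u L w, ev φ u = r ∧ ev φ w = t ∧ o2N u L w by
    obtain ⟨u, L, w, rfl, rfl, k | k | ⟨c, -, k1, k2, k3, k4, k5, k6, k7⟩⟩ := this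
    exacts [absurd i.2 k.sq, absurd k.one i.1, ⟨_, ev_MM k1, _, ev_MM k2, k3.od, k4.cm,
      by simpa only [ev_cw] using k5.sq, by simpa only [ev_lapp (u := w), ev_cw] using k6.cj.symm,
      by simpa only [ev_cw] using k7.nc⟩]
  simp only [List.mem_cons, List.not_mem_nil, or_false] at hr
  rcases hr with rfl | rfl | rfl | rfl
  · obtain ⟨w, e⟩ := cvR.all (o2N [23] [([17, 11, 24], [34]), ([23, 11, 7], [19]), ([11, 24, 7], [28]),
      ([23, 17], [6, 28]), ([15, 23], [13, 33]), ([15, 29, 17], [1, 27, 25]), ([15, 29, 17], [29, 2]),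
      ([2, 7, 1, 24], [21, 3]), ([28, 25, 27], [2, 5])]) (by decide +kernel) h c
    exact ⟨_, _, w, evr, e⟩
  · obtain ⟨w, e⟩ := cvS.all (o2N [3, 3] [([3, 3, 19], [27])]) (by decide +kernel) h c
    exact ⟨_, _, w, evs2, e⟩
  · obtain ⟨w, e⟩ := cv7.all (o2N [33] [([7, 33], [4, 21])]) (by decide +kernel) h c
    exact ⟨_, _, w, ev7, e⟩
  · obtain ⟨w, e⟩ := cvX.all (o2N [1] []) (by decide +kernel) h c
    exact ⟨_, _, w, evx, e⟩

theorem iv_cj {G : Type*} [Group G] {t : G} (i : Iv t) (m : G) : Iv (m * t * m⁻¹) :=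
  ⟨fun e => i.1 (cj_eq_one e), sq_cj i.2 m⟩

theorem o2 {t ρ : Pm} (h : t ∈ S2) (i : Iv t) (hρ : ρ ∈ MM) (o : Odd (orderOf ρ)) (n : ρ ≠ 1) (c : Commute ρ t) :
    ∃ k : ℕ, ∃ a ∈ MM, ∃ l ∈ MM, Odd (orderOf a) ∧ Commute a t ∧ ⁅⁅a, ρ ^ k⁆, ρ ^ k⁆ * ⁅⁅a, ρ ^ k⁆, ρ ^ k⁆ = 1 ∧
      t * ⁅⁅a, ρ ^ k⁆, ρ ^ k⁆ = l * t * l⁻¹ ∧ ¬ Commute ⁅⁅a, ρ ^ k⁆, ρ ^ k⁆ ρ := by
  obtain ⟨m, hm, k, e⟩ := o1 hρ o n
  obtain ⟨a, ha, l, hl, h1, h2, h3, h4, h5⟩ := o2' (mul_mem (mul_mem (MM_le hm) h) (inv_mem (MM_le hm))) (iv_cj i m) e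
    (comm_cj (c.pow_left k).symm m)
  have q : ⁅⁅m⁻¹ * a * m, ρ ^ k⁆, ρ ^ k⁆ = m⁻¹ * ⁅⁅a, m * ρ ^ k * m⁻¹⁆, m * ρ ^ k * m⁻¹⁆ * m := by
    simp only [commutatorElement_def]; group
  refine ⟨k, m⁻¹ * a * m, mul_mem (mul_mem (inv_mem hm) ha) hm, m⁻¹ * l * m, mul_mem (mul_mem (inv_mem hm) hl) hm,
    odd_cj' h1 m, by simpa [mul_assoc] using comm_cj' h2 m, ?_, ?_, fun e => h5 ?_⟩
  · rw [q]; simpa using sq_cj h3 m⁻¹
  · rw [q, show ∀ X : Pm, t * (m⁻¹ * X * m) = m⁻¹ * (m * t * m⁻¹ * X) * m from fun X => by group, h4]; group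
  · rw [q] at e
    simpa [mul_assoc] using comm_cj (e.pow_right k) m

theorem c1o {t a : Pm} (h : t ∈ S2) (i : Iv t) (n : t ∉ MM) (ha : a ∈ S2)
    (e : ∀ o ∈ MM, Odd (orderOf o) → Commute o t → Commute o a) : a = 1 ∨ a = t := by
  obtain ⟨m, hm, et⟩ := clsO h i n
  have a' : m⁻¹ * a * m ∈ S2 := mul_mem (mul_mem (inv_mem (MM_le hm)) ha) (MM_le hm)
  have k : ∀ {r : Pm}, t = m * r * m⁻¹ → ∀ o ∈ MM, Odd (orderOf o) → Commute o r → Commute (m⁻¹ * a * m) o :=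
    fun er o ho oo c => by
      simpa [mul_assoc] using comm_cj' (e _ ((cj_M hm).2 ho) (odd_cj oo m) (er ▸ comm_cj c m)).symm m
  have fin : ∀ {r : Pm}, t = m * r * m⁻¹ → m⁻¹ * a * m = 1 ∨ m⁻¹ * a * m = r → a = 1 ∨ a = t := fun er =>
    Or.imp cj_eq_one' fun e => by rw [er, ← e]; group
  rcases et with et | et
  · obtain ⟨w, e1, k1 | k1 | k1⟩ := cv7.all (fun w => ncN w [23] ∨ eN w [] ∨ eN w [21]) (by decide +kernel) a'
      (k et s7 ms7 s7_odd (weq [33, 21] [21, 33]))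
    · exact absurd (e1 ▸ evr ▸ k et ro mro ro_odd (weq [23, 21] [21, 23])) k1.nc
    · exact fin et (.inl (e1 ▸ k1.one))
    · exact fin et (.inr (e1 ▸ (eqN k1).trans evb))
  · obtain ⟨w, e1, k1 | k1 | k1⟩ := cvS.all (fun w => ncN w [21, 3] ∨ eN w [] ∨ eN w [31]) (by decide +kernel) a'
      (k et _ ms2 s2_odd (weq [3, 3, 31] [31, 3, 3]))
    · exact absurd (e1 ▸ k et (ev φ [21, 3]) (ev_MM (by decide +kernel)) (odN.od (by decide +kernel))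
        (evc ▸ cN'.cm (by decide +kernel))) k1.nc
    · exact fin et (.inl (e1 ▸ k1.one))
    · exact fin et (.inr (e1 ▸ (eqN k1).trans evc))

theorem ro_z' : Commute ro pZ := weq [23, 7] [7, 23]

theorem evbz : ev φ [21, 7] = pB * pZ := by simp only [ev_cons, ev_nil, mul_one, evl]

theorem c3 {a : Pm} (ha : a ∈ S2) (e : ∀ o ∈ MM, Odd (orderOf o) → Commute o pZ → Commute o a) :
    a = 1 ∨ a = pZ ∨ a = pB ∨ a = pB * pZ := by
  obtain ⟨w, rfl, k | k | k | k | k⟩ := cvR.all (fun w => ncN [23, 15] w ∨ eN w [] ∨ eN w [7] ∨ eN w [21] ∨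
    eN w [21, 7]) (by decide +kernel) ha (e ro mro ro_odd ro_z').symm
  · exact absurd (e _ (ev_MM (by decide +kernel)) (odN.od (by decide +kernel)) (evz ▸ cN'.cm (by decide +kernel))) k.nc
  exacts [.inl k.one, .inr (.inl ((eqN k).trans evz)), .inr (.inr (.inl ((eqN k).trans evb))),
    .inr (.inr (.inr ((eqN k).trans evbz)))]

theorem o4' {ρ : Pm} (h : ρ ∈ MM) (o : Odd (orderOf ρ)) (n : ρ ≠ 1) (c : Commute ρ pZ) :
    Commute ρ pB ∧ ∃ m ∈ MM, Commute m pZ ∧ m * ρ * m⁻¹ = ro := by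
  have d : orderOf ρ ∣ 3 * 2 ^ 8 := (orderOf_dvd_card' (H := S2 ⊓ 𝐂₁ pZ) ⟨MM_le h, c1_of c⟩).trans cvZ.card.dvd
  have d3 : ρ ^ 3 = 1 := orderOf_dvd_iff_pow_eq_one.1
    (((Nat.coprime_two_right.2 o).pow_right 8).dvd_of_dvd_mul_right d)
  obtain ⟨w, rfl, k | k | ⟨k, u, -, k1, k2, k3⟩⟩ := cvZ.all (fun w => dN (wpow w 3) [] ∨ eN w [] ∨ (cN' w [21] ∧
    ∃ u ∈ ([[], [19, 15], [17, 15], [17, 19], [15], [19, 17], [17], [19], [11, 9], [19, 15, 11], [9], [11, 19, 15], [11],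
      [4, 15, 3], [4, 5, 3], [17, 19, 11], [19, 17, 11], [17, 11, 9], [21, 6, 4], [15, 9], [19, 17, 13], [11, 19],
      [17, 11, 19], [21, 3, 5], [15, 11, 9], [19, 17, 9], [17, 11], [19, 9], [17, 19, 9], [17, 9], [19, 11], [15, 11]] :
      List (List ℕ)), jN u w [23] ∧ mN u ∧ cN' u [7])) (by decide +kernel) (MM_le h) c
  exacts [absurd (ev_wpow φ w 3 ▸ d3) k.one, absurd k.one n,
    ⟨evb ▸ k.cm, _, ev_MM k2, evz ▸ k3.cm, k1.cj.trans evr⟩]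

theorem o4 {ρ : Pm} (h : ρ ∈ MM) (o : Odd (orderOf ρ)) (n : ρ ≠ 1) (c : Commute ρ pZ) :
    ∃ m ∈ MM, Commute m pZ ∧ m * ρ * m⁻¹ = ro := (o4' h o n c).2

theorem ob {ρ : Pm} (h : ρ ∈ MM) (o : Odd (orderOf ρ)) (c : Commute ρ pZ) : Commute ρ pB :=
  (em (ρ = 1)).elim (fun e => e ▸ Commute.one_left _) fun n => (o4' h o n c).1

theorem c2 {a : Pm} (ha : a ∈ S2) (i : a * a = 1) (h1 : Commute a pZ) (h2 : Commute a ro) :
    a = e13 ∨ a = e13 * pZ ∨ ∀ o ∈ MM, Odd (orderOf o) → Commute o pZ → Commute o a := by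
  obtain ⟨w, rfl, k | k | k | k | k | k | k | k⟩ := cvR.all (fun w => dN (lapp w w) [] ∨ ncN w [7] ∨ eN w [13] ∨
    eN w [13, 7] ∨ eN w [] ∨ eN w [7] ∨ eN w [21] ∨ eN w [21, 7]) (by decide +kernel) ha h2
  · exact absurd i k.sq
  · exact absurd (evz ▸ h1) k.nc
  · exact .inl ((eqN k).trans (ev1 6))
  · exact .inr (.inl ((eqN k).trans (by simp only [ev_cons, ev_nil, mul_one, evl])))
  all_goals refine .inr (.inr fun o ho oo c => ?_); rw [eqN k]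
  exacts [Commute.one_right _, evz ▸ c, evb ▸ ob ho oo c, evbz ▸ (ob ho oo c).mul_right c]

theorem eg1 {t : Pm} (h : t ∈ S2) (i : t * t = 1) :
    80 ≤ ♯(closure {o | o ∈ MM ∧ Odd (orderOf o) ∧ Commute o t}) := by
  by_cases e : t = 1
  · refine le_trans (by rw [card_M22]; norm_num) (card_le (MM_odd.trans (closure_mono fun o ho => ?_)))
    exact ⟨ho.1, ho.2, e ▸ Commute.one_right _⟩
  obtain ⟨m, hm, r, hr, rfl⟩ := cls' h ⟨e, i⟩
  suffices ∃ u ws c, ev φ u = r ∧ Bt.geOK nN 24 (subC ws c) 80 = true ∧ ∀ w ∈ ws, mN w ∧ odN w ∧ cN' w u by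
    obtain ⟨u, ws, c, rfl, k1, k2⟩ := this
    refine (clo_ge k1).trans (le_trans (card_cj m _).ge (card_le (cj_le_iff.2 (clo_le.2 fun w hw => mem_cj_inv.2 ?_))))
    obtain ⟨a, b, c⟩ := k2 w hw
    exact subset_closure ⟨(cj_M hm).2 (ev_MM a), odd_cj b.od m, comm_cj c.cm m⟩
  simp only [List.mem_cons, List.not_mem_nil, or_false] at hr
  rcases hr with rfl | rfl | rfl
  · exact ⟨[7], [[23], [23, 15], [23, 9, 7]], cEz, evz, by decide +kernel⟩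
  · exact ⟨[21], [[23], [33]], cEb, evb, by decide +kernel⟩
  · exact ⟨[31], [[3, 3], [21, 3]], cEc, evc, by decide +kernel⟩

theorem eg2 {ρ : Pm} (h : ρ ∈ MM) (o : Odd (orderOf ρ)) (n : ρ ≠ 1) : ♯(MM ⊓ 𝐂₁ ρ) ≤ 36 := by
  obtain ⟨m, hm, k, e⟩ := o1 h o n
  have l : cj m (MM ⊓ 𝐂₁ ρ) ≤ MM ⊓ 𝐂₁ (m * ρ ^ k * m⁻¹) := cj_le_iff.2 fun x hx =>
    mem_cj_inv.2 ⟨(cj_M hm).2 hx.1, c1_of (comm_cj ((c1_comm hx.2).pow_right k) m)⟩
  refine le_trans (card_cj m _).ge ((card_le l).trans ?_)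
  have l' : ∀ r : Pm, MM ⊓ 𝐂₁ r ≤ S2 ⊓ 𝐂₁ r := fun r => inf_le_inf_right _ MM_le
  simp only [List.mem_cons, List.not_mem_nil, or_false] at e
  rcases e with e | e | e | e <;> rw [e]
  · have lt := card_lt (lt_of_le_of_ne (l' ro) fun q => pB_n
      (q.ge ⟨φ_mem 10, c1_of (weq [21, 23] [23, 21])⟩ : pB ∈ MM ⊓ 𝐂₁ ro).1)
    obtain ⟨c, d⟩ := card_dvd (l' ro)
    rw [cvR.card] at lt d
    rcases c with _ | _ | c
    · omega
    · omega
    · nlinarith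
  · exact (card_le (l' _)).trans (by rw [cvS.card]; norm_num)
  · exact (card_le (l' _)).trans (by rw [cv7.card]; norm_num)
  · exact (card_le (l' _)).trans (by rw [cvX.card]; norm_num)

theorem par {t : Pm} (h : t ∈ S2) (i : Iv t) (n : t ∉ MM) : ∃ l ∈ MM, ∃ m ∈ MM, ∃ a ∈ MM, ∃ b ∈ MM,
    Odd (orderOf a) ∧ Odd (orderOf b) ∧ Commute a (t * (l * t * l⁻¹) * (m * t * m⁻¹)) ∧
    Commute b (t * (l * t * l⁻¹) * (m * t * m⁻¹)) ∧
    ∀ x ∈ [l, m, a * b, a * b * l, a * b * m], Commute t (x * t * x⁻¹) ∧ x * t * x⁻¹ ≠ t := by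
  obtain ⟨g, hg, et⟩ := clsO h i n
  suffices ∃ u l m a b, t = g * ev φ u * g⁻¹ ∧ mN l ∧ mN m ∧ mN a ∧ mN b ∧ odN a ∧ odN b ∧
      (∀ x ∈ [a, b], cN' x (lapp (lapp u (lapp (lapp l u) (winv l))) (lapp (lapp m u) (winv m)))) ∧
      ∀ x ∈ [l, m, lapp a b, lapp (lapp a b) l, lapp (lapp a b) m], cN' u (lapp (lapp x u) (winv x)) ∧ ncN x u by
    obtain ⟨u, l, m, a, b, rfl, h1, h2, h3, h4, h5, h6, h7, h8⟩ := this
    have q : ∀ x, x ∈ [a, b] → Commute (g * ev φ x * g⁻¹) (g * ev φ u * g⁻¹ * (g * ev φ l * g⁻¹ * (g * ev φ u * g⁻¹) *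
        (g * ev φ l * g⁻¹)⁻¹) * (g * ev φ m * g⁻¹ * (g * ev φ u * g⁻¹) * (g * ev φ m * g⁻¹)⁻¹)) := fun x hx => by
      simpa [ev_lapp, ev_winv, mul_assoc] using comm_cj (h7 x hx).cm g
    refine ⟨_, (cj_M hg).2 (ev_MM h1), _, (cj_M hg).2 (ev_MM h2), _, (cj_M hg).2 (ev_MM h3), _, (cj_M hg).2 (ev_MM h4),
      odd_cj h5.od g, odd_cj h6.od g, q a (by simp), q b (by simp), fun x hx => ?_⟩
    obtain ⟨y, hy, rfl⟩ : ∃ y ∈ [l, m, lapp a b, lapp (lapp a b) l, lapp (lapp a b) m], x = g * ev φ y * g⁻¹ := by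
      simpa [ev_lapp, mul_assoc] using hx
    refine ⟨by simpa [ev_lapp, ev_winv, mul_assoc] using comm_cj (h8 y hy).1.cm g, fun e => (h8 y hy).2.nc ?_⟩
    simpa [mul_assoc] using comm_cj' (comm_iff_cj.2 e) g
  rcases et with e | e
  · exact ⟨[21], [6], [5], [13, 25], [26], evb ▸ e, by decide +kernel⟩
  · exact ⟨[31], [13], [24], [1, 5, 27, 1, 33], [5, 25, 23, 2], evc ▸ e, by decide +kernel⟩

end CF.Tr
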