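import Cfsg.Agent.Tr.F1

/-! Facts on `C(z)` and `E`. -/

set_option autoImplicit false
set_option maxRecDepth 1000000
set_option linter.unusedSectionVars false
set_option synthInstance.maxSize 100000

namespace CF.Tr
open Cfsg Subgroup CF.BG CF.Bender CF.J4 CF.Comp CF.Dce CF.Comp.Mat CF.Dce.J4
open scoped commutatorElement

/-- the generators of `EE` -/
abbrev wE : List (List ℕ) := [[13], [11], [9], [7]]
/-- the elements of `EE` -/
abbrev lE : List (List ℕ) := [[], [7], [9], [7, 9], [11], [7, 11], [9, 11], [7, 9, 11], [13], [7, 13],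
    [9, 13], [7, 9, 13], [11, 13], [7, 11, 13], [9, 11, 13], [7, 9, 11, 13]]
/-- letters normalising `EE` -/
abbrev wNE : List (List ℕ) := [[7], [9], [11], [13], [15], [17], [19], [21], [23], [25], [27], [29]]

theorem ev34 : ev φ [9] = e34 := ev1 4
theorem ev35 : ev φ [11] = e35 := ev1 5
theorem ev13 : ev φ [13] = e13 := ev1 6
theorem evv1 : ev φ [15] = v1 := ev1 7

theorem EE_eq : EE = clo φ wE := by
  unfold EE clo; congr 1; ext x
  simp only [Set.mem_insert_iff, Set.mem_singleton_iff, Set.mem_image, Set.mem_ofPred_eq, List.mem_cons,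
    List.not_mem_nil, or_false, exists_eq_or_imp, exists_eq_left, evz, ev34, ev35, ev13, eq_comm (a := x)]
  tauto

theorem pcE : Bt.Pc φ 2 wE := pcTA.2.2.2.2.2.2.2.2

theorem zE : pZ ∈ EE := subset_closure (by simp)
theorem E34 : e34 ∈ EE := subset_closure (by simp)
theorem E35 : e35 ∈ EE := subset_closure (by simp)
theorem E13 : e13 ∈ EE := subset_closure (by simp)

theorem lE_mem {w : List ℕ} (h : w ∈ lE) : ev φ w ∈ EE :=
  EE_eq ▸ ev_mem_clo_of_wordIn ((by decide +kernel : ∀ w ∈ lE, wordIn wE w = true) w h)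

theorem TM_eq : TM = clo φ [[19], [17], [15], [13], [11], [9], [7]] := by
  refine le_antisymm ((closure_le _).2 fun x hx => ?_) (clo_le.2 fun w hw => ?_)
  · simp only [Set.mem_insert_iff, Set.mem_singleton_iff] at hx
    have k : ∀ i, [2 * i + 1] ∈ [[19], [17], [15], [13], [11], [9], [7]] →
        φ i ∈ clo φ [[19], [17], [15], [13], [11], [9], [7]] := fun i h => ev1 i ▸ ev_mem_clo φ h
    rcases hx with rfl | rfl | rfl | rfl | rfl | rfl <;> exact k _ (by decide)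
  have a : v2 ∈ TM := subset_closure (by simp)
  have b : t3 ∈ TM := subset_closure (by simp)
  simp only [List.mem_cons, List.not_mem_nil, or_false] at hw
  rcases hw with rfl | rfl | rfl | rfl | rfl | rfl | rfl
  · exact ev1 9 ▸ b
  · exact ev1 8 ▸ a
  · exact evv1 ▸ (weq [17, 19, 17, 19] [15] : v2 * (t3 * (v2 * t3)) = v1) ▸ mul_mem a (mul_mem b (mul_mem a b))
  all_goals simp only [evz, ev34, ev35, ev13]; exact subset_closure (by simp)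

theorem TM_card : ♯TM = 128 := TM_eq ▸ pc_card hdN Nat.prime_two pcTA.2.2 (by decide +kernel)

theorem E_card : ♯EE = 16 := EE_eq ▸ pc_card hdN Nat.prime_two pcE (by decide +kernel)

theorem E_all {P : Pm → Prop} (h : ∀ w ∈ [[], [7], [9], [7, 9], [11], [7, 11], [9, 11], [7, 9, 11], [13], [7, 13],
    [9, 13], [7, 9, 13], [11, 13], [7, 11, 13], [9, 11, 13], [7, 9, 11, 13]], P (ev φ w)) : ∀ a ∈ EE, P a :=
  fun a ha => by
    obtain ⟨w, rfl, k⟩ := pc_all two_ne_zero pcE (fun w => w ∈ lE) (by decide +kernel) (EE_eq ▸ ha)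
    exact h w k

theorem E_all' (P : List ℕ → Prop) (h : ∀ w ∈ lE, P w) {a : Pm} (ha : a ∈ EE) : ∃ w, ev φ w = a ∧ P w :=
  E_all (P := fun a => ∃ w, ev φ w = a ∧ P w) (fun w hw => ⟨w, rfl, h w hw⟩) a ha

theorem E_le : EE ≤ MM := fun a ha => by
  obtain ⟨w, rfl, k⟩ := E_all' mN (by decide +kernel) ha
  exact ev_MM k

theorem E_sq {a : Pm} (h : a ∈ EE) : a * a = 1 := by
  obtain ⟨w, rfl, k⟩ := E_all' (fun w => eN (lapp w w) []) (by decide +kernel) h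
  exact k.sq

theorem wNE_le : clo φ wNE ≤ 𝐍 EE := EE_eq ▸ heN.nrmAll (us := [[[1], [3], [5], [7]], [[1], [3], [5], [7]],
  [[1], [3], [5], [7]], [[1], [3], [5], [7]], [[5, 1], [7, 3], [5], [7]], [[3, 1], [3], [7, 5], [7]],
  [[7, 5, 1], [5, 3], [5], [7]], [[7, 1], [3], [5], [7]], [[1], [7, 5, 3], [3], [7]], [[7], [3, 1], [5, 1], [7, 1]],
  [[3], [3, 1], [7, 5], [5]], [[7], [7, 5, 1], [7, 3, 1], [1]]]) (by decide +kernel)

theorem ev_NE {w : List ℕ} (h : wordIn wNE w = true) : ev φ w ∈ 𝐍 EE := wNE_le (ev_mem_clo_of_wordIn h)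

theorem E_N {i : ℕ} (h : i ∈ [3, 4, 5, 6, 7, 8, 9, 10, 11, 12, 13, 14]) : φ i ∈ 𝐍 EE :=
  ev1 i ▸ ev_NE ((by decide +kernel : ∀ i ∈ [3, 4, 5, 6, 7, 8, 9, 10, 11, 12, 13, 14], wordIn wNE [2 * i + 1] = true) i h)

theorem E_nz {a : Pm} (ha : a ∈ S2) (h : Commute a pZ) : a ∈ 𝐍 EE := by
  obtain ⟨x, hx, y, hy, rfl⟩ := cvZ.cov a ⟨ha, c1_of h⟩
  exact wNE_le (mul_mem (clo_le_of_wordIn (by decide +kernel) hx) (clo_le_of_wordIn (by decide +kernel) hy))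

theorem cz_gen : MM ⊓ 𝐂₁ pZ ≤ closure {pZ, e34, e35, e13, v1, v2, t3, ro} := fun a ha => by
  obtain ⟨x, hx, y, hy, rfl⟩ := cvZ.cov a ⟨MM_le ha.1, ha.2⟩
  have k : ∀ ws : List (List ℕ), (∀ w ∈ ws, ∃ i ∈ [3, 4, 5, 6, 7, 8, 9, 11], w = [2 * i + 1]) →
      clo φ ws ≤ closure {pZ, e34, e35, e13, v1, v2, t3, ro} ⊓ MM := fun ws h => clo_le.2 fun w hw => by
    obtain ⟨i, hi, rfl⟩ := h w hw
    rw [ev1]
    simp only [List.mem_cons, List.not_mem_nil, or_false] at hi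
    rcases hi with rfl | rfl | rfl | rfl | rfl | rfl | rfl | rfl <;> exact ⟨subset_closure (by simp), φ_MM (by decide)⟩
  have x' := k _ (by decide) hx
  obtain ⟨e, he, u, hu, rfl⟩ := pcTA.exists two_ne_zero hy
  have u' := k _ (by decide) hu
  obtain rfl | rfl : e = 0 ∨ e = 1 := by omega
  · simpa using mul_mem x'.1 u'.1
  · have : x * (u * ev φ [21] ^ 1) ∈ MM := ha.1
    rw [mul_mem_cancel_left (mem_inf.1 x').2, mul_mem_cancel_left (mem_inf.1 u').2, pow_one, evb] at this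
    exact absurd this pB_n

theorem zy : ∃ a ∈ MM, ∃ b ∈ MM, Odd (orderOf a) ∧ Odd (orderOf b) ∧ Commute a pZ ∧ Commute b pZ ∧
    Commute a pB ∧ Commute b pB ∧ (a * b) ^ 2 = pZ :=
  ⟨ev φ [9, 23, 15], ev_MM (by decide +kernel), ev φ [24], ev_MM (by decide +kernel), odN.od (by decide +kernel),
    odN.od (by decide +kernel), evz ▸ cN'.cm (by decide +kernel), evz ▸ cN'.cm (by decide +kernel),
    evb ▸ cN'.cm (by decide +kernel), evb ▸ cN'.cm (by decide +kernel), by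
      rw [← ev_lapp, ← ev_wpow, ← evz]; exact eqN (by decide +kernel)⟩

theorem E_cen {a : Pm} (ha : a ∈ S2) (h : a ∈ 𝐂 EE) : a ∈ EE := by
  obtain ⟨w, rfl, ⟨u, hu, k⟩ | ⟨u, hu, k⟩⟩ := cvZ.all (fun w => (∃ u ∈ wE, ncN u w) ∨ ∃ u ∈ lE, eN w u)
    (by decide +kernel) ha (cen_comm h zE).symm
  · exact absurd (cen_comm h (EE_eq ▸ ev_mem_clo φ hu)) k.nc
  · exact eqN k ▸ lE_mem hu

theorem E_tr {a : Pm} (h : a ∈ EE) (n : a ≠ 1) : ∃ m ∈ MM, m ∈ 𝐍 EE ∧ m * pZ * m⁻¹ = a := by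
  obtain ⟨w, rfl, k | ⟨m, -, k1, k2, k3⟩⟩ := E_all' (fun w => w = [] ∨ ∃ m ∈ ([[], [27], [28], [27, 26], [23, 28],
    [27, 25], [24, 27], [26], [25], [19, 25], [15, 25], [17, 26], [17, 25], [17, 15, 25], [28, 25]] : List (List ℕ)),
    jN m [7] w ∧ mN m ∧ wordIn wNE m = true) (by decide +kernel) h
  · exact absurd (k ▸ ev_nil φ) n
  · exact ⟨_, ev_MM k2, ev_NE k3, evz ▸ k1.cj⟩

theorem E_pair {a b : Pm} (ha : a ∈ EE) (hb : b ∈ EE) (h1 : a ≠ 1) (h2 : b ≠ 1) (n : a ≠ b) :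
    ∃ m ∈ MM, m ∈ 𝐍 EE ∧ a = m * pZ * m⁻¹ ∧ (b = m * e13 * m⁻¹ ∨ b = m * e34 * m⁻¹) := by
  obtain ⟨g, hg, gN, rfl⟩ := E_tr ha h1
  have b' : g⁻¹ * b * g ∈ EE := by simpa using conj_mem_of_norm (inv_mem gN) hb
  obtain ⟨w, e, k | k | ⟨m, -, k1, k2, k3⟩⟩ := E_all' (fun w => w = [] ∨ w = [7] ∨ ∃ m ∈ ([[], [17], [23], [23, 17],
    [24, 17], [24], [19, 15], [15], [19], [19, 17], [17, 19], [17, 15]] : List (List ℕ)),
    (jN m [13] w ∨ jN m [9] w) ∧ mN m ∧ cN' m [7]) (by decide +kernel) b'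
  · exact absurd (cj_eq_one' (e.symm.trans (k ▸ ev_nil φ))) h2
  · exact absurd (by rw [← evz, ← k, e]; group) n
  have c : Commute (ev φ m) pZ := evz ▸ k3.cm
  refine ⟨g * ev φ m, mul_mem hg (ev_MM k2), mul_mem gN (E_nz (evS m) c), ?_, k1.imp (fun k => ?_) fun k => ?_⟩
  · conv_lhs => rw [← comm_iff_cj.1 c]
    group
  · rw [← ev13, show ∀ x : Pm, g * ev φ m * x * (g * ev φ m)⁻¹ = g * (ev φ m * x * (ev φ m)⁻¹) * g⁻¹ from
      fun x => by group, k.cj, e]; group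
  · rw [← ev34, show ∀ x : Pm, g * ev φ m * x * (g * ev φ m)⁻¹ = g * (ev φ m * x * (ev φ m)⁻¹) * g⁻¹ from
      fun x => by group, k.cj, e]; group

theorem E_gen : EE ≤ closure ({pZ} ∪ {x | ∃ o ∈ MM, Odd (orderOf o) ∧ Commute o pZ ∧ x = o * e13 * o⁻¹}) := by
  have k : ∀ o ∈ MM, Odd (orderOf o) → Commute o pZ → o * e13 * o⁻¹ ∈
      closure ({pZ} ∪ {x | ∃ o ∈ MM, Odd (orderOf o) ∧ Commute o pZ ∧ x = o * e13 * o⁻¹}) :=
    fun o h1 h2 h3 => subset_closure (.inr ⟨o, h1, h2, h3, rfl⟩)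
  have k0 := k 1 (one_mem _) (by simp) (Commute.one_left _)
  rw [one_mul, inv_one, mul_one] at k0
  have k' : ∀ o x : List ℕ, mN o ∧ odN o ∧ cN' o [7] ∧ jN o [13] (lapp x [13]) → ev φ x ∈
      closure ({pZ} ∪ {x | ∃ o ∈ MM, Odd (orderOf o) ∧ Commute o pZ ∧ x = o * e13 * o⁻¹}) := fun o x h => by
    have := k _ (ev_MM h.1) h.2.1.od (evz ▸ h.2.2.1.cm)
    rwa [← ev13, h.2.2.2.cj, ev_lapp, ev13, mul_mem_cancel_right k0] at this
  refine (closure_le _).2 fun x hx => ?_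
  simp only [Set.mem_insert_iff, Set.mem_singleton_iff] at hx
  rcases hx with rfl | rfl | rfl | rfl
  exacts [subset_closure (.inl rfl), ev34 ▸ k' [24, 17] [9] (by decide +kernel),
    ev35 ▸ k' [23, 15] [11] (by decide +kernel), k0]

theorem e2 {p q : Pm} (hp : p ∈ S2) (hq : q ∈ S2) (p2 : p * p = 1) (q2 : q * q = 1) (c : Commute p q)
    (pz : Commute p pZ) (pe : Commute p e34) (qz : Commute q pZ) (qe : Commute q e34)
    (h1 : p * v1 * p * v1 = e34) (h2 : q * v1 * q * v1 = pZ) : p ∈ EE ∧ q ∈ EE := by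
  have k : ∀ {a : Pm}, a ∈ S2 → a * a = 1 → Commute a pZ → Commute a e34 → ∀ (r : List ℕ) (L : List (List ℕ)),
      a * v1 * a * v1 = ev φ r → cenAll 3 [[23]] wT (fun w => dN (lapp (lapp (lapp w [15]) w) [15]) r ∨
        dN (lapp w w) [] ∨ ncN w [9] ∨ w ∈ L) = true → ∃ w ∈ L, ev φ w = a := fun ha a2 az ae r L e h => by
    obtain ⟨w, rfl, k | k | k | k⟩ := cvZ.all _ h ha az
    exacts [absurd (by simpa only [ev_lapp, evv1] using e) (neN k), absurd a2 k.sq, absurd (ev34 ▸ ae) k.nc, ⟨w, k, rfl⟩]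
  obtain ⟨u, hu, rfl⟩ := k hp p2 pz pe [9] [[13], [7, 13], [9, 13], [7, 9, 13], [13, 15, 19, 21], [7, 13, 15, 19, 21],
    [9, 13, 15, 19, 21], [7, 9, 13, 15, 19, 21]] (ev34 ▸ h1) (by decide +kernel)
  obtain ⟨w, hw, rfl⟩ := k hq q2 qz qe [7] [[11], [7, 11], [9, 11], [7, 9, 11], [11, 21], [7, 11, 21], [9, 11, 21],
    [7, 9, 11, 21]] (evz ▸ h2) (by decide +kernel)
  rcases (by decide +kernel : ∀ u ∈ [[13], [7, 13], [9, 13], [7, 9, 13], [13, 15, 19, 21], [7, 13, 15, 19, 21],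
    [9, 13, 15, 19, 21], [7, 9, 13, 15, 19, 21]], ∀ w ∈ [[11], [7, 11], [9, 11], [7, 9, 11], [11, 21], [7, 11, 21],
    [9, 11, 21], [7, 9, 11, 21]], ncN u w ∨ (u ∈ lE ∧ w ∈ lE)) u hu w hw with k | k
  exacts [absurd c k.nc, ⟨lE_mem k.1, lE_mem k.2⟩]

/-- conjugating words -/
def l36 : List (List ℕ) := [[], [11], [13], [13, 11], [23], [23, 11], [23, 13], [23, 13, 11], [24], [24, 11], [24, 13, 11], [24, 13],
      [28], [28, 13], [11, 28], [28, 11], [27], [13, 27], [27, 11], [27, 13], [24, 27], [24, 13, 27], [24, 27, 11],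
      [24, 27, 13], [27, 25], [24, 28, 13], [27, 25, 13], [27, 25, 11], [27, 26], [27, 11, 26], [27, 26, 13],
      [27, 26, 11], [23, 28], [23, 28, 13], [23, 28, 11], [23, 11, 28]]

theorem e5 {b : Pm} (h : b ∈ MM) (i : Iv b) (c : Commute b pZ) (n : b ∉ EE) :
    (∃ m ∈ MM, m ∈ 𝐍 EE ∧ m * v1 * m⁻¹ = b) ∧ ∃ x ∈ EE, pZ = x * b * x * b := by
  obtain ⟨w, rfl, k | k | k | ⟨⟨m, -, k1, k2, k3⟩, x, hx, k4⟩⟩ := cvZ.all (fun w => dN (lapp w w) [] ∨ oN w ∨ w ∈ lE ∨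
    (∃ m ∈ l36,
      jN m [15] w ∧ mN m ∧ wordIn wNE m = true) ∧ ∃ x ∈ lE, eN [7] (lapp (lapp (lapp x w) x) w))
    (by decide +kernel) (MM_le h) c
  exacts [absurd i.2 k.sq, absurd h (ev_nMM k), absurd (lE_mem k) n,
    ⟨⟨_, ev_MM k2, ev_NE k3, evv1 ▸ k1.cj⟩, _, lE_mem hx, by simpa only [ev_lapp, evz] using eqN k4⟩]

/-- an involution of `MM` -/
noncomputable abbrev ivN (w : List ℕ) : Prop := mN w ∧ dN w [] ∧ eN (lapp w w) []
/-- a basic pair -/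
noncomputable abbrev bsN (a u m : List ℕ) : Prop :=
  cN' a u ∨ (mN m ∧ ((jN m [15] a ∧ jN m [11] u) ∨ (jN m [15] u ∧ jN m [11] a)))
/-- a pair obtained by one step -/
noncomputable abbrev stN (a u : List ℕ) : Prop := ∃ c ∈ ctG, eN u (lapp (lapp (nth [] c 0) (nth [] c 1)) (nth [] c 0)) ∧
  ivN (nth [] c 0) ∧ ivN (nth [] c 1) ∧ bsN a (nth [] c 0) (nth [] c 2) ∧ bsN a (nth [] c 1) (nth [] c 3) ∧
    bsN (nth [] c 0) (nth [] c 1) (nth [] c 4)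

theorem gen {R : Pm → Pm → Prop} (eqv : ∀ a b, ∀ m ∈ MM, R a b → R (m * a * m⁻¹) (m * b * m⁻¹))
    (sym : ∀ a b, R a b → R b a) (cm : ∀ a ∈ MM, ∀ b ∈ MM, Iv a → Iv b → Commute a b → R a b) (base : R v1 e35)
    (cl : ∀ a b c, R a b → R a c → R b c → R a (b * c * b)) :
    ∃ l : List Pm, (∀ a ∈ l, a ∈ MM ∧ Iv a) ∧ MM ≤ closure {a | a ∈ l} ∧ ∀ a ∈ l, ∀ b ∈ l, R a b := by
  have iv : ∀ {w}, ivN w → ev φ w ∈ MM ∧ Iv (ev φ w) := fun k => ⟨ev_MM k.1, k.2.1.one, k.2.2.sq⟩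
  have bs : ∀ {a u m}, ivN a → ivN u → bsN a u m → R (ev φ a) (ev φ u) := fun ia iu k => by
    rcases k with k | ⟨k, ⟨k1, k2⟩ | ⟨k1, k2⟩⟩
    · exact cm _ (iv ia).1 _ (iv iu).1 (iv ia).2 (iv iu).2 k.cm
    · rw [← k1.cj, ← k2.cj, evv1, ev35]; exact eqv _ _ _ (ev_MM k) base
    · rw [← k1.cj, ← k2.cj, evv1, ev35]; exact sym _ _ (eqv _ _ _ (ev_MM k) base)
  obtain ⟨ws, h1, h2, h3⟩ : ∃ ws : List (List ℕ), (∀ w ∈ ws, ivN w) ∧ Bt.geOK nN 24 (subC ws cG) 443520 = true ∧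
      ∀ a ∈ ws, ∀ u ∈ ws, stN a u := ⟨[[29, 11, 9], [29, 24], [5, 5], [9]], by decide +kernel⟩
  refine ⟨ws.map (ev φ), by simpa using fun w hw => iv (h1 w hw), ?_, ?_⟩
  · have := eq_of_card_le (clo_le.2 fun w hw => (iv (h1 w hw)).1) (card_M22 ▸ clo_ge h2)
    exact this.ge.trans (closure_mono fun x hx => by simpa using hx)
  · simp only [List.forall_mem_map]
    intro a ha u hu
    obtain ⟨c, -, k0, k1, k2, k3, k4, k5⟩ := h3 a ha u hu
    rw [eqN k0, ev_lapp, ev_lapp]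
    exact cl _ _ _ (bs (h1 a ha) k1 k3) (bs (h1 a ha) k2 k4) (bs k1 k2 k5)

end CF.Tr
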