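import Cfsg.Agent.Tr.H1

/-! The homocyclic configuration: `W` is normal. -/

set_option autoImplicit false
set_option linter.unusedSectionVars false

namespace CF.Tr
open Cfsg Subgroup CF.BG CF.Bender CF.J4

variable {G : Type*} [Group G] [Finite G] {a d j s t u w x y : G} {W J X : Subgroup G} {D : Set G}
  {P Q : G → Subgroup G}

namespace HC

/-- an element of `P s` outside `X` fixes the point of `t` -/
def Lk (X : Subgroup G) (A B : Subgroup G) : Prop := A ≠ B ∧ ∃ a ∈ A, a ∉ X ∧ a ∈ 𝐍 B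

theorem cinv (h : x * y * x⁻¹ * y⁻¹ ∈ X) : y * x * y⁻¹ * x⁻¹ ∈ X := by
  simpa [mul_assoc] using inv_mem h

namespace Sy
variable (h : Sy D X P Q)
include h

theorem w0 (hs : s ∈ D) (ht : t ∈ D) (n : P s ≠ P t) (h1 : w ∈ P s) (h2 : w ∈ P t) : w ∈ X := by
  by_contra k
  exact n (h.un t ht s hs ((h.lo s hs).cuW h1 k t (h.le t ht)
    (comm_iff_c.1 ((h.lo t ht).fW h2) ▸ one_mem X))).symm

theorem x0 (hs : s ∈ D) (ht : t ∈ D) (h1 : w ∈ P s) (h2 : w ∈ X) : w ∈ P t :=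
  (h.lo t ht).om1 h2 ((h.lo s hs).wsq w h1)

theorem q0 (hs : s ∈ D) (ht : t ∈ D) (n : P s ≠ P t) (h1 : w ∈ P s) (h2 : w ∈ Q t) : w ∈ X :=
  h.w0 hs ht n h1 (((h.lo t ht).om w h2).1 ((h.lo s hs).wsq w h1))

theorem nX' (hs : s ∈ D) : ∃ w ∈ P s, w ∉ X := by
  by_contra k
  push Not at k
  obtain ⟨e, he, n⟩ := h.two s hs
  exact n (eq_of_card_eq (fun w hw => h.x0 hs he hw (k w hw)) ((h.lo s hs).card.trans (h.lo e he).card.symm)).symm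

theorem dw (hd : d ∈ D) (hw : w ∈ P d) : w * d ∈ D ∧ P (w * d) = P d := by
  have l := h.lo d hd
  obtain ⟨j, hj, rfl⟩ := l.rt w hw
  rw [← inv_cj l.iv.sq (l.inv j hj), (h.eqv d hd j (l.JH hj)).2, cj_of_cent (l.JC hj)]
  exact ⟨(h.eqv d hd j (l.JH hj)).1, rfl⟩

theorem lk_ex : ∃ s ∈ D, ∃ t ∈ D, Lk X (P s) (P t) := by
  by_cases nl : ∀ d ∈ D, ∀ e ∈ D, ∀ r ∈ D, d * e ∉ X → d * e * (d * e) ∈ X → d * e ∈ 𝐍 (P r) → P r = P d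
  · obtain ⟨s, hs⟩ := h.ne
    obtain ⟨t, ht, n⟩ := h.two s hs
    obtain ⟨w, hw, nw⟩ := h.nX' hs
    obtain ⟨k1, k2⟩ := h.dw hs hw
    have e : w * s * s = w := by rw [mul_assoc, h.sq s hs, mul_one]
    have w2 := (h.lo s hs).wsq w hw
    obtain ⟨d, hd, k⟩ := h.toPT.wa nl hs ht n (y := w) (e ▸ mul_mem (subset_closure k1) (subset_closure hs))
      (fun r _ => w2 ▸ one_mem _) ⟨t, ht, fun m => n ((nl _ k1 s hs t ht (e.symm ▸ nw)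
        (by rw [e, w2]; exact one_mem X) (e.symm ▸ m)).trans k2)⟩
    have e1 : P d = P s := h.un d hd s hs (by simpa using mul_mem (k s hs) (inv_mem (le_norm_self _ hw)))
    have k3 := (h.dw hd (e1 ▸ hw)).1
    rw [← ((h.lo d hd).fW (e1 ▸ hw)).eq] at k3
    exact absurd ((h.un _ k3 t ht (k t ht)).symm.trans (h.un _ k3 s hs (k s hs))) n
  · push Not at nl
    obtain ⟨d, hd, e, he, r, hr, h1, h2, h3, n⟩ := nl
    have cu := h.cu d hd e he h1 h2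
    generalize d * e = y at h1 h2 h3 cu
    obtain ⟨w, hw, nw⟩ := h.nX' hr
    have l := h.lo r hr
    have H : P r ≤ 𝐍 X := l.WJ.trans l.JH
    refine ⟨r, hr, d, hd, n, ?_⟩
    by_cases c : y * w * y⁻¹ * w⁻¹ ∈ X
    · exact ⟨w, hw, nw, cu w (H hw) (cinv c)⟩
    · have m := mul_mem (conj_mem_of_norm h3 hw) (inv_mem hw)
      refine ⟨_, m, c, cu _ (H m) (cinv ?_)⟩
      rw [eta l.wsq h3 hw, comm_iff_c.1 (cen_comm (l.XW h2) hw).symm]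
      exact one_mem X

theorem lk_symm (hs : s ∈ D) (ht : t ∈ D) (k : Lk X (P s) (P t)) : Lk X (P t) (P s) := by
  obtain ⟨n, a, h1, h2, h3⟩ := k
  obtain ⟨r, hr, e1, e2⟩ := h.toPT.sw hs ht
  refine ⟨n.symm, r * a * r⁻¹, e1 ▸ conj_mem_cj.2 h1, fun m => h2 ((mem_norm.1 (h.le r hr) a).2 m), ?_⟩
  rw [← e2, ← cj_norm]; exact conj_mem_cj.2 h3

theorem ctJ (hs : s ∈ D) (ht : t ∈ D) (n : P s ≠ P t) (h1 : j ∈ Q s) (h2 : j ∉ X) (s2 : j * j ∈ X) (h3 : j ∈ 𝐍 (P t)) :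
    j ∈ 𝐍 (cj t (P s)) ∧ t * j * t⁻¹ ∈ 𝐍 (P s) := by
  have k := h.toPT.ct2 hs ht n.symm ((h.lo s hs).JH h1) s2 ((h.lo s hs).cuJ h1 h2 s2) h3
  refine ⟨k, ?_⟩
  have := conj_mem_cj (g := t).2 k
  rwa [cj_norm, cj_cj, h.sq t ht, cj_one] at this

theorem ct (hs : s ∈ D) (ht : t ∈ D) (n : P s ≠ P t) (h1 : a ∈ P s) (h2 : a ∉ X) (h3 : a ∈ 𝐍 (P t)) :
    a ∈ 𝐍 (cj t (P s)) ∧ t * a * t⁻¹ ∈ 𝐍 (P s) :=
  h.ctJ hs ht n ((h.lo s hs).WJ h1) h2 ((h.lo s hs).wsq a h1 ▸ one_mem X) h3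

theorem l3 (hs : s ∈ D) (ht : t ∈ D) (n : P s ≠ P t) (h1 : a ∈ P s) (h3 : a ∈ 𝐍 (P t)) :
    a ∈ 𝐍 (Q t) ∧ t * (a * t * a⁻¹) ∈ Q t := by
  have l := h.lo t ht
  have a2 := (h.lo s hs).wsq a h1
  by_cases h2 : a ∈ X
  · refine ⟨cent_le_norm _ (l.XC h2), ?_⟩
    rw [show t * (a * t * a⁻¹) = t * a * t * a⁻¹ by group, l.xi a h2, ← mul_inv_rev, a2, inv_one]
    exact one_mem _
  have e : t * (a * t * a⁻¹) * (t * (a * t * a⁻¹)) = t * a * t⁻¹ * a * (t * a * t⁻¹)⁻¹ * a := by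
    rw [ci, l.iv.inv, inv_sq a2]; group
  have e4 := (h.lo s hs).wsq _ (mul_mem (conj_mem_of_norm (h.ct hs ht n h1 h2 h3).2 h1) h1)
  rw [← e] at e4
  have m := l.ddi a2 (pi_sq (pi_sq (pi2_of_sq (x := t * a * (t * a) * (t * a * (t * a))) (by
    rw [← e4, inv_sq a2]; group))))
  exact ⟨m, l.e4 (l.cen m) (l.toHc.ci a) e4⟩

omit h in
theorem pk' (l : Hc t W J) (h1 : a ∈ 𝐍 J) (h2 : t * (a * t * a⁻¹) ∈ J) : ∃ k ∈ 𝐂 W, k⁻¹ * a ∈ 𝐂₁ t :=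
  l.p2 a h1 (by simpa only [mul_inv_rev (t), (l.iv.conj a).inv, l.iv.inv] using inv_mem h2)

theorem l2 (hs : s ∈ D) (ht : t ∈ D) (k : Lk X (P s) (P t)) : P s ≤ 𝐍 (P t) := by
  have n := k.1
  obtain ⟨-, b, b1, b2, b3⟩ := h.lk_symm hs ht k
  have ls := h.lo s hs
  have lt := h.lo t ht
  intro w hw
  by_contra nw
  suffices P t ≤ 𝐍 (P s) by
    obtain ⟨r, -, e1, e2⟩ := h.toPT.sw hs ht
    have := cj_norm_iff (g := r).2 this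
    rw [e1, e2] at this
    exact nw (this hw)
  obtain ⟨j, hj, rfl⟩ := ls.rt w hw
  have hj' := conj_mem_of_norm (h.l3 ht hs n.symm b1 b3).1 hj
  have c := ls.ab.mul_comm hj hj'
  have bb := lt.wsq b b1
  have yQ := mul_mem hj hj'
  have yN : j * (b * j * b⁻¹) ∈ 𝐍 (P t) := lt.cuW b1 b2 _ (ls.JH yQ) (cinv (by
    rw [show b * (j * (b * j * b⁻¹)) * b⁻¹ = b * j * b⁻¹ * (b * b * j * (b * b)⁻¹) by group, bb, one_mul, inv_one,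
      mul_one, ← c, mul_inv_cancel]
    exact one_mem X))
  have yX : j * (b * j * b⁻¹) * (j * (b * j * b⁻¹)) ∉ X := fun m => nw (lt.cuW b1 b2 _ (ls.JH (mul_mem hj hj)) (by
    rwa [inv_sq (ls.wsq _ hw), show j * j * b * (j * j) * b⁻¹ = j * (j * (b * j * b⁻¹)) * (b * j * b⁻¹) by group,
      c, ← mul_assoc j, mul_assoc (j * (b * j * b⁻¹))]))
  generalize j * (b * j * b⁻¹) = y at yQ yN yX
  have aP := ls.sq y yQ
  have m : ∀ u ∈ P t, y * u * y⁻¹ * u⁻¹ ∈ P t := fun u hu => mul_mem (conj_mem_of_norm yN hu) (inv_mem hu)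
  have k2 : ∀ u ∈ P t, y * (y * u * y⁻¹ * u⁻¹) * y⁻¹ * (y * u * y⁻¹ * u⁻¹)⁻¹ ∈ X → u ∈ 𝐍 (P s) := fun u hu e =>
    ls.cuW aP yX u (lt.JH (lt.WJ hu)) (cinv (eta lt.wsq yN hu ▸ e))
  have k1 : ∀ u ∈ P t, y * (y * u * y⁻¹ * u⁻¹) * y⁻¹ * (y * u * y⁻¹ * u⁻¹)⁻¹ ∈ X → y * u * y⁻¹ * u⁻¹ ∈ X :=
    fun u hu e => h.q0 ht hs n.symm (m u hu) (by
      simpa [mul_assoc] using mul_mem yQ (conj_mem_of_norm (h.l3 ht hs n.symm hu (k2 u hu e)).1 (inv_mem yQ)))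
  refine fun u hu => k2 u hu (k1 _ (m u hu) (k1 _ (m _ (m u hu)) ?_))
  rw [eta lt.wsq yN (m _ (m u hu)), eta lt.wsq yN hu, eta lt.wsq (mul_mem yN yN) hu, ls.wsq _ aP]
  simp

theorem pk (hs : s ∈ D) (ht : t ∈ D) (k : Lk X (P s) (P t)) (h1 : a ∈ P s) : ∃ k ∈ 𝐂 (P t), k⁻¹ * a ∈ 𝐂₁ t :=
  have := h.l3 hs ht k.1 h1 (h.l2 hs ht k h1)
  pk' (h.lo t ht).toHc this.1 this.2

theorem l4 (hs : s ∈ D) (ht : t ∈ D) (k : Lk X (P s) (P t)) : P s ≤ 𝐂 (P t) := by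
  refine ((h.lo t ht).f2 (P s) fun a ha => ⟨(h.lo s hs).wsq a ha ▸ one_mem _, h.pk hs ht k ha⟩).resolve_right fun e => ?_
  obtain ⟨r, -, e1, e2⟩ := h.toPT.sw hs ht
  have := card_cj r (P s ⊓ 𝐂 (P t))
  rw [cj_inf, cj_cent, e1, e2] at this
  rw [(h.lo s hs).card, this] at e
  have := card_pos' (P s ⊓ 𝐂 (P t))
  omega

theorem l5 (hs : s ∈ D) (ht : t ∈ D) (k : Lk X (P s) (P t)) (h1 : a ∈ P s) (h2 : a ∉ X) : a * t ∈ Q t := by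
  have h3 := h.l2 hs ht k h1
  have l := h.lo t ht
  have a2 := (h.lo s hs).wsq a h1
  obtain ⟨m, e⟩ := h.eqv s hs t (h.le t ht)
  have c := cen_comm (h.l4 hs m ⟨fun e' => k.1 (h.un t ht s hs (cj_eq_self.1 (e.symm.trans e'.symm))).symm, a, h1, h2,
    e ▸ (h.ct hs ht k.1 h1 h2 h3).1⟩ h1) (e ▸ conj_mem_cj.2 h1 : t * a * t⁻¹ ∈ P (t * s * t⁻¹))
  have y2 := sq_mul (sq_cj a2 t) a2 c
  have e2 : t * a * t⁻¹ * a = t * (a * t * a⁻¹) := by rw [l.iv.inv, inv_sq a2]; group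
  rw [e2] at y2
  have := inv_mem ((l.om _ (h.l3 hs ht k.1 h1 h3).2).1 y2)
  rw [mul_inv_rev, (l.iv.conj a).inv, l.iv.inv] at this
  exact (l.rf a (h.l4 hs ht k h1) this).resolve_left fun m => h2 (h.q0 hs ht k.1 h1 m)

omit h in
theorem iv_of (l : Hc t W J) (a2 : a * a = 1) (m : a * t ∈ J) (hy : y ∈ 𝐂 J) (i : t * y * t = y⁻¹) :
    y * a * y⁻¹ = y * y * a := inv_cj a2 (by
  have := comm_iff_cj.1 (cen_comm (inv_mem hy) m)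
  rw [← i, mul_inv_rev, l.iv.inv, inv_sq a2, show a * t * (t * y * t) * (t * a) = a * (t * t) * y * (t * t) * a by group,
    l.iv.sq, i] at this
  simpa using this)

theorem l6 (hs : s ∈ D) (ht : t ∈ D) (k : Lk X (P s) (P t)) : 512 ≤ ♯(P s ⊓ X) := by
  obtain ⟨a, h1, h2⟩ := h.nX' hs
  have l := h.lo s hs
  have n : a ∈ 𝐍 (P s ⊓ X : Subgroup G) := (abel_of_sq l.wsq).le_norm inf_le_left h1
  have k1 := U.cs2 n (l.wsq a h1)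
  have k2 : P s ≤ P s ⊓ X ⊔ zpowers a := fun b hb => (mem_sup_zp (l.wsq a h1) n).2 (by
    by_cases c : b ∈ X
    · exact .inl ⟨hb, c⟩
    · refine .inr ⟨mul_mem hb h1, h.q0 hs ht k.1 (mul_mem hb h1) ?_⟩
      simpa [mul_assoc, inv_sq (l.wsq a h1)] using mul_mem (h.l5 hs ht k hb c) (inv_mem (h.l5 hs ht k h1 h2)))
  have := card_le k2
  rw [l.card] at this
  omega

theorem false : False := by
  obtain ⟨s, hs, r, hr, k⟩ := h.lk_ex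
  have k' := h.lk_symm hs hr k
  have c6 := h.l6 hs hr k
  have ls := h.lo s hs
  have lr := h.lo r hr
  obtain ⟨w, ⟨w1, w2⟩, w3⟩ := exists_mem_ne_one (one_lt_card.1 (by omega) : P s ⊓ X ≠ ⊥)
  obtain ⟨j, hj, rfl⟩ := ls.rt w w1
  have e : ∀ u ∈ P r, u ∉ X → j * u * j⁻¹ = j * j * u := fun u hu c =>
    iv_of ls.toHc (lr.wsq u hu) (h.l5 hr hs k' hu c) (ls.ab hj) (ls.inv j hj)
  have jN : j ∈ 𝐍 (P r) := U.nor_of fun u hu => by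
    by_cases c : u ∈ X
    · rwa [comm_iff_cj.1 (cen_comm (ls.XC c) hj)]
    · exact e u hu c ▸ mul_mem (h.x0 hs hr w1 w2) hu
  have jC : j ∉ 𝐂 (P r) := fun c => by
    obtain ⟨u, hu, n⟩ := h.nX' hr
    exact w3 (by simpa [comm_iff_cj.1 (cen_comm c hu).symm] using (e u hu n).symm)
  obtain ⟨S, sy, jS⟩ := exists_syl_le (M := 𝐍 X ⊓ 𝐍 (P r)) (zpowers_le.2 ⟨ls.JH hj, jN⟩)
    (pi_sq (pi2_of_sq (ls.wsq _ w1))).zpowers
  obtain ⟨c, ⟨c1, c2⟩, cS⟩ := sy.syl_cj_le (zpowers_le.2 ⟨h.le r hr, h.toPT.fix hr⟩) (pi2_of_sq (h.sq r hr)).zpowers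
  obtain ⟨ht, et⟩ := h.eqv r hr c c1
  have tS := cS (conj_mem_cj.2 (mem_zpowers r))
  rw [cj_of_norm c2] at et
  generalize c * r * c⁻¹ = t at ht et tS
  rw [← et] at k jN jC
  have lt := h.lo t ht
  have jQ := lt.dd sy.pi tS (jS (mem_zpowers j))
  have jP := cent_le_norm _ (ls.JC hj)
  obtain ⟨a, a1, a2⟩ := h.nX' hs
  have yN : t * (j * t * j⁻¹) ∈ 𝐍 (P s) := by
    have := mul_mem (h.ctJ hs ht k.1 hj (fun m => jC (lt.XW m)) w2 jN).2 (inv_mem jP)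
    rwa [lt.iv.inv, mul_assoc t, mul_assoc t] at this
  have yy := mul_mem (conj_mem_of_norm yN a1) (inv_mem a1)
  rw [iv_of lt.toHc (ls.wsq a a1) (h.l5 hs ht k a1 a2) (lt.cen jQ) (lt.toHc.ci j), mul_inv_cancel_right] at yy
  obtain ⟨z, z1, z2⟩ := pk' lt.toHc jQ (lt.e4 (lt.cen jQ) (lt.toHc.ci j) (ls.wsq _ yy))
  have AQ : P s ⊔ zpowers j ≤ Q s := sup_le ls.WJ (zpowers_le.2 hj)
  have jA : j ∈ P s ⊔ zpowers j := mem_sup_right (mem_zpowers j)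
  have l4 := h.l4 hs ht k
  rcases lt.f2 (P s ⊔ zpowers j) (fun b hb => ⟨l4 (ls.sq b (AQ hb)), ((U.mem_sup2 jP w1).1 hb).elim
    (fun m => ⟨b, l4 m, by simp⟩) fun m => ⟨b * j * (j * j)⁻¹ * z, mul_mem (l4 (mul_mem m (inv_mem w1))) z1, by
      rwa [show (b * j * (j * j)⁻¹ * z)⁻¹ * b = z⁻¹ * j by group]⟩⟩) with l | l
  · exact jC (l jA)
  have k1 := two_le (lt_of_le_of_ne inf_le_left fun e => jC (e.ge jA).2 :
    (P s ⊔ zpowers j) ⊓ 𝐂 (P t) < P s ⊔ zpowers j)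
  have k2 := card_le (le_inf (fun x hx => h.x0 hs ht hx.1 hx.2) (ls.ab.cent (inf_le_left.trans ls.WJ) AQ) :
    P s ⊓ X ≤ P t ⊓ 𝐂 (P s ⊔ zpowers j))
  have := card_pos' (P s ⊔ zpowers j)
  nlinarith

end Sy
end HC

theorem Hc.nor {f : G} (h : Hc f W J) : W.Normal := by
  by_contra n
  obtain ⟨D, X, P, Q, k⟩ := HC.ex_sy h n
  exact k.false

end CF.Tr
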