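import Cfsg.Agent.Tr.A

/-! Small tools on involutions and elements of odd order. -/

set_option autoImplicit false
set_option maxRecDepth 1000000
set_option linter.unusedSectionVars false

namespace CF.Tr.U
open Cfsg Subgroup CF.BG CF.Bender CF.J4
open scoped commutatorElement

variable {G : Type*} [Group G] [Finite G] {Q : Type*} [Group Q] {H K L : Subgroup G} {ψ : G → Q} {a b x y : G}

theorem po : PiElt {2}ᶜ x ↔ Odd (orderOf x) := by
  rw [PiElt, piNat_compl_single Nat.prime_two, Nat.two_dvd_ne_zero, Nat.odd_iff]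

theorem p2 (h : x * x = 1) : PiElt {2} x := piElt_of_pow_eq_one Nat.prime_two (by rw [sq, h])

theorem one_of_odd (h : x * x = 1) (o : Odd (orderOf x)) : x = 1 := (p2 h).eq_one (po.2 o)

theorem iv_inv (h : x * x = 1) : x⁻¹ = x := inv_eq_of_mul_eq_one_right h

theorem sq_l (h : x * x = 1) (y : G) : x * (x * y) = y := by rw [← mul_assoc, h, one_mul]

theorem sq_r (h : x * x = 1) (y : G) : y * x * x = y := by rw [mul_assoc, h, mul_one]

theorem cm_of_sq (ha : a * a = 1) (hb : b * b = 1) (h : a * b * (a * b) = 1) : Commute a b := by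
  have := iv_inv h
  rw [mul_inv_rev, iv_inv ha, iv_inv hb] at this
  exact this.symm

theorem sq_of_cm (ha : a * a = 1) (hb : b * b = 1) (h : Commute a b) : a * b * (a * b) = 1 := by
  rw [h.symm.mul_mul_mul_comm, ha, hb, one_mul]

theorem sq_cj (h : x * x = 1) (g : G) : g * x * g⁻¹ * (g * x * g⁻¹) = 1 := by
  rw [conj_mul, h]; simp

theorem abel_of_sq (h : ∀ a ∈ H, a * a = 1) : Abel H :=
  abel_of_forall fun a ha b hb => cm_of_sq (h a ha) (h b hb) (h _ (mul_mem ha hb))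

theorem pi_of_sq (h : ∀ a ∈ H, a * a = 1) : PiGrp {2} H := piGrp_of_forall_elt fun a ha => p2 (h a ha)

theorem odd_mul (ha : Odd (orderOf a)) (hb : Odd (orderOf b)) (c : Commute a b) : Odd (orderOf (a * b)) :=
  po.1 ((po.2 ha).mul (po.2 hb) c)

theorem odd_cj (ha : Odd (orderOf a)) (g : G) : Odd (orderOf (g * a * g⁻¹)) := by rwa [orderOf_conj']

theorem odd_inv (ha : Odd (orderOf a)) : Odd (orderOf a⁻¹) := by rwa [orderOf_inv]

theorem odd_zp (ha : Odd (orderOf a)) (h : x ∈ zpowers a) : Odd (orderOf x) := po.1 ((po.2 ha).of_mem_zpowers h)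

theorem odd_pow (ha : Odd (orderOf a)) (k : ℕ) : Odd (orderOf (a ^ k)) := odd_zp ha (npow_mem_zpowers a k)

theorem odd_mem (o : Odd (♯H)) (h : x ∈ H) : Odd (orderOf x) := o.of_dvd_nat (orderOf_dvd_card' h)

theorem odd_of_pow {n : ℕ} (o : Odd n) (h : x ^ n = 1) : Odd (orderOf x) := o.of_dvd_nat (orderOf_dvd_of_pow_eq_one h)

theorem sqrt (o : Odd (orderOf x)) : ∃ p ∈ zpowers x, p * p = x := by
  obtain ⟨k, hk⟩ := o
  refine ⟨x ^ (k + 1), npow_mem_zpowers _ _, ?_⟩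
  rw [← pow_add, show k + 1 + (k + 1) = orderOf x + 1 by omega, pow_succ, pow_orderOf_eq_one, one_mul]

theorem mem_zp_sq (o : Odd (orderOf x)) : x ∈ zpowers (x * x) := by
  obtain ⟨k, hk⟩ := o
  refine ⟨(k + 1 : ℕ), ?_⟩
  show (x * x) ^ ((k + 1 : ℕ) : ℤ) = x
  rw [zpow_natCast, ← sq, ← pow_mul, show 2 * (k + 1) = orderOf x + 1 by omega, pow_succ, pow_orderOf_eq_one, one_mul]

theorem mem_of_sq (o : Odd (orderOf x)) (h : x * x ∈ H) : x ∈ H := zpowers_le.2 h (mem_zp_sq o)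

theorem cm_zp (c : Commute a b) (h : x ∈ zpowers a) : Commute x b := by
  obtain ⟨k, rfl⟩ := h; exact c.zpow_left k

theorem ord_map (hom : HomOn H ψ) (hx : x ∈ H) : orderOf (ψ x) ∣ orderOf x :=
  orderOf_dvd_of_pow_eq_one (by rw [← hom.pow hx, pow_orderOf_eq_one, hom.one])

theorem odd_map (hom : HomOn H ψ) (hx : x ∈ H) (o : Odd (orderOf x)) : Odd (orderOf (ψ x)) :=
  o.of_dvd_nat (ord_map hom hx)

theorem pi_map (hom : HomOn H ψ) (hx : x ∈ H) {π : Set ℕ} (o : PiElt π x) : PiElt π (ψ x) :=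
  PiNat.dvd o (ord_map hom hx)

theorem cm_map (hom : HomOn H ψ) (hx : x ∈ H) (hy : y ∈ H) (c : Commute x y) : Commute (ψ x) (ψ y) := by
  rw [Commute, SemiconjBy, ← hom x hx y hy, ← hom y hy x hx, c.eq]

theorem sq_map (hom : HomOn H ψ) (hx : x ∈ H) (h : x * x = 1) : ψ x * ψ x = 1 := by
  rw [← hom x hx x hx, h, hom.one]

theorem comm_map (hom : HomOn H ψ) (hx : x ∈ H) (hy : y ∈ H) : ψ ⁅x, y⁆ = ⁅ψ x, ψ y⁆ := by
  rw [commutatorElement_def, commutatorElement_def,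
    hom _ (mul_mem (mul_mem hx hy) (inv_mem hx)) _ (inv_mem hy), hom.conj hx hy, hom.inv hy]

theorem div_map (hom : HomOn H ψ) (hx : x ∈ H) (hy : y ∈ H) (e : ψ x = ψ y) : ψ (x⁻¹ * y) = 1 := by
  rw [hom _ (inv_mem hx) _ hy, hom.inv hx, e, inv_mul_cancel]

theorem div_map' (hom : HomOn H ψ) (hx : x ∈ H) (hy : y ∈ H) (e : ψ x = ψ y) : ψ (x * y⁻¹) = 1 := by
  rw [hom _ hx _ (inv_mem hy), hom.inv hy, e, mul_inv_cancel]

/-- the odd part of a lift -/
theorem odd_part [Finite Q] (hom : HomOn H ψ) (hx : x ∈ H) (o : Odd (orderOf (ψ x))) :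
    ∃ b ∈ zpowers x, Odd (orderOf b) ∧ ψ b = ψ x := by
  obtain ⟨a, b, ha, hb, pa, pb, e⟩ := exists_piPart {2} x
  have a1 := zpowers_le.2 hx ha
  have b1 := zpowers_le.2 hx hb
  refine ⟨b, hb, po.1 pb, ?_⟩
  have k : ψ a = ψ x * (ψ b)⁻¹ := by rw [← e, hom a a1 b b1, mul_inv_cancel_right]
  have c : Commute (ψ x) (ψ b) := cm_map hom hx b1 (cm_zp (Commute.refl x) hb).symm
  have : ψ a = 1 := (pi_map hom a1 pa).eq_one (k ▸ (po.2 o).mul (pi_map hom b1 pb).inv c.inv_right)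
  rw [← e, hom a a1 b b1, this, one_mul]

/-- the two-part of a lift -/
theorem two_part [Finite Q] (hom : HomOn H ψ) (hx : x ∈ H) (o : PiElt {2} (ψ x)) :
    ∃ b ∈ zpowers x, PiElt {2} b ∧ ψ b = ψ x := by
  obtain ⟨a, b, ha, hb, pa, pb, e⟩ := exists_piPart {2} x
  have a1 := zpowers_le.2 hx ha
  have b1 := zpowers_le.2 hx hb
  refine ⟨a, ha, pa, ?_⟩
  have k : ψ b = (ψ a)⁻¹ * ψ x := by rw [← e, hom a a1 b b1, inv_mul_cancel_left]
  have c : Commute (ψ a) (ψ x) := cm_map hom a1 hx (cm_zp (Commute.refl x) ha)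
  have : ψ b = 1 := PiElt.eq_one (k ▸ (pi_map hom a1 pa).inv.mul o c.inv_left) (pi_map hom b1 pb)
  rw [← e, hom a a1 b b1, this, mul_one]

theorem im_pf (hom : HomOn K ψ) (LK : L ≤ K) (pf : L ≤ ⁅L, L⁆) : hom.im L LK ≤ ⁅hom.im L LK, hom.im L LK⁆ := by
  have : ⁅L, L⁆ ≤ hom.pre ⁅hom.im L LK, hom.im L LK⁆ := commutator_le.2 fun a ha b hb =>
    hom.mem_pre.2 ⟨der_le K (commutator_mem_commutator (LK ha) (LK hb)), by
      rw [comm_map hom (LK ha) (LK hb)]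
      exact commutator_mem_commutator (hom.mem_im.2 ⟨a, ha, rfl⟩) (hom.mem_im.2 ⟨b, hb, rfl⟩)⟩
  intro q hq
  obtain ⟨x, hx, rfl⟩ := hom.mem_im.1 hq
  exact (hom.mem_pre.1 (this (pf hx))).2

theorem im_nor [Finite Q] (hom : HomOn K ψ) (LK : L ≤ K) (hx : x ∈ K) (n : x ∈ 𝐍 L) : ψ x ∈ 𝐍 (hom.im L LK) :=
  mem_norm_of_cj_le fun q hq => by
    obtain ⟨_, hp, rfl⟩ := mem_cj_iff.1 hq
    obtain ⟨y, hy, rfl⟩ := hom.mem_im.1 hp
    exact hom.mem_im.2 ⟨_, conj_mem_of_norm n hy, hom.conj hx (LK hy)⟩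

theorem im_cen (hom : HomOn K ψ) (LK : L ≤ K) (hx : x ∈ K) (n : x ∈ 𝐂 L) : ψ x ∈ 𝐂 (hom.im L LK) :=
  mem_cent.2 fun q hq => by
    obtain ⟨y, hy, rfl⟩ := hom.mem_im.1 hq
    exact cm_map hom (LK hy) hx (mem_cent.1 n y hy)

theorem nor_of (h : ∀ y ∈ H, x * y * x⁻¹ ∈ H) : x ∈ 𝐍 H :=
  mem_norm_of_cj_le fun q hq => by
    obtain ⟨y, hy, rfl⟩ := mem_cj_iff.1 hq
    exact h y hy

/-- elements of `H ⟨x⟩` -/
theorem mem_sup2 (n : x ∈ 𝐍 H) (e : x * x ∈ H) : y ∈ H ⊔ zpowers x ↔ y ∈ H ∨ y * x ∈ H := by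
  have xi : ∀ {y}, y * x ∈ H → y * x⁻¹ ∈ H := fun {y} h => by
    simpa [mul_assoc] using mul_mem h (inv_mem e)
  constructor
  · intro h
    let S : Subgroup G :=
      { carrier := {y | y ∈ H ∨ y * x ∈ H}
        one_mem' := .inl (one_mem _)
        mul_mem' := fun {a b} ha hb => by
          rcases ha with ha | ha <;> rcases hb with hb | hb
          · exact .inl (mul_mem ha hb)
          · exact .inr (by simpa [mul_assoc] using mul_mem ha hb)
          · exact .inr (by simpa [mul_assoc] using mul_mem ha (conj_mem_of_norm' n hb))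
          · exact .inl (by simpa [mul_assoc] using mul_mem (xi ha) (conj_mem_of_norm n hb))
        inv_mem' := fun {a} ha => by
          rcases ha with ha | ha
          · exact .inl (inv_mem ha)
          · exact .inr (by simpa [mul_assoc] using conj_mem_of_norm' n (inv_mem (xi ha))) }
    exact (sup_le (fun a ha => .inl ha) (zpowers_le.2 (.inr e)) : H ⊔ zpowers x ≤ S) h
  · rintro (h | h)
    · exact mem_sup_left h
    · simpa using mul_mem (mem_sup_left h : _ ∈ H ⊔ zpowers x) (inv_mem (mem_sup_right (mem_zpowers x)))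

theorem cs2 (n : x ∈ 𝐍 H) (e : x * x = 1) : ♯(H ⊔ zpowers x) ≤ 2 * ♯H := by
  have h1 := card_sup_dvd (H := H) (K := zpowers x) (.inr (zpowers_le.2 n))
  have h2 : ♯(zpowers x) ≤ 2 := by
    rw [Nat.card_zpowers]; exact Nat.le_of_dvd two_pos (orderOf_dvd_of_pow_eq_one (by rw [sq, e]))
  have := Nat.le_of_dvd (Nat.mul_pos (card_pos' _) (card_pos' _)) h1
  nlinarith [card_pos' H]

theorem cs2' (n : x ∈ 𝐍 H) (i : Iv x) (e : x ∉ H) : ♯(H ⊔ zpowers x) = 2 * ♯H := by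
  rw [card_sup_of_inf_bot (.inr (zpowers_le.2 n)), i.card, mul_comm]
  rw [inf_comm]
  exact inf_eq_bot_of_prime_of_not_le (i.card ▸ Nat.prime_two) fun l => e (l (mem_zpowers x))

theorem zp2 (e : x * x = 1) (h : y ∈ zpowers x) : y = 1 ∨ y = x := by
  have := (mem_sup2 (H := ⊥) (x := x) (y := y) (by simp) (mem_bot.2 e)).1 (mem_sup_right h)
  exact this.imp mem_bot.1 fun k => (eq_inv_of_mul_eq_one_left (mem_bot.1 k)).trans (iv_inv e)

theorem nor_sup2 {g : G} (n : g ∈ 𝐍 H) (e : g * x * g⁻¹ ∈ H ⊔ zpowers x) : g ∈ 𝐍 (H ⊔ zpowers x : Subgroup G) :=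
  mem_norm_of_cj_le (by
    rw [cj_sup, cj_of_norm n, cj_zpowers]
    exact sup_le le_sup_left (zpowers_le.2 e))

end CF.Tr.U
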