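import Cfsg.Agent.Tr.B
import Cfsg.Agent.Tr.U
import Cfsg.Agent.Tr.CT

/-! The homocyclic configuration: transport and the points. -/

set_option autoImplicit false
set_option linter.unusedSectionVars false

namespace CF.Tr
open Cfsg Subgroup CF.BG CF.Bender CF.J4

variable {G : Type*} [Group G] [Finite G] {f g j u w x y : G} {W J X K : Subgroup G}

namespace HC

theorem cs (g x : G) : ∃ y, x = g * y * g⁻¹ := ⟨g⁻¹ * x * g, by group⟩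

theorem cm (g a b : G) : g * a * g⁻¹ * (g * b * g⁻¹) = g * (a * b) * g⁻¹ := by group

theorem ci (g a : G) : (g * a * g⁻¹)⁻¹ = g * a⁻¹ * g⁻¹ := by group

theorem ce {a b : G} : g * a * g⁻¹ = g * b * g⁻¹ ↔ a = b := by rw [mul_left_inj, mul_right_inj]

theorem pi_sq (h : PiElt {2} (x * x)) : PiElt {2} x :=
  ((piNat_self Nat.prime_two).mul h).dvd (orderOf_dvd_of_pow_eq_one (by
    rw [pow_mul, pow_two, pow_orderOf_eq_one]))

theorem two_le (h : K < W) : 2 * ♯K ≤ ♯W := by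
  obtain ⟨m, e⟩ := card_dvd h.le
  have := card_lt h
  have p := card_pos' W
  rw [e] at this p ⊢
  rcases m with _ | _ | m
  · simp at p
  · simp at this
  · nlinarith

/-- the second commutator on an elementary abelian group -/
theorem eta (sq : ∀ a ∈ W, a * a = 1) (hy : y ∈ 𝐍 W) (hu : u ∈ W) :
    y * (y * u * y⁻¹ * u⁻¹) * y⁻¹ * (y * u * y⁻¹ * u⁻¹)⁻¹ = y * y * u * (y * y)⁻¹ * u⁻¹ := by
  have b := conj_mem_of_norm hy hu
  have k : (y * u * y⁻¹)⁻¹ * u * (y * u * y⁻¹)⁻¹ = u⁻¹ := by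
    rw [inv_sq (sq _ b), inv_sq (sq _ hu), (abel_of_sq sq).mul_comm b hu, mul_assoc u, sq _ b, mul_one]
  calc _ = y * y * u * (y * y)⁻¹ * ((y * u * y⁻¹)⁻¹ * u * (y * u * y⁻¹)⁻¹) := by group
    _ = _ := by rw [k]

/-- the conjugate of `K` attached to a conjugate of `f` -/
def pt (f : G) (K : Subgroup G) (d : G) : Subgroup G := ⨆ g ∈ {g | g * f * g⁻¹ = d}, cj g K

theorem pt_cj (c : 𝐂₁ f ≤ 𝐍 K) (g : G) : pt f K (g * f * g⁻¹) = cj g K := by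
  refine le_antisymm (iSup₂_le fun a ha => ?_) (le_iSup₂_of_le g rfl le_rfl)
  have : g⁻¹ * a ∈ 𝐂₁ f := c1_of (comm_iff_cj.2 (by
    rw [show g⁻¹ * a * f * (g⁻¹ * a)⁻¹ = g⁻¹ * (a * f * a⁻¹) * g by group, show a * f * a⁻¹ = _ from ha]; group))
  rw [← mul_inv_cancel_left g a, ← cj_cj, cj_of_norm (c this)]

end HC
open HC

theorem Hc.cj (h : Hc f W J) (g : G) : Hc (g * f * g⁻¹) (cj g W) (cj g J) where
  iv := h.iv.conj g
  ab := abel_cj.2 h.ab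
  WJ := cj_mono g h.WJ
  card := (card_cj g W).trans h.card
  inv j hj := by
    obtain ⟨k, rfl⟩ := cs g j
    rw [cm, cm, ci, h.inv k (conj_mem_cj.1 hj)]
  sq j hj := by
    obtain ⟨k, rfl⟩ := cs g j
    rw [cm, conj_mem_cj]; exact h.sq k (conj_mem_cj.1 hj)
  om j hj := by
    obtain ⟨k, rfl⟩ := cs g j
    rw [conj_mem_cj, ← h.om k (conj_mem_cj.1 hj), cm]
    exact ⟨cj_eq_one, fun e => by rw [e]; group⟩
  rt w hw := by
    obtain ⟨k, rfl⟩ := cs g w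
    obtain ⟨j, hj, e⟩ := h.rt k (conj_mem_cj.1 hw)
    exact ⟨_, conj_mem_cj.2 hj, by rw [cm, e]⟩
  CJ := by rw [← cj_cent1, ← cj_norm]; exact cj_mono g h.CJ
  h1 x hx := by
    obtain ⟨k, rfl⟩ := cs g x
    rw [cm, ci, cm, ← cj_norm, conj_mem_cj] at hx
    rw [← cj_norm, conj_mem_cj]; exact h.h1 k hx
  rf x hx e := by
    obtain ⟨k, rfl⟩ := cs g x
    rw [cm, ci, cm, cm, conj_mem_cj] at e
    rw [← cj_cent, conj_mem_cj] at hx
    rw [cm, conj_mem_cj, conj_mem_cj]; exact h.rf k hx e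
  cf x hx e := by
    obtain ⟨k, rfl⟩ := cs g x
    rw [← cj_cent, conj_mem_cj] at hx
    rw [cm, conj_mem_cj, conj_mem_cj]
    exact h.cf k hx (ce.1 (by rw [← cm, ← cm]; exact e))
  p2 x hx e := by
    obtain ⟨k, rfl⟩ := cs g x
    rw [cm, ci, cm, cm, conj_mem_cj] at e
    rw [← cj_norm, conj_mem_cj] at hx
    obtain ⟨c, hc, e'⟩ := h.p2 k hx e
    exact ⟨g * c * g⁻¹, by rwa [← cj_cent, conj_mem_cj], by rwa [ci, cm, ← cj_cent1, conj_mem_cj]⟩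
  f2 A hA := by
    rw [← cj_cj_inv g A] at hA ⊢
    generalize BG.cj g⁻¹ A = B at hA ⊢
    rw [← cj_cent, ← cj_cent, ← cj_inf, ← cj_inf, card_cj, card_cj, card_cj, cj_le_cj]
    refine h.f2 B fun a ha => ?_
    obtain ⟨k1, c, hc, k2⟩ := hA _ (conj_mem_cj.2 ha)
    obtain ⟨c, rfl⟩ := cs g c
    rw [← cj_cent, conj_mem_cj] at hc
    rw [cm, ← cj_cent, conj_mem_cj] at k1
    rw [ci, cm, ← cj_cent1, conj_mem_cj] at k2
    exact ⟨k1, c, hc, k2⟩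

theorem Hc.wsq (h : Hc f W J) : ∀ w ∈ W, w * w = 1 := fun w hw => (h.om w (h.WJ hw)).2 hw

theorem Hc.fW (h : Hc f W J) (hw : w ∈ W) : Commute f w :=
  comm_iff_cj.2 (by rw [h.iv.inv, h.inv w (h.WJ hw), inv_sq (h.wsq w hw)])

theorem Hc.JC (h : Hc f W J) : J ≤ 𝐂 W := h.ab.cent le_rfl h.WJ

theorem Hc.NJW (h : Hc f W J) : 𝐍 J ≤ 𝐍 W := le_norm_iff.2 fun g hg w hw =>
  (h.om _ (conj_mem_of_norm hg (h.WJ hw))).1 (sq_cj (h.wsq w hw) g)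

theorem Hc.nC (h : Hc f W J) : f ∉ 𝐂 J := fun c => by
  have : W = ⊥ := eq_bot_of_forall fun w hw => by
    obtain ⟨j, hj, rfl⟩ := h.rt w hw
    have := h.inv j hj
    rw [← (cen_comm c hj).eq, mul_assoc, h.iv.sq, mul_one] at this
    exact mul_eq_one_iff_eq_inv.2 this
  simpa [this] using h.card

theorem Hc.nJ (h : Hc f W J) (hy : y ∈ 𝐂 J) : y * f ∉ J := fun m =>
  h.nC (by simpa using mul_mem (inv_mem hy) (h.ab m))

theorem Hc.e2 (h : Hc f W J) (hy : y ∈ 𝐂 J) (i : f * y * f = y⁻¹) (e : y * y = 1) : y ∈ W :=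
  (h.cf y (cent_anti h.WJ hy) (comm_iff_cj.2 (by rw [h.iv.inv, i, inv_sq e])).symm).resolve_right
    fun m => h.nJ hy (h.WJ m)

theorem Hc.e4 (h : Hc f W J) (hy : y ∈ 𝐂 J) (i : f * y * f = y⁻¹) (e : y * y * (y * y) = 1) : y ∈ J := by
  have k : y * f * y⁻¹ * f = y * y := by rw [inv_cj h.iv.sq i, mul_assoc, h.iv.sq, mul_one]
  refine (h.rf y (cent_anti h.WJ hy) (k ▸ h.e2 (mul_mem hy hy) ?_ e)).resolve_right (h.nJ hy)
  rw [mul_inv_rev, ← i, show f * y * f * (f * y * f) = f * y * (f * f) * y * f by group, h.iv.sq]; group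

theorem Hc.dd (h : Hc f W J) (p : PiGrp {2} K) (hf : f ∈ K) : K ≤ 𝐍 J := by
  by_contra n
  obtain ⟨x, ⟨h1, h2⟩, h3⟩ := SetLike.exists_of_lt
    (p.nil.lt_inf_norm (lt_of_le_of_ne inf_le_left fun e => n (e.ge.trans inf_le_right) : K ⊓ 𝐍 J < K))
  exact h3 ⟨h1, h.h1 x (conj_mem_of_norm h2 (⟨hf, h.CJ (self_mem_cent1 f)⟩ : f ∈ K ⊓ 𝐍 J)).2⟩

theorem Hc.ddi (h : Hc f W J) (hx : x * x = 1) (p : PiElt {2} (f * x)) : x ∈ 𝐍 J := by
  have n : zpowers f ≤ 𝐍 (zpowers (f * x)) := zpowers_le.2 (U.nor_of fun t ht => by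
    rw [h.iv.inv, (dih_inv h.iv.sq hx ht).1]; exact inv_mem ht)
  refine h.dd ((pi2_of_sq h.iv.sq).zpowers.sup p.zpowers (.inl n)) (mem_sup_left (mem_zpowers f)) ?_
  simpa using mul_mem (mem_sup_left (inv_mem (mem_zpowers f))) (mem_sup_right (mem_zpowers (f * x)))

theorem Hc.hW (h : Hc f W J) (hx : x * f * x⁻¹ ∈ 𝐍 W) : x ∈ 𝐍 W := by
  obtain ⟨S, s, l⟩ := exists_syl_le (zpowers_le.2 (h.NJW (h.CJ (self_mem_cent1 f)))) (pi2_of_sq h.iv.sq).zpowers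
  obtain ⟨c, hc, k⟩ := s.syl_cj_le (zpowers_le.2 hx) (pi2_of_sq (h.iv.conj x).sq).zpowers
  have := h.NJW (h.h1 (c * x) (h.dd s.pi (l (mem_zpowers f)) (by
    have := k (conj_mem_cj.2 (mem_zpowers _))
    rwa [show c * (x * f * x⁻¹) * c⁻¹ = c * x * f * (c * x)⁻¹ by group] at this)))
  simpa using mul_mem (inv_mem hc) this

theorem Hc.cen (h : Hc f W J) (hx : x ∈ 𝐍 J) : f * (x * f * x⁻¹) ∈ 𝐂 J := cen_of fun j hj => by
  have k : x * f * x⁻¹ * j * (x * f * x⁻¹) = j⁻¹ := by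
    rw [show x * f * x⁻¹ * j * (x * f * x⁻¹) = x * (f * (x⁻¹ * j * x) * f) * x⁻¹ by group,
      h.inv _ (conj_mem_of_norm' hx hj)]; group
  refine (comm_iff_cj.2 ?_).symm
  rw [mul_inv_rev, (h.iv.conj x).inv, h.iv.inv, show f * (x * f * x⁻¹) * j * (x * f * x⁻¹ * f) =
    f * (x * f * x⁻¹ * j * (x * f * x⁻¹)) * f by group, k, h.inv _ (inv_mem hj), inv_inv]

theorem Hc.ci (h : Hc f W J) (x : G) : f * (f * (x * f * x⁻¹)) * f = (f * (x * f * x⁻¹))⁻¹ := by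
  rw [mul_inv_rev, (h.iv.conj x).inv, h.iv.inv, ← mul_assoc f f, h.iv.sq, one_mul]

namespace HC

/-- `X` is a maximal subgroup inverted by `f` and centralising `J` -/
structure Lo (f : G) (W J X : Subgroup G) : Prop extends Hc f W J where
  XC : X ≤ 𝐂 J
  xi : ∀ x ∈ X, f * x * f = x⁻¹
  cu : ∀ y ∈ 𝐂 J, y ∈ 𝐂 X → f * y * f = y⁻¹ → y ∉ X → y * y ∈ X → ∀ g ∈ 𝐍 X, g * y * g⁻¹ * y⁻¹ ∈ X → g ∈ 𝐍 W

theorem Lo.cj (h : Lo f W J X) (g : G) : Lo (g * f * g⁻¹) (cj g W) (cj g J) (cj g X) where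
  toHc := h.toHc.cj g
  XC := cj_cent_iff.2 h.XC
  xi j hj := by
    obtain ⟨k, rfl⟩ := cs g j
    rw [cm, cm, ci, h.xi k (conj_mem_cj.1 hj)]
  cu y h1 h2 h3 h4 h5 c h6 h7 := by
    obtain ⟨y, rfl⟩ := cs g y
    obtain ⟨c, rfl⟩ := cs g c
    rw [← cj_cent, conj_mem_cj] at h1 h2
    rw [cm, cm, ci, ce] at h3
    rw [cm, conj_mem_cj] at h5
    rw [← cj_norm, conj_mem_cj] at h6 ⊢
    rw [cm, ci, ci, cm, cm, conj_mem_cj] at h7
    exact h.cu y h1 h2 h3 (fun m => h4 (conj_mem_cj.2 m)) h5 c h6 h7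

theorem Lo.JH (h : Lo f W J X) : J ≤ 𝐍 X := norm_of_cent' h.XC

theorem Lo.XW (h : Lo f W J X) : X ≤ 𝐂 W := h.XC.trans (cent_anti h.WJ)

theorem Lo.cuJ (h : Lo f W J X) (hj : j ∈ J) (n : j ∉ X) (s : j * j ∈ X) :
    ∀ g ∈ 𝐍 X, g * j * g⁻¹ * j⁻¹ ∈ X → g ∈ 𝐍 W :=
  h.cu j (h.ab hj) (cent_symm h.XC hj) (h.inv j hj) n s

theorem Lo.cuW (h : Lo f W J X) (hw : w ∈ W) (n : w ∉ X) : ∀ g ∈ 𝐍 X, g * w * g⁻¹ * w⁻¹ ∈ X → g ∈ 𝐍 W :=
  h.cuJ (h.WJ hw) n (h.wsq w hw ▸ one_mem X)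

theorem Lo.om1 (h : Lo f W J X) (hx : x ∈ X) (e : x * x = 1) : x ∈ W := h.e2 (h.XC hx) (h.xi x hx) e

/-- the points of a counterexample -/
structure Sy (D : Set G) (X : Subgroup G) (P Q : G → Subgroup G) : Prop extends PT (𝐍 X) X D P where
  lo : ∀ d ∈ D, Lo d (P d) (Q d) X
  ne : D.Nonempty
  two : ∀ d ∈ D, ∃ e ∈ D, P e ≠ P d

theorem ex_lo (h : Hc f W J) (n : ¬ W.Normal) : ∃ X, Lo f W J X ∧ PiGrp {2} X ∧ ¬ 𝐍 X ≤ 𝐍 W := by
  obtain ⟨X, -, ⟨p, c, i, m⟩, mx⟩ := exists_maximal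
    (P := fun X => PiGrp {2} X ∧ X ≤ 𝐂 J ∧ (∀ x ∈ X, f * x * f = x⁻¹) ∧ ¬ 𝐍 X ≤ 𝐍 W) (H := ⊥)
    ⟨piGrp_bot _, bot_le, fun x hx => by rw [mem_bot.1 hx, mul_one, h.iv.sq, inv_one],
      fun l => n (normalIn_top.1 ⟨le_top, norm_bot (G := G) ▸ l⟩)⟩
  refine ⟨X, ⟨h, c, i, fun y h1 h2 h3 h4 h5 g h6 h7 => ?_⟩, p, m⟩
  have ny := cent_le_norm X h2
  by_contra k
  refine h4 ((mx (X ⊔ zpowers y) ⟨p.sup (pi_sq (p.elt h5)).zpowers (.inr (zpowers_le.2 ny)),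
    sup_le c (zpowers_le.2 h1), fun z hz => ?_, fun l => k (l (U.nor_sup2 h6 ?_))⟩ le_sup_left).le
    (mem_sup_right (mem_zpowers y)))
  · refine ((U.mem_sup2 ny h5).1 hz).elim (i z) fun e => ?_
    have c1 := cen_comm h2 e
    have c2 : Commute z y := by simpa using c1.mul_left (Commute.refl y).inv_left
    have : f * y⁻¹ * f = y := by rw [← h3, show f * (f * y * f) * f = f * f * y * (f * f) by group, h.iv.sq]; group
    calc f * z * f = f * (z * y) * (f * f) * y⁻¹ * f := by rw [h.iv.sq]; group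
      _ = f * (z * y) * f * (f * y⁻¹ * f) := by group
      _ = z⁻¹ := by rw [i _ e, this, c2.eq]; group
  · simpa using mul_mem (mem_sup_left h7) (mem_sup_right (mem_zpowers y))

theorem ex_sy (h : Hc f W J) (n : ¬ W.Normal) : ∃ (D : Set G) (X : Subgroup G) (P Q : G → Subgroup G), Sy D X P Q := by
  obtain ⟨X, l, p, m⟩ := ex_lo h n
  have cW := h.CJ.trans h.NJW
  have fX : f ∈ 𝐍 X := U.nor_of fun x hx => by rw [h.iv.inv, l.xi x hx]; exact inv_mem hx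
  have lo : ∀ d ∈ Dl X f, Lo d (pt f W d) (pt f J d) X := by
    rintro _ ⟨g, hg, rfl⟩
    rw [pt_cj cW, pt_cj h.CJ]
    simpa [cj_of_norm hg] using l.cj g
  have tr : ∀ d ∈ Dl X f, ∀ e ∈ Dl X f, ∃ g ∈ 𝐍 X, g * d * g⁻¹ = e := by
    rintro _ ⟨a, ha, rfl⟩ _ ⟨b, hb, rfl⟩
    exact ⟨b * a⁻¹, mul_mem hb (inv_mem ha), by group⟩
  have eqv : ∀ d ∈ Dl X f, ∀ g ∈ 𝐍 X, g * d * g⁻¹ ∈ Dl X f ∧ pt f W (g * d * g⁻¹) = BG.cj g (pt f W d) := by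
    rintro _ ⟨a, ha, rfl⟩ g hg
    rw [show g * (a * f * a⁻¹) * g⁻¹ = g * a * f * (g * a)⁻¹ by group, pt_cj cW, pt_cj cW, cj_cj]
    exact ⟨⟨_, mul_mem hg ha, rfl⟩, rfl⟩
  have un : ∀ d ∈ Dl X f, ∀ e ∈ Dl X f, d ∈ 𝐍 (pt f W e) → pt f W d = pt f W e := fun d hd e he k => by
    obtain ⟨g, hg, rfl⟩ := tr e he d hd
    rw [(eqv e he g hg).2, cj_of_norm ((lo e he).hW k)]
  have f1 : f ∈ Dl X f := ⟨1, one_mem _, by group⟩
  refine ⟨Dl X f, X, pt f W, pt f J, ⟨?_, eqv, tr, normalIn_norm X, fun d hd => (lo d hd).iv.sq,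
    fun d hd k => (lo d hd).nC ((lo d hd).XC k), fun d hd => norm_of_cent (lo d hd).XW, un, ?_⟩, lo, ⟨f, f1⟩, ?_⟩
  · rintro _ ⟨a, ha, rfl⟩
    exact mul_mem (mul_mem ha fX) (inv_mem ha)
  · intro d hd e he h1 h2
    have ld := lo d hd
    have le := lo e he
    obtain ⟨g, -, rfl⟩ := tr d hd e he
    refine ld.cu _ (ld.cen (ld.h1 g (ld.ddi le.iv.sq (pi_sq (p.elt h2))))) (cen_of fun x hx => ?_) (ld.ci g) h1 h2
    refine (comm_iff_cj.2 ?_).symm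
    rw [mul_inv_rev, le.iv.inv, ld.iv.inv, show ∀ a : G, d * a * x * (a * d) = d * (a * x * a) * d from fun a => by group,
      le.xi x hx, ld.xi _ (inv_mem hx), inv_inv]
  · intro d hd
    by_contra k
    push Not at k
    refine m fun g hg => cj_eq_self.1 ?_
    have := (k _ (eqv f f1 g hg).1).trans (k f f1).symm
    rwa [(eqv f f1 g hg).2, show pt f W f = W by simpa [cj_one] using pt_cj cW 1] at this

end HC
end CF.Tr
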