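import Cfsg.Agent.Tr.CT

/-! The normality theorem: reduction to a minimal counterexample and its points. -/

set_option autoImplicit false
set_option maxRecDepth 1000000
set_option linter.unusedSectionVars false

namespace CF.Tr
open Cfsg Subgroup CF.BG CF.Bender CF.J4 CF.Comp CF.Dce CF.Comp.Mat CF.Dce.J4
open scoped commutatorElement

universe u

section Q
variable {G : Type*} [Group G] [Finite G] {Q : Type*} [Group Q] [Finite Q] {ψ : G → Q} {H O K : Subgroup G} {x f : G}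
  {θ : G → Pm}

theorem Qm.le_pre (q : Qm H O ψ) (T : Subgroup Q) : O ≤ q.hom.pre T := fun x hx =>
  q.hom.mem_pre.2 ⟨q.le hx, q.k1 hx ▸ one_mem T⟩

theorem Qm.im_pre (q : Qm H O ψ) (T : Subgroup Q) : q.hom.im (q.hom.pre T) (pre_le _ _) = T :=
  le_antisymm (fun y hy => by obtain ⟨x, hx, rfl⟩ := q.hom.mem_im.1 hy; exact (q.hom.mem_pre.1 hx).2) fun y hy => by
    obtain ⟨x, hx, rfl⟩ := q.sur y; exact q.hom.mem_im.2 ⟨x, q.hom.mem_pre.2 ⟨hx, hy⟩, rfl⟩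

theorem Qm.pre_card (q : Qm H O ψ) (T : Subgroup Q) : ♯(q.hom.pre T) = ♯T * ♯O := by
  rw [q.hom.card_eq (pre_le _ T) (Z := O) fun g => ⟨fun k => ⟨q.le_pre T k, q.k1 k⟩,
    fun k => (q.ker g (pre_le _ _ k.1)).1 k.2⟩, q.im_pre]

theorem Qm.pre_nor (q : Qm H O ψ) {T : Subgroup Q} (n : T ⊴ ⊤) : q.hom.pre T ⊴ H :=
  ⟨pre_le _ _, fun _ hg => pre_norm q.hom hg (n.norm trivial)⟩

theorem Qm.im_nor (q : Qm H O ψ) (n : K ⊴ H) : q.hom.im K n.le ⊴ ⊤ :=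
  ⟨le_top, fun y _ => by obtain ⟨x, hx, rfl⟩ := q.sur y; exact im_norm q.hom n.le hx (n.norm hx)⟩

theorem Qm.mem_sup (q : Qm H O ψ) (l : K ≤ H) (hx : x ∈ H) : ψ x ∈ q.hom.im K l ↔ x ∈ K ⊔ O := by
  rw [q.hom.mem_im, mem_sup_norm (l.trans q.nor)]
  refine ⟨fun ⟨a, ha, e⟩ => ⟨a, ha, _, (q.div (l ha) hx).1 e, by simp⟩, ?_⟩
  rintro ⟨a, ha, b, hb, rfl⟩
  exact ⟨a, ha, by rw [q.hom _ (l ha) _ (q.le hb), q.k1 hb, mul_one]⟩

theorem im_pi {π : Set ℕ} (h : HomOn H ψ) (l : K ≤ H) (p : PiGrp π K) : PiGrp π (h.im K l) :=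
  PiNat.dvd p ⟨_, h.card_eq l (Z := K ⊓ h.pre ⊥) fun g =>
    ⟨fun k => ⟨k.1, ((mem_ker h).1 k.2).2⟩, fun k => ⟨k.1, (mem_ker h).2 ⟨l k.1, k.2⟩⟩⟩⟩

theorem Qm.pre_pi {π : Set ℕ} (q : Qm H O ψ) {T : Subgroup Q} (p : PiGrp π T) (o : PiGrp π O) :
    PiGrp π (q.hom.pre T) := by rw [PiGrp, q.pre_card]; exact PiNat.mul p o

theorem Qm.back (q : Qm H O ψ) (o : Odd (♯O)) (h : HI f θ) (fH : f ∈ H) (LH : OL f ≤ H)
    (n : (OL (ψ f) ⊔ 𝐎 {2}ᶜ ⊤ : Subgroup Q).Normal) : H ≤ 𝐍 (OL f ⊔ 𝐎 {2}ᶜ H : Subgroup G) := by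
  obtain ⟨θ', -, e, -⟩ := q.hi o h fH LH
  suffices q.hom.pre (OL (ψ f) ⊔ 𝐎 {2}ᶜ ⊤) = OL f ⊔ 𝐎 {2}ᶜ H from this ▸ (q.pre_nor (normalIn_top.2 n)).norm
  refine le_antisymm (fun x hx => ?_) (sup_le (fun x hx => ?_) fun x hx => ?_)
  · obtain ⟨h1, h2⟩ := q.hom.mem_pre.1 hx
    obtain ⟨a, ha, b, hb, e'⟩ := (mem_sup_norm (le_top.trans (O_normal _ _).norm)).1 h2
    obtain ⟨l, hl, rfl⟩ := q.hom.mem_im.1 (e ▸ ha)
    have m := mul_mem (inv_mem (LH hl)) h1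
    simpa using mul_mem (mem_sup_left hl : l ∈ OL f ⊔ 𝐎 {2}ᶜ H) (mem_sup_right (le_O (q.pre_nor (O_normal _ _))
      (q.pre_pi (O_pi _ _) (pi_of_odd o)) (q.hom.mem_pre.2 ⟨m, by
        rwa [q.hom _ (inv_mem (LH hl)) _ h1, q.hom.inv (LH hl), ← e', inv_mul_cancel_left]⟩)))
  · exact q.hom.mem_pre.2 ⟨LH hx, mem_sup_left (im_OL q.hom fH LH hx)⟩
  · exact q.hom.mem_pre.2 ⟨O_le _ _ hx, mem_sup_right (le_O (q.im_nor (O_normal _ _)) (im_pi _ _ (O_pi _ _))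
      (q.hom.mem_im.2 ⟨x, hx, rfl⟩))⟩

theorem Qm.lt (q : Qm H O ψ) (n : H ≠ ⊤ ∨ O ≠ ⊥) : Nat.card Q < Nat.card G := by
  have c := q.card
  have p := Nat.card_pos (α := Q)
  rcases n with n | n
  · have : ♯H < ♯(⊤ : Subgroup G) := lt_of_le_of_ne (card_le le_top) fun e => n (eq_of_card_le le_top e.ge)
    rw [card_top] at this
    nlinarith [card_pos' O]
  · have : 1 < ♯O := (one_lt_card_iff_ne_bot O).2 n
    have := H.card_le_card_group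
    nlinarith
end Q

section
variable {G : Type*} [Group G] [Finite G] {θ : G → Pm} {f w d e : G} {N L : Subgroup G}

theorem HI.of_conj (h : HI f θ) (c : IsConj f d) : ∃ θ', HI d θ' := by
  obtain ⟨g, rfl⟩ := isConj_iff.1 c; exact ⟨_, h.cj g⟩

theorem HI.eq_of' (h : HI f θ) (c : IsConj f d) (k : d ∈ 𝐂 (OL f)) : OL d = OL f := by
  obtain ⟨g, rfl⟩ := isConj_iff.1 c; exact h.eq_of k

theorem H0.cen (h : H0 f) (c : IsConj f d) (k : Commute f d) : d ∈ 𝐂 (OL f) := by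
  obtain ⟨g, rfl⟩ := isConj_iff.1 c; exact h g k

theorem QT.le_OL (q : QT L θ) (c : f ∈ 𝐂 L) : L ≤ OL f :=
  q.odg.trans ((closure_le _).2 fun o k => mem_OL (cen_comm c k.1) k.2)

theorem isConj_cj (a g : G) : IsConj a (g * a * g⁻¹) := isConj_iff.2 ⟨g, rfl⟩

/-- the central involution case -/
theorem HI.h0c (h : HI f θ) (h0 : H0 f) (g : G) (c : f * (g * f * g⁻¹) * f⁻¹ ∈ 𝐂 (OL (g * f * g⁻¹))) :
    g * f * g⁻¹ ∈ 𝐂 (OL f) := by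
  have k := h.cj g
  have n : f ∈ 𝐍 (OL (g * f * g⁻¹)) := by rw [← cj_eq_self, ← OL_cj, k.eq_of c]
  rw [k.eq_of' (isConj_cj f g).symm (h.nl h0 k.toQZ n)]
  exact OL_cen _
end

theorem t1_of (k : ∀ {G : Type u} [Group G] [Finite G] {f : G} {θ : G → Pm}, Mn f θ → False)
    {G : Type u} [Group G] [Finite G] {f : G} {θ : G → Pm} (h : HI f θ) (h0 : H0 f) :
    (OL f ⊔ 𝐎 {2}ᶜ ⊤ : Subgroup G).Normal := by
  induction' hn : Nat.card G using Nat.strong_induction_on with n ih generalizing G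
  have ih' : ∀ {H O : Subgroup G}, O ⊴ H → Odd (♯O) → (H ≠ ⊤ ∨ O ≠ ⊥) → f ∈ H → OL f ≤ H →
      H ≤ 𝐍 (OL f ⊔ 𝐎 {2}ᶜ H : Subgroup G) := fun {H O} n o ne fH LH => by
    obtain ⟨Q, _, _, ψ, q⟩ := exists_qm n
    obtain ⟨θ', p, -, -⟩ := q.hi o h fH LH
    exact q.back o h fH LH (ih _ (hn ▸ q.lt ne) p (q.h0 o h h0 fH LH) rfl)
  by_cases o1 : 𝐎 {2}ᶜ (⊤ : Subgroup G) = ⊥
  swap
  · exact normalIn_top.1 ⟨le_top, ih' (O_normal _ _) (odd_of_pi (O_pi _ _)) (.inr o1) trivial le_top⟩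
  rw [o1, sup_bot_eq]
  by_contra nn
  refine k ⟨h, h0, o1, fun w i c => nn ?_, fun H ne => ih' (.bot H) (by simp) (.inl ne), nn⟩
  have cw : ∀ x, Commute x w := fun x => c1_comm (c.ge (mem_top x))
  by_cases e : w = f
  · exact normalIn_top.1 ⟨le_top, fun g _ => OL_nr (e ▸ cw g)⟩
  have zc : ∀ K : Subgroup G, zpowers w ≤ 𝐂 K := fun K => zpowers_le.2 (cen_of fun x _ => cw x)
  have n : zpowers w ⊴ ⊤ := ⟨le_top, norm_of_cent' (zc ⊤)⟩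
  obtain ⟨Q, _, _, ψ, q⟩ := exists_qm n
  obtain ⟨θ', p, e1, -⟩ := h.map q.hom trivial le_top (fun e' => (sq_zp i.sq ((q.ker f trivial).1 e')).elim h.iv.ne
    fun x => e x.symm) (fun x _ e => zc _ ((q.ker x trivial).1 e)) fun y c o => by
      obtain ⟨g, -, rfl⟩ := q.sur y
      obtain ⟨x, -, ox, e⟩ := odd_lift q.hom (mem_top g) o
      refine ⟨x, mem_OL (comm_of_sq ox ?_) ox, e⟩
      rcases sq_zp i.sq ((q.comm trivial trivial).1 (e ▸ c)) with k | k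
      · exact (comm_iff_c.2 k).mul_left (comm_iff_c.2 k)
      · have k' : x * f * x⁻¹ = w * f := by rw [← k]; group
        rw [comm_iff_cj, show x * x * f * (x * x)⁻¹ = x * (x * f * x⁻¹) * x⁻¹ by group, k', ← mul_assoc, (cw x).eq,
          mul_assoc w, mul_assoc w, k', ← mul_assoc, i.sq, one_mul]
  have h0' : H0 (ψ f) := fun y c => by
    obtain ⟨g, -, rfl⟩ := q.sur y
    rw [← q.hom.conj trivial trivial] at c ⊢
    rw [e1]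
    refine im_cen q.hom le_top trivial (h.h0c h0 g ?_)
    simpa only [inv_mul_cancel_right] using mul_mem (zc _ ((q.comm trivial trivial).1 c)) (OL_cen (g * f * g⁻¹))
  have o2 : 𝐎 {2}ᶜ (⊤ : Subgroup Q) = ⊥ := by
    have n1 := q.pre_nor (O_normal {2}ᶜ ⊤)
    have c := q.pre_card (𝐎 {2}ᶜ ⊤)
    have hl : Hall {2} (zpowers w) (q.hom.pre (𝐎 {2}ᶜ ⊤)) := ⟨q.le_pre _, ZD.iv_pi i, by
      rw [← card_mul_relIndex (q.le_pre _), mul_comm, mul_left_inj' (card_ne_zero' _)] at c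
      rw [c]; exact O_pi _ _⟩
    obtain ⟨K, s, k⟩ := hl.exists_compl (le_top.trans n.norm)
    have := eq_bot_mono o1 ((le_O ⟨k.le, s.sup ▸ sup_le (norm_of_cent (zc K)) (le_norm_self K)⟩ k.pi).trans
      (O_le_O_of_normal n1 _))
    rw [← s.card, this, card_bot, mul_one, right_eq_mul₀ (card_ne_zero' _)] at c
    · exact card_eq_one'.1 c
  have n2 := q.pre_nor (normalIn_top.2 (ih _ (hn ▸ q.lt (.inr (ne_bot_of_mem (mem_zpowers w) i.ne))) p h0' rfl))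
  rw [o2, sup_bot_eq, e1] at n2
  refine normalIn_top.1 ⟨le_top, fun g _ => mem_norm_of_cj_le (pf_le (h.toQT.cj g).pf fun x hx => ?_)⟩
  have := cj_le_of_norm (n2.norm (mem_top g)) (fun x hx => q.hom.mem_pre.2 ⟨trivial, q.hom.mem_im.2 ⟨x, hx, rfl⟩⟩) hx
  obtain ⟨a, ha, b, hb, rfl⟩ := (mem_sup_norm (le_top.trans n.norm)).1 ((q.mem_sup le_top trivial).1 (q.hom.mem_pre.1 this).2)
  exact ⟨a, ha, b, rfl, zc _ hb, zc _ hb⟩

variable {G : Type*} [Group G] [Finite G] {θ : G → Pm} {f w d e : G} {N L : Subgroup G}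

theorem normal_of_cj {g : G} (n : (cj g L).Normal) : L.Normal := by
  have := (normalIn_top.2 n).cj g⁻¹
  rw [cj_inv_cj, cj_top] at this
  exact normalIn_top.1 this

theorem Mn.cj (h : Mn f θ) (g : G) : Mn (g * f * g⁻¹) fun x => θ (g⁻¹ * x * g) :=
  ⟨h.toHI.cj g, h.h0.cj g, h.o1, h.z1, fun H ne m l => by
    have := cj_mono g (h.ih (BG.cj g⁻¹ H) (by simpa using ne) (mem_cj_inv.2 m) (le_cj_iff.2 (by rwa [inv_inv, ← OL_cj])))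
    rwa [cj_cj_inv, cj_norm, cj_sup, cj_O, cj_cj_inv, ← OL_cj] at this,
    fun n => h.nn (normal_of_cj (OL_cj f g ▸ n))⟩

theorem Mn.of_conj (h : Mn f θ) (c : IsConj f d) : ∃ θ', Mn d θ' := by
  obtain ⟨g, rfl⟩ := isConj_iff.1 c; exact ⟨_, h.cj g⟩

theorem Mn.sn (h : Mn f θ) (n : N.Normal) (le : OL f ≤ N) (ne : N ⊔ zpowers f ≠ ⊤) : False := by
  have n' := normalIn_top.2 n
  have l : 𝐎 {2}ᶜ (N ⊔ zpowers f) ≤ N := fun x hx => by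
    refine mem_of_sq (odd_mem (odd_of_pi (O_pi _ _)) hx) ?_
    rcases (mem_sup_zp h.iv.sq (n'.norm trivial)).1 (O_le _ _ hx) with k | k
    · exact mul_mem k k
    · simpa [mul_assoc, h.iv.sq, h.iv.inv, ← mul_assoc f f] using mul_mem k (n'.conj_mem (mem_top f) k)
  have k := h.ih _ ne (mem_sup_right (mem_zpowers f)) (le.trans le_sup_left)
  rw [eq_bot_mono h.o1 ((O_le_O_of_le le_sup_left l).trans (O_le_O_of_normal n' _)), sup_bot_eq] at k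
  have k1 : ∀ a, BG.cj a (OL f) ⊴ N := fun a => by
    have := (show OL f ⊴ N from ⟨le, le_sup_left.trans k⟩).cj a
    rwa [cj_of_norm (n'.norm (mem_top a))] at this
  refine h.nn (normalIn_top.1 ⟨le_top, fun g _ => mem_norm_of_cj_le ?_⟩)
  have q := h.toQZ.cj g
  rcases q.nn ((k1 (f * g)).le.trans (k1 g).norm) ((k1 g).le.trans (k1 (f * g)).norm) with e | e
  · exact q.le_OL (h.nl h.h0 q (by rw [← cj_eq_self, cj_cj, eq_of_card_le e (by simp)]))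
  · exact (h.pp h.h0 q.toQT (by rwa [cj_cj])).elim

theorem WW_cj {f w : G} (h : w ∈ WW f) (g : G) : g * w * g⁻¹ ∈ WW (g * f * g⁻¹) := by
  obtain ⟨e, h1, h2, h3, rfl⟩ := h
  exact ⟨g * e * g⁻¹, ((isConj_cj f g).symm.trans h1).trans (isConj_cj e g), by simpa using h2, comm_cj h3 g, by group⟩

/-- the normal closure of `L` in the centraliser of `w` -/
def Pw (K L : Subgroup G) : Subgroup G := ⨆ g ∈ K, cj g L

theorem le_Pw {K : Subgroup G} {g : G} (h : g ∈ K) : cj g L ≤ Pw K L := le_iSup₂_of_le (f := fun g (_ : g ∈ K) => cj g L) g h le_rfl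

theorem le_Pw1 (K L : Subgroup G) : L ≤ Pw K L := (cj_one L).ge.trans (le_Pw (one_mem K))

theorem Pw_le {K M : Subgroup G} (h : ∀ g ∈ K, cj g L ≤ M) : Pw K L ≤ M := iSup₂_le h

theorem cj_Pw (g : G) (K L : Subgroup G) : cj g (Pw K L) ≤ Pw (cj g K) (cj g L) :=
  cj_le_iff.2 (Pw_le fun k hk => le_cj_iff.2 (by
    rw [inv_inv, cj_cj, show g * k = g * k * g⁻¹ * g by group, ← cj_cj]; exact le_Pw (conj_mem_cj.2 hk)))

theorem Pw_nor (K L : Subgroup G) : K ≤ 𝐍 (Pw K L) := fun g hg => mem_norm_of_cj_le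
  (cj_le_iff.2 (Pw_le fun k hk => le_cj_iff.2 (by rw [inv_inv, cj_cj]; exact le_Pw (mul_mem hg hk))))

theorem PP_le (f g : G) : cj g (PP f) ≤ PP (g * f * g⁻¹) :=
  cj_le_iff.2 (iSup₂_le fun w hw => le_cj_iff.2 (by
    rw [inv_inv]
    refine (cj_Pw g (𝐂₁ w) (OL f)).trans ?_
    rw [cj_cent1, ← OL_cj]
    exact le_iSup₂_of_le (f := fun w (_ : w ∈ WW (g * f * g⁻¹)) => Pw (𝐂₁ w) (OL (g * f * g⁻¹))) _ (WW_cj hw g) le_rfl))

theorem PP_cj (f g : G) : PP (g * f * g⁻¹) = cj g (PP f) :=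
  le_antisymm (le_cj_iff.2 (by simpa [mul_assoc] using PP_le (g * f * g⁻¹) g⁻¹)) (PP_le f g)

theorem PP_nor {g : G} (c : Commute g f) : g ∈ 𝐍 (PP f) := by rw [← cj_eq_self, ← PP_cj, comm_iff_cj.1 c]

theorem der_le_of {A B Q : Subgroup G} (n : A ⊔ B ≤ 𝐍 Q) (l : A ≤ Q) (ab : Abel B) : ⁅A ⊔ B, A ⊔ B⁆ ≤ Q := by
  have nB := le_sup_right.trans n
  rw [← abel_qt_iff n, qt_sup_of_le nB l, abel_qt_iff nB, der_eq_bot.2 ab]; exact bot_le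

theorem abel_of_inv {O : Subgroup G} (hf : f * f = 1) (h : ∀ y ∈ O, f * y * f = y⁻¹) : Abel O :=
  abel_of_forall fun x hx y hy => inv_injective (by
    rw [← h _ (mul_mem hx hy), mul_inv_rev, ← h x hx, ← h y hy]
    calc _ = f * x * (f * f) * y * f := by rw [hf]; group
      _ = _ := by group)

theorem cen_of_inv {O : Subgroup G} (hf : f * f = 1) (hd : d * d = 1) (h : ∀ y ∈ O, f * y * f = y⁻¹)
    (k : ∀ y ∈ O, d * y * d = y⁻¹) : f * d ∈ 𝐂 O := cen_of fun y hy => (comm_iff_cj.2 (by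
  rw [mul_inv_rev, inv_sq hf, inv_sq hd, show f * d * y * (d * f) = f * (d * y * d) * f by group, k y hy,
    h _ (inv_mem hy), inv_inv])).symm

theorem WW_iv (i : Iv f) (hw : w ∈ WW f) : Iv w ∧ Commute f w := by
  obtain ⟨e, h1, h2, h3, rfl⟩ := hw
  exact ⟨⟨fun k => h2 (by rw [eq_inv_of_mul_eq_one_right k, i.inv]), sq_mul i.sq (ZD.cl_iv i h1).sq h3⟩,
    (Commute.refl f).mul_right h3⟩

theorem WW_mk (i : Iv f) (j : Iv w) (c : Commute w f) (k : IsConj f (f * w)) : w ∈ WW f :=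
  ⟨_, k, by simpa using j.ne, (Commute.refl f).mul_right c.symm, by rw [← mul_assoc, i.sq, one_mul]⟩

theorem WW_cen (h0 : H0 f) (hw : w ∈ WW f) : w ∈ 𝐂 (OL f) := by
  obtain ⟨e, h1, -, h3, rfl⟩ := hw
  exact mul_mem (OL_cen f) (h0.cen h1 h3)

theorem Mn.wn (h : Mn f θ) (hw : w ∈ WW f) : 𝐂₁ w ≤ 𝐍 (OL f ⊔ 𝐎 {2}ᶜ (𝐂₁ w) : Subgroup G) :=
  h.ih _ (h.z1 w (WW_iv h.iv hw).1) (c1_of (WW_iv h.iv hw).2) (le_cent1_iff.2 (WW_cen h.h0 hw))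

/-- a perfect subgroup of `L O` lies in the normal closure of `L` -/
theorem HI.pf_Pw (h : HI f θ) {H K : Subgroup G} (fH : f ∈ H) (l : OL f ≤ H) (pf : K ≤ ⁅K, K⁆)
    (k : K ≤ OL f ⊔ 𝐎 {2}ᶜ H) : K ≤ Pw (𝐎 {2}ᶜ H) (OL f) :=
  have n := (O_normal {2}ᶜ H).norm
  (pf.trans (der_mono k)).trans (der_le_of (sup_le (fun g hg => mem_norm_of_cj_le (by
    simpa only [cj_of_norm (n (l hg)), cj_of_mem hg] using cj_Pw g (𝐎 {2}ᶜ H) (OL f))) (Pw_nor _ _)) (le_Pw1 _ _)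
    (abel_of_inv h.iv.sq (h.inv (odd_of_pi (O_pi _ _)) (n fH) (l.trans n))))

theorem Mn.pa (h : Mn f θ) (hw : w ∈ WW f) {a b : G} (ha : IsConj f a) (hb : IsConj f b) (la : a ∈ 𝐂 (OL f))
    (lb : b ∈ 𝐂 (OL f)) (ca : Commute a w) (cb : Commute b w) : Pw (𝐂₁ w) (OL f) ≤ Pw (𝐂₁ (a * b)) (OL f) := by
  have l := le_cent1_iff.2 (WW_cen h.h0 hw)
  have n := (O_normal {2}ᶜ (𝐂₁ w)).norm
  have k : ∀ a, IsConj f a → a ∈ 𝐂 (OL f) → Commute a w → ∀ y ∈ 𝐎 {2}ᶜ (𝐂₁ w), a * y * a = y⁻¹ := fun a ha la ca => by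
    obtain ⟨θ', p⟩ := h.toHI.of_conj ha
    exact p.inv (odd_of_pi (O_pi _ _)) (n (c1_of ca)) (h.eq_of' ha la ▸ l.trans n)
  have c := le_cent1_iff.2 (cen_of_inv (ZD.cl_iv h.iv ha).sq (ZD.cl_iv h.iv hb).sq (k a ha la ca) (k b hb lb cb))
  exact Pw_le fun g hg => (h.pf_Pw (c1_of (WW_iv h.iv hw).2) l (h.toQT.cj g).pf
    (cj_le_of_norm (h.wn hw hg) le_sup_left)).trans (Pw_le fun k hk => le_Pw (c hk))

theorem Mn.pb (h : Mn f θ) {w' : G} (hw : w ∈ WW f) (hw' : w' ∈ WW f) : Pw (𝐂₁ w) (OL f) ≤ Pw (𝐂₁ w') (OL f) := by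
  obtain ⟨e, h1, h2, h3, rfl⟩ := id hw
  obtain ⟨e', k1, k2, k3, rfl⟩ := id hw'
  have c1 := h.h0.cen h1 h3
  have c2 := h.h0.cen k1 k3
  have i1 := ZD.cl_iv h.iv h1
  have i2 := ZD.cl_iv h.iv k1
  have m : e * e' ∈ 𝐂₁ f ⊓ 𝐂 (OL f) := mul_mem (mem_inf.2 ⟨c1_of h3.symm, c1⟩) (mem_inf.2 ⟨c1_of k3.symm, c2⟩)
  rcases dih' i1.sq i2.sq with o | ⟨z, hz, i, a1, a2, a3⟩
  · rw [show e' = e by rw [eq_inv_of_mul_eq_one_right ((h.vg.elt m).eq_one (odd_elt.2 o)), i1.inv]]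
  obtain ⟨b1, b2⟩ := zpowers_le.2 m hz
  have d1 : IsConj f (e * z) ∧ IsConj f (e' * z) := by
    rcases a3 with ⟨⟨g, -, x⟩, g', -, y⟩ | ⟨⟨g, -, x⟩, ⟨g', -, y⟩, -⟩
    exacts [⟨x ▸ k1.trans (isConj_cj _ g), y ▸ h1.trans (isConj_cj _ g')⟩,
      ⟨x ▸ h1.trans (isConj_cj _ g), y ▸ k1.trans (isConj_cj _ g')⟩]
  have cf := h3.symm.mul_right (Commute.refl e)
  have s1 := h.pa hw h1 d1.1 c1 (mul_mem c1 b2) cf (cf.mul_left ((c1_comm b1).mul_right a1))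
  rw [← mul_assoc, i1.sq, one_mul] at s1
  obtain ⟨θ', p⟩ := h.of_conj k1
  have e1 := h.eq_of' k1 c2
  have s2 := p.pa (WW_mk i2 i a2 (k1.symm.trans d1.2)) k1.symm (IsConj.refl _) (e1 ▸ OL_cen f) (OL_cen _)
    (c1_comm b1).symm a2.symm
  rw [e1] at s2
  exact s1.trans s2

theorem Mn.pp_eq (h : Mn f θ) (hw : w ∈ WW f) : PP f = Pw (𝐂₁ w) (OL f) :=
  le_antisymm (iSup₂_le fun _ k => h.pb k hw) (le_iSup₂_of_le (f := fun w (_ : w ∈ WW f) => Pw (𝐂₁ w) (OL f)) w hw le_rfl)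

theorem Mn.cu (h : Mn f θ) (hw : w ∈ WW f) : 𝐂₁ w ≤ 𝐍 (PP f) := h.pp_eq hw ▸ Pw_nor _ _

theorem Mn.pc (h : Mn f θ) (hw : w ∈ WW f) : PP f ≤ 𝐂₁ w :=
  h.pp_eq hw ▸ Pw_le fun _ hg => cj_le_of_mem hg (le_cent1_iff.2 (WW_cen h.h0 hw))

/-- two members of the class in `H` with `H ≤ N (L O)` -/
theorem Mn.two {G : Type u} [Group G] [Finite G] {θ : G → Pm} {f e : G} {H : Subgroup G} (h : Mn f θ) (c : IsConj f e)
    (ne : H ≠ ⊤) (fH : f ∈ H) (LH : OL f ≤ H) (eH : e ∈ H) (LH' : OL e ≤ H) : OL f ≤ Pw (𝐎 {2}ᶜ H) (OL e) := by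
  obtain ⟨θ', p⟩ := h.of_conj c
  obtain ⟨Q, _, _, ψ, q⟩ := exists_qm (O_normal {2}ᶜ H)
  have o := odd_of_pi (O_pi {2}ᶜ H)
  obtain ⟨θ1, p1, e1, -⟩ := q.hi o h.toHI fH LH
  obtain ⟨θ2, p2, e2, -⟩ := q.hi o p.toHI eH LH'
  have n : ψ e ∈ 𝐍 (OL (ψ f)) := mem_norm_of_cj_le fun y hy => by
    obtain ⟨y, hy', rfl⟩ := mem_cj_iff.1 hy
    obtain ⟨x, hx, rfl⟩ := q.hom.mem_im.1 (e1 ▸ hy')
    rw [← q.hom.conj eH (LH hx), e1, q.mem_sup LH (mul_mem (mul_mem eH (LH hx)) (inv_mem eH))]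
    exact conj_mem_of_norm (h.ih H ne fH LH eH) (mem_sup_left hx)
  have := p1.le_OL (p2.nl (q.h0 o p.toHI p.h0 eH LH') p1.toQZ n)
  exact p.pf_Pw eH LH' h.pf fun x hx => (q.mem_sup LH' (LH hx)).1 (e2 ▸ this (im_OL q.hom fH LH hx))

theorem Mn.dj (h : Mn f θ) (c : IsConj f e) (hw : w ∈ WW f) (hw' : w ∈ WW e) : PP f ≤ PP e := by
  obtain ⟨θ', p⟩ := h.of_conj c
  have := h.two c (h.z1 w (WW_iv h.iv hw).1) (c1_of (WW_iv h.iv hw).2) (le_cent1_iff.2 (WW_cen h.h0 hw))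
    (c1_of (WW_iv p.iv hw').2) (le_cent1_iff.2 (WW_cen p.h0 hw'))
  rw [h.pp_eq hw, p.pp_eq hw']
  exact Pw_le fun g hg => cj_le_of_norm (Pw_nor _ _ hg) (this.trans (Pw_le fun k hk => le_Pw (O_le _ _ hk)))

theorem Mn.un (h : Mn f θ) (c : IsConj f e) (n : f ∈ 𝐍 (PP e)) : PP f = PP e := by
  obtain ⟨θ', p⟩ := h.of_conj c
  rcases dih h.iv.sq p.iv.sq with ⟨g, hg, k⟩ | ⟨z, -, i, a1, a2, a3⟩
  · have : g ∈ 𝐍 (PP e) := (closure_le _).2 (by rintro x (rfl | rfl); exacts [n, PP_nor rfl]) hg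
    rw [← cj_inj (g := g), cj_of_norm this, ← PP_cj, k]
  · have d1 : IsConj f (f * z) ∧ IsConj e (e * z) := by
      rcases a3 with ⟨⟨g, -, x⟩, g', -, y⟩ | ⟨⟨g, -, x⟩, g', -, y⟩
      exacts [⟨x ▸ c.trans (isConj_cj _ g), y ▸ c.symm.trans (isConj_cj _ g')⟩, ⟨x ▸ isConj_cj _ g, y ▸ isConj_cj _ g'⟩]
    have w1 := WW_mk h.iv i a1 d1.1
    have w2 := WW_mk p.iv i a2 d1.2
    exact le_antisymm (h.dj c w1 w2) (p.dj c.symm w2 w1)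

theorem Mn.mp (h : Mn f θ) : Mp f θ := by
  obtain ⟨w, hw⟩ : (WW f).Nonempty := by
    by_contra n
    refine h.z1 f h.iv (eq_top_iff.2 fun g _ => c1_of (comm_iff_c.2 (eq_one_of_mem_bot h.o1
      (ZD.zstar_in (M := ⊤) h.iv trivial (fun g _ c => by_contra fun k => n ⟨_, _, isConj_cj f g, k, c, rfl⟩) trivial))).symm)
  have l1 : OL f ≤ PP f := h.pp_eq hw ▸ le_Pw1 _ _
  have n := (O_normal {2}ᶜ (𝐂₁ w)).norm
  have pl : PP f = OL f ⊔ Th f := le_antisymm (by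
    have l2 : PP f ≤ OL f ⊔ 𝐎 {2}ᶜ (𝐂₁ w) := h.pp_eq hw ▸ Pw_le fun g hg => cj_le_of_norm (h.wn hw hg) le_sup_left
    refine (le_inf le_rfl l2).trans ?_
    rw [inf_sup_left l1 (.inl ((l1.trans (h.pc hw)).trans n))]
    exact sup_le_sup_left (le_O (normalIn_inf_left ((h.pc hw).trans n)) (O_pi _ _).inf_right) _) (sup_le l1 (O_le _ _))
  refine ⟨h, ⟨fun _ _ => trivial, fun d hd g _ => ⟨ZD.cl_conj hd g, PP_cj d g⟩, fun d hd e he => ?_, .bot _,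
    fun d hd => (ZD.cl_iv h.iv hd).sq, fun d hd k => (ZD.cl_iv h.iv hd).ne (mem_bot.1 k), fun _ _ => bot_le,
    fun d hd e he => ?_, fun d hd e he n c g _ k => ?_⟩, ⟨w, hw⟩, pl, fun w hw => (O_le _ _).trans (h.pc hw), fun e => ?_⟩
  · obtain ⟨g, k⟩ := isConj_iff.1 (IsConj.trans hd.symm he)
    exact ⟨g, trivial, k⟩
  · obtain ⟨θ', p⟩ := h.of_conj hd
    exact p.un (IsConj.trans hd.symm he)
  · obtain ⟨θ', p⟩ := h.of_conj hd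
    exact p.cu ⟨e, IsConj.trans hd.symm he, fun x => n (by rw [x, p.iv.sq]; exact one_mem _),
      comm_of_sqs p.iv.sq (ZD.cl_iv h.iv he).sq (mem_bot.1 c), rfl⟩ (c1_of (comm_iff_c.2 (mem_bot.1 k)))
  · have n' : PP f ⊴ ⊤ := ⟨le_top, e.ge⟩
    rw [show Th f = ⊥ from eq_bot_mono h.o1 (O_le_O_of_normal n' _), sup_bot_eq] at pl
    exact h.nn (normalIn_top.1 (pl ▸ n'))

theorem Mp.cj (h : Mp f θ) (g : G) : Mp (g * f * g⁻¹) fun x => θ (g⁻¹ * x * g) := (h.toMn.cj g).mp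

theorem Mp.of_conj (h : Mp f θ) (c : IsConj f d) : ∃ θ', Mp d θ' := by
  obtain ⟨g, rfl⟩ := isConj_iff.1 c; exact ⟨_, h.cj g⟩

end CF.Tr
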