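import Cfsg.Agent.Tr.Q2

/-! Inner pairs. -/

set_option autoImplicit false
set_option maxRecDepth 1000000
set_option linter.unusedSectionVars false

namespace CF.Tr
open Cfsg Subgroup CF.BG CF.Bender CF.J4 CF.Comp CF.Dce CF.Comp.Mat CF.Dce.J4
open scoped commutatorElement

universe u

section
variable {G : Type*} [Group G] [Finite G] {θ θ' : G → Pm} {f s g d x y : G} {L : Subgroup G}

theorem isConj_cj' (a g : G) : IsConj a (g * a * g⁻¹) := isConj_iff.2 ⟨g, rfl⟩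

theorem HI.cj' (h : HI f θ) (g : G) : ∃ θ', HI (g * f * g⁻¹) θ' ∧ ∀ x, θ (g⁻¹ * x * g) = θ' x := ⟨_, h.cj g, fun _ => rfl⟩

theorem QT.cmem (_ : QT L θ) (hf : f ∈ 𝐍 L) (hx : x ∈ L) : f * x * f⁻¹ * x⁻¹ ∈ L :=
  mul_mem (conj_mem_of_norm hf hx) (inv_mem hx)

theorem QZ.cm2 (h : QZ L θ) (hf : f ∈ 𝐍 L) (f2 : f * f = 1) (hx : x ∈ L) (c : Commute (θ f) (θ x * θ f * (θ x)⁻¹)) :
    Commute f (x * f * x⁻¹) := by
  have m : f * (x * f * x⁻¹) ∈ L := by simpa only [mul_assoc, inv_sq f2] using h.cmem hf hx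
  refine comm_of_sqs f2 (sq_cj f2 x) (h.li m ?_)
  rw [h.hom _ hf _ (mul_mem (mul_mem (h.ln hx) hf) (inv_mem (h.ln hx))), h.hom.conj (h.ln hx) hf]
  exact sq_mul (hom_sq h.hom hf f2) (sq_cj (hom_sq h.hom hf f2) _) c

theorem HI.inner (h : HI f θ) (n : ¬ H0 f) : ∃ g, Commute f (g * f * g⁻¹) ∧ θ (g * f * g⁻¹) = pZ := by
  by_contra k
  push Not at k
  have k1 : ∀ d, IsConj f d → Commute f d → θ d ≠ 1 → θ d ∉ MM := fun d hd c n m => by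
    obtain ⟨g, rfl⟩ := isConj_iff.1 hd
    obtain ⟨a, ha, e⟩ := clsM m ⟨n, hom_sq h.hom (OL_nr c.symm) (sq_cj h.iv.sq g)⟩
    obtain ⟨l, hl, rfl⟩ := h.sur a ha
    have e1 : l⁻¹ * g * f * (l⁻¹ * g)⁻¹ = l⁻¹ * (g * f * g⁻¹) * l := by group
    refine k (l⁻¹ * g) ?_ (by rw [e1, h.hom.conj' (h.ln hl) (OL_nr c.symm), ← e]; group)
    have := comm_cj' c l
    rwa [show l⁻¹ * f * l = f by rw [mul_assoc, ← (OL_comm hl).eq]; simp, ← e1] at this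
  obtain ⟨g, c, n⟩ : ∃ g, Commute f (g * f * g⁻¹) ∧ g * f * g⁻¹ ∉ 𝐂 (OL f) := by
    by_contra k'
    push Not at k'
    exact n k'
  have nd := OL_nr c.symm
  have n1 : θ (g * f * g⁻¹) ≠ 1 := fun e => n (h.k2 nd e)
  obtain ⟨θ', p, eθ⟩ := h.cj' g
  have i : Iv (θ (g * f * g⁻¹)) := ⟨n1, hom_sq h.hom nd p.iv.sq⟩
  have ou := k1 _ (isConj_cj' f g) c n1
  obtain ⟨l, hl, m, hm, a, ha, b, hb, oa, ob, ca, cb, e⟩ := par (h.mem _ nd) i ou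
  have k2 : ∀ e, IsConj f e → Commute (g * f * g⁻¹) e → θ (g⁻¹ * e * g) ≠ 1 → θ (g⁻¹ * e * g) ∉ MM := fun e he c =>
    k1 _ (he.trans (by simpa using isConj_cj' e g⁻¹)) (by simpa [mul_assoc] using comm_cj' c g)
  have cf := isConj_cj' f g
  simp only [eθ] at k2
  generalize g * f * g⁻¹ = d at *
  have nx : ∀ {x}, x ∈ OL f → x * d * x⁻¹ ∈ 𝐍 (OL f) := fun hx => mul_mem (mul_mem (h.ln hx) nd) (inv_mem (h.ln hx))
  have k3 : ∀ x ∈ OL f, θ x ∈ [l, m, a * b, a * b * l, a * b * m] →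
      x * d * x⁻¹ ∈ 𝐍 (OL d) ∧ θ' (x * d * x⁻¹) ∉ MM := fun x hx mx => by
    have c1 := h.cm2 nd p.iv.sq hx (e _ mx).1
    refine ⟨OL_nr c1.symm, k2 _ (cf.trans (isConj_cj' d x)) c1 fun e1 => ?_⟩
    rcases c1o (h.mem _ nd) i ou (h.mem _ (nx hx)) (fun ρ hρ o c => by
      obtain ⟨y, hy, oy, rfl⟩ := h.odx hρ o
      exact hom_comm h.hom (h.ln hy) (nx hx) (cen_comm (p.k2 (OL_nr c1.symm) e1) (mem_OL (h.odc nd hy oy c) oy))) with z | z <;>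
      rw [h.hom.conj (h.ln hx) nd] at z
    exacts [n1 (cj_eq_one z), (e _ mx).2 z]
  obtain ⟨l, hl', rfl⟩ := h.sur l hl
  obtain ⟨m, hm', rfl⟩ := h.sur m hm
  obtain ⟨a, ha', oa', rfl⟩ := h.odx ha oa
  obtain ⟨b, hb', ob', rfl⟩ := h.odx hb ob
  have nσ := mul_mem (mul_mem nd (nx hl')) (nx hm')
  have eσ : θ (d * (l * d * l⁻¹) * (m * d * m⁻¹)) = θ d * (θ l * θ d * (θ l)⁻¹) * (θ m * θ d * (θ m)⁻¹) := by
    rw [h.hom _ (mul_mem nd (nx hl')) _ (nx hm'), h.hom _ nd _ (nx hl'), h.hom.conj (h.ln hl') nd, h.hom.conj (h.ln hm') nd]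
  have c2 := comm_iff_cj.1 ((h.odc nσ ha' oa' (eσ ▸ ca)).mul_left (h.odc nσ hb' ob' (eσ ▸ cb)))
  have ab := mul_mem ha' hb'
  have eab := h.hl _ ha' _ hb'
  obtain ⟨a1, b1⟩ := k3 l hl' (by simp)
  obtain ⟨a2, b2⟩ := k3 m hm' (by simp)
  obtain ⟨a3, b3⟩ := k3 _ ab (by simp [eab])
  obtain ⟨a4, b4⟩ := k3 _ (mul_mem ab hl') (by simp [h.hl _ ab _ hl', eab])
  obtain ⟨a5, b5⟩ := k3 _ (mul_mem ab hm') (by simp [h.hl _ ab _ hm', eab])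
  have s1 := idx2 (p.mem _ a1) (p.mem _ a2) b1 b2
  have s2 := idx2 (p.mem _ a3) (p.mem _ a4) b3 b4
  rw [← p.hom _ a1 _ a2, ← p.cmul (mul_mem a1 a2) (OL_cen d), ← mul_assoc d, ← c2,
    show a * b * (d * (l * d * l⁻¹) * (m * d * m⁻¹)) * (a * b)⁻¹ = a * b * d * (a * b)⁻¹ * (a * b * l * d * (a * b * l)⁻¹) *
      (a * b * m * d * (a * b * m)⁻¹) by group, p.hom _ (mul_mem a3 a4) _ a5, p.hom _ a3 _ a4] at s1
  exact b5 ((mul_mem_cancel_left s2).1 s1)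

theorem ro_z : Commute ro pZ := weq [23, 7] [7, 23]

theorem c3M {a : Pm} (ha : a ∈ MM) (e : ∀ o ∈ MM, Odd (orderOf o) → Commute o pZ → Commute o a) : a = 1 ∨ a = pZ := by
  rcases c3 (MM_le ha) e with k | k | k | k
  exacts [.inl k, .inr k, absurd (k ▸ ha) (φ_nMM (by decide)),
    absurd ((mul_mem_cancel_right pZ_MM).1 (k ▸ ha)) (φ_nMM (by decide))]

/-- elements with image `pZ` commute with lifts of commuting involutions -/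
theorem QZ.lc' (h : QZ L θ) (hx : x ∈ L) (hd : d ∈ 𝐍 L) (m : θ d ∈ MM) (e : θ x * θ x = 1) (e' : θ d * θ d = 1)
    (c : Commute (θ x) (θ d)) : Commute x d := by
  obtain ⟨z, hz, ez⟩ := h.sur _ m
  simpa using (h.lc hx hz e (ez ▸ e') (ez ▸ c)).mul_right (cen_comm (h.div (h.ln hz) hd ez) hx)

theorem QZ.zc' (h : QZ L θ) (ha : x ∈ L) (c : x ∈ 𝐂 L) (hy : y ∈ 𝐍 L) : Commute y x := by
  by_cases e : x = 1
  · exact e ▸ Commute.one_right y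
  · exact comm_iff_cj.2 (h.z2 _ (conj_mem_of_norm hy ha) x ha (cen_cj hy c) c (fun k => e (cj_eq_one k)) e)

theorem HI.ip (h : HI f θ) (c : Commute f (g * f * g⁻¹)) (e : θ (g * f * g⁻¹) = pZ) :
    ∃ k, k * f * k⁻¹ = g * f * g⁻¹ ∧ IP f θ k := by
  have nd := OL_nr c.symm
  have nf := OL_nr c
  have od : ∀ x ∈ OL f, Odd (orderOf x) → Commute (θ x) pZ → x ∈ OL (g * f * g⁻¹) := fun x hx o k =>
    mem_OL (h.odc nd hx o (e ▸ k)) o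
  have adj : ∀ k, k * f * k⁻¹ = g * f * g⁻¹ → ∀ m ∈ MM, ∃ k', k' * f * k'⁻¹ = g * f * g⁻¹ ∧
      ∀ x ∈ 𝐍 (OL (g * f * g⁻¹)), θ (k'⁻¹ * x * k') = m * θ (k⁻¹ * x * k) * m⁻¹ := fun k ek m hm => by
    obtain ⟨l, hl, rfl⟩ := h.sur m hm
    refine ⟨k * l⁻¹, by rw [← ek, mul_assoc k, (OL_comm (inv_mem hl)).eq]; group, fun x hx => ?_⟩
    rw [← ek, OL_cj, mem_norm_cj] at hx
    rw [← h.hom.conj (h.ln hl) hx]; congr 1; group
  obtain ⟨k1, e1, z1⟩ : ∃ k, k * f * k⁻¹ = g * f * g⁻¹ ∧ θ (k⁻¹ * f * k) = pZ := by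
    obtain ⟨θ', p, eθ⟩ := h.cj' g
    have i : Iv (θ' f) := ⟨fun k => pZ_iv.ne (by
      rw [← e, h.k1 ((by simpa [mul_assoc] using p.eq_of (g := g⁻¹) (by simpa [mul_assoc] using p.k2 nf k) :
        OL f = OL (g * f * g⁻¹)) ▸ OL_cen _)]), hom_sq p.hom nf h.iv.sq⟩
    have o3 : ∀ ρ ∈ MM, Odd (orderOf ρ) → Commute ρ (θ' f) → ρ ^ 3 = 1 := fun ρ hρ o k => by
      obtain ⟨x, hx, ox, rfl⟩ := p.odx hρ o
      have c1 := p.odc nf hx ox k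
      have m := mem_OL c1 ox
      have : θ x ^ 3 = 1 := by
        by_cases z : θ x = 1
        · rw [z, one_pow]
        obtain ⟨a, -, -, ea⟩ := o4 (h.im x m) (hom_odd h.hl m ox) z (e ▸ hom_comm h.hom (h.ln m) nd (OL_comm hx))
        exact cj_eq_one (g := a) (by rw [← conj_pow, ea]; exact weq [23, 23, 23] [])
      rw [← p.hl.pow hx, h.odd1 (c1.pow_left 3) (h.k2 (h.ln (pow_mem m 3)) (by rwa [h.hl.pow m])) (odd_pow ox 3), p.hl.one]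
    obtain ⟨m, hm, k⟩ := cls (p.mem f nf) i
    have o3' : ∀ ρ ∈ MM, ∀ n : ℕ, Odd n → ρ ^ n = 1 → Commute ρ (m * θ' f * m⁻¹) → ρ ^ 3 = 1 :=
      fun ρ hρ n o e k => cj_eq_one' (g := m) (by
        rw [← o3 _ (conj_mem_of_norm' (le_norm_self _ hm) hρ) (odd_cj' (o.of_dvd_nat (orderOf_dvd_of_pow_eq_one e)) m)
          (by simpa [mul_assoc] using comm_cj' k m), conj_pow'])
    rcases k with k | k | k
    · obtain ⟨k', a1, a2⟩ := adj g rfl m hm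
      exact ⟨k', a1, (a2 f nf).trans (eθ f ▸ k)⟩
    · exact absurd (o3' s7 (φ_MM (by decide)) 7 (by decide) (weq [33, 33, 33, 33, 33, 33, 33] [])
        (k ▸ weq [33, 21] [21, 33])) (wne [33, 33, 33] [])
    · exact absurd (o3' (pS * pS) (wmm [3, 3]) 5 (by decide) (weq [3, 3, 3, 3, 3, 3, 3, 3, 3, 3] [])
        (k ▸ weq [3, 3, 31] [31, 3, 3])) (wne [3, 3, 3, 3, 3, 3] [])
  obtain ⟨r, hr, or, er⟩ := h.odx mro ro_odd
  have rd := od r hr or (er ▸ ro_z)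
  obtain ⟨k, ek, z, zr⟩ : ∃ k, k * f * k⁻¹ = g * f * g⁻¹ ∧ θ (k⁻¹ * f * k) = pZ ∧ θ (k⁻¹ * r * k) = ro := by
    obtain ⟨θ', p, eθ⟩ := h.cj' k1
    rw [e1] at p
    rw [eθ] at z1
    obtain ⟨m, hm, a1, a2⟩ := o4 (p.im r rd) (hom_odd p.hl rd or)
      (fun k => ro_ne (by rw [← er, p.odd1 (OL_comm rd) (p.k2 (p.ln rd) k) or, h.hl.one]))
      (z1 ▸ hom_comm p.hom (p.ln rd) nf (OL_comm hr))
    obtain ⟨k', b1, b2⟩ := adj k1 e1 m hm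
    exact ⟨k', b1, by rw [b2 f nf, eθ, z1, comm_iff_cj.1 a1], (b2 r (p.ln rd)).trans (eθ r ▸ a2)⟩
  obtain ⟨θ', p, eθ⟩ := h.cj' k
  rw [ek] at p
  rw [eθ] at z zr
  generalize g * f * g⁻¹ = d at *
  have ol : ∀ y ∈ 𝐍 (OL d), (∀ x ∈ OL f, Commute x d → Commute x y) →
      ∀ ρ ∈ MM, Odd (orderOf ρ) → Commute ρ pZ → Commute ρ (θ' y) := fun y hy a ρ hρ o b => by
    obtain ⟨x, hx, ox, rfl⟩ := p.odx hρ o
    exact hom_comm p.hom (p.ln hx) hy (a x (mem_OL (p.odc nf hx ox (z ▸ b)) ox) (OL_comm hx))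
  obtain ⟨ε, hε, eε⟩ := h.sur _ m13
  have nε := OL_nr (h.lc' hε nd (e ▸ pZ_MM) (eε ▸ e13_iv.sq) (e ▸ pZ_iv.sq) (by rw [e, eε]; exact e13_z))
  have a1 : θ' ε = e13 ∨ θ' ε = e13 * pZ := by
    refine or_assoc.2 (c2 (p.mem ε nε) (hom_sq p.hom nε (h.li hε (eε ▸ e13_iv.sq)))
      (z ▸ hom_comm p.hom nε nf (OL_comm hε)) (zr ▸ hom_comm p.hom nε (p.ln rd)
        (h.odc (h.ln hε) hr or (by rw [er, eε]; exact weq [23, 13] [13, 23])).symm)) |>.resolve_right fun a => ?_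
    rcases c3M (a := e13) (φ_MM (by decide)) (fun ρ hρ o b => by
      obtain ⟨x, hx, ox, rfl⟩ := h.odx hρ o
      have m := od x hx ox b
      exact eε ▸ hom_comm h.hl hx hε (p.odc nε m ox (a _ (p.im x m) (hom_odd p.hl m ox)
        (z ▸ hom_comm p.hom (p.ln m) nf (OL_comm hx))))) with b | b
    exacts [e13_iv.ne b, absurd b (wne [13] [7])]
  have cc : ∀ y ∈ 𝐍 (OL d), (∀ x ∈ OL f, Commute x d → Commute x y) → θ' y = 1 ∨ θ' y = pZ :=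
    fun y hy a => by
      have b := hom_comm p.hom nε hy (a ε hε (h.lc' hε nd (e ▸ pZ_MM) (eε ▸ e13_iv.sq) (e ▸ pZ_iv.sq)
        (by rw [e, eε]; exact e13_z)))
      rcases c3 (p.mem y hy) (ol y hy a) with t | t | t | t
      exacts [.inl t, .inr t, (a1.elim (fun u => nc_B.1 (u ▸ t ▸ b)) fun u => nc_B.2.2.1 (u ▸ t ▸ b)).elim,
        (a1.elim (fun u => nc_B.2.1 (u ▸ t ▸ b)) fun u => nc_B.2.2.2 (u ▸ t ▸ b)).elim]
  have cz : ∀ y ∈ OL f, θ y = pZ → Commute y d ∧ ∀ x ∈ OL f, Commute x d → Commute x y := fun y hy t =>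
    ⟨h.lc' hy nd (e ▸ pZ_MM) (t ▸ pZ_iv.sq) (e ▸ pZ_iv.sq) (by rw [t, e]), fun x hx b => by
      simpa using b.mul_right (cen_comm (h.div nd (h.ln hy) (e.trans t.symm)) hx)⟩
  have ze : ∀ {a : Pm}, a = 1 ∨ a = pZ → a ∈ EE := by rintro _ (rfl | rfl); exacts [one_mem _, mem_E.1]
  refine ⟨k, ek, h, ek ▸ c, ek ▸ e, eθ f ▸ z, fun x hx m => eθ x ▸ ?_, by simpa only [eθ, ek] using cc,
    fun a ha b hb oa ob ca cb t => eθ _ ▸ ?_⟩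
  · obtain ⟨y, hy, t⟩ := clo_im (h.hl.mono (inf_le_left (b := p.hom.pre EE))) (fun a ha => by
      rcases ha with rfl | ⟨ρ, hρ, o, b, rfl⟩
      · obtain ⟨y, hy, t⟩ := h.sur _ pZ_MM
        have n := OL_nr (cz y hy t).1
        exact ⟨y, ⟨hy, p.hom.mem_pre.2 ⟨n, ze (cc y n (cz y hy t).2)⟩⟩, t⟩
      · obtain ⟨y, hy, oy, rfl⟩ := h.odx hρ o
        have m := p.ln (od y hy oy b)
        refine ⟨y * ε * y⁻¹, mem_inf.2 ⟨mul_mem (mul_mem hy hε) (inv_mem hy), conj_mem_of_norm (pre_norm p.hom m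
          (E_nz (p.mem y m) (z ▸ hom_comm p.hom m nf (OL_comm hy)))) (p.hom.mem_pre.2 ⟨nε, ?_⟩)⟩, by rw [h.hl.conj hy hε, eε]⟩
        rcases a1 with u | u <;> rw [u]
        exacts [mem_E.2.2.2, mul_mem mem_E.2.2.2 mem_E.1]) _ (E_gen m)
    have a := h.div (h.ln hy.1) (h.ln hx) t
    have n := OL_nr (h.zc' (mul_mem (inv_mem hy.1) hx) a nd).symm
    simpa using (p.hom.mem_pre.1 (mul_mem hy.2 (p.hom.mem_pre.2 ⟨n, ze (cc _ n fun x hx _ => cen_comm a hx)⟩))).2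
  · have m := mul_mem ha hb
    have m' := mul_mem (od a ha oa ca) (od b hb ob cb)
    have t' : θ ((a * b) ^ 2) = pZ := by rw [h.hl.pow m, h.hl _ ha _ hb, t]
    refine (c3M (p.im _ (pow_mem m' 2)) (ol _ (p.ln (pow_mem m' 2)) (cz _ (pow_mem m 2) t').2)).resolve_left fun u => ?_
    rw [pow_two, p.li m' (by rwa [← p.hl _ m' _ m', ← pow_two]), h.hl.one] at t'
    exact pZ_iv.ne t'.symm

/-- the canonical lift of `pZ` -/
theorem HI.zh (h : HI f θ) : ∃ z ∈ OL f, θ z = pZ ∧ z * z = 1 ∧ ∀ k, IP f θ k → z ∈ OL (k * f * k⁻¹) ∧ θ (k⁻¹ * z * k) = pZ := by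
  obtain ⟨a, ha, b, hb, oa, ob, ca, cb, -, -, e⟩ := zy
  obtain ⟨a, ha', oa', rfl⟩ := h.odx ha oa
  obtain ⟨b, hb', ob', rfl⟩ := h.odx hb ob
  have m := pow_mem (mul_mem ha' hb') 2
  have t : θ ((a * b) ^ 2) = pZ := by rw [h.hl.pow (mul_mem ha' hb'), h.hl _ ha' _ hb', e]
  exact ⟨_, m, t, h.li m (t ▸ pZ_iv.sq), fun k p => ⟨pow_mem (mul_mem (mem_OL (h.odc (OL_nr p.cm.symm) ha' oa' (p.tz ▸ ca)) oa')
    (mem_OL (h.odc (OL_nr p.cm.symm) hb' ob' (p.tz ▸ cb)) ob')) 2, p.yy a ha' b hb' oa' ob' ca cb e⟩⟩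

theorem HI.dz (h : HI s θ) (v : 𝐂₁ s ⊓ 𝐂 (OL s) ≤ zpowers s) : ∃ z ∈ OL s, θ z = pZ ∧ z * z = 1 ∧
    ∀ d, IsConj s d → Commute s d → θ d = pZ → d = s * z := by
  obtain ⟨z, h1, h2, h3, h4⟩ := h.zh
  refine ⟨z, h1, h2, h3, fun d hd c e => ?_⟩
  obtain ⟨g, rfl⟩ := isConj_iff.1 hd
  obtain ⟨k, ek, p⟩ := h.ip c e
  obtain ⟨a1, a2⟩ := h4 k p
  obtain ⟨θ', q, eθ⟩ := h.cj' k
  have := cj_mono k v
  rw [cj_inf, cj_cent1, cj_cent, ← OL_cj, cj_zpowers] at this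
  rcases sq_zp q.iv.sq (this ⟨c1_of (p.cm.mul_left (OL_comm a1)), q.k2 (mul_mem (OL_nr p.cm) (q.ln a1))
    (by rw [q.hom _ (OL_nr p.cm) _ (q.ln a1), ← eθ, ← eθ, p.tz', a2, pZ_iv.sq])⟩) with t | t
  · exact absurd (by rw [← h2, ← h.cmul (h.ln h1) (OL_cen s), t, h.hl.one]) pZ_iv.ne
  · rw [t, ek]

theorem HI.uq (h : HI s θ) (v : 𝐂₁ s ⊓ 𝐂 (OL s) ≤ zpowers s) {e : G} (hd : IsConj s d) (he : IsConj s e) (c : Commute s d)
    (c' : Commute s e) (m : θ d ∈ MM) (n : θ d ≠ 1) (k : θ d = θ e) : d = e := by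
  obtain ⟨z, -, -, -, h4⟩ := h.dz v
  obtain ⟨a, ha, t⟩ := clsM m ⟨n, hom_sq h.hom (OL_nr c.symm) (ZD.cl_iv h.iv hd).sq⟩
  obtain ⟨l, hl, rfl⟩ := h.sur a ha
  have : ∀ d, IsConj s d → Commute s d → θ l * pZ * (θ l)⁻¹ = θ d → l⁻¹ * d * l = s * z := fun d hd c t =>
    h4 _ (hd.trans (by simpa using isConj_cj' d l⁻¹)) (((OL_comm (inv_mem hl)).symm.mul_right c).mul_right (OL_comm hl).symm)
      (by rw [h.hom.conj' (h.ln hl) (OL_nr c.symm), ← t]; group)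
  simpa using (this d hd c t).trans (this e he c' (t.trans k)).symm

theorem IP.ii0a (h : IP s θ g) (v : 𝐂₁ s ⊓ 𝐂 (OL s) ≤ zpowers s) : s ∉ OL s := fun sL => by
  let E := h.hl.pre EE
  have lE : E ≤ OL s := pre_le _ _
  have mE : ∀ {u}, u ∈ OL s → θ u ∈ EE → u ∈ E := fun a b => h.hl.mem_pre.2 ⟨a, b⟩
  have sq : ∀ u ∈ E, u * u = 1 := fun u hu => h.li (lE hu) (E_sq (h.hl.mem_pre.1 hu).2)
  have ab := abel_of_sq sq
  have sE := mE sL (h.k1 (OL_cen s) ▸ one_mem _)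
  have mL : ∀ {x}, Commute x s → θ x ∈ MM → x ∈ OL s := fun {x} c m => by
    obtain ⟨l, hl, e⟩ := h.sur _ m
    simpa using mul_mem hl (zpowers_le.2 sL (v ⟨c1_of ((OL_comm (inv_mem hl)).mul_left c), h.div (h.ln hl) (OL_nr c) e⟩))
  have dE := mE (mL h.cm.symm (h.tz ▸ pZ_MM)) (h.tz ▸ mem_E.1)
  have gE : g⁻¹ ∈ 𝐍 E := mem_norm_of_cj_le fun x hx => by
    obtain ⟨x, hx', rfl⟩ := mem_cj_iff.1 hx
    have := h.ee x (lE hx') (h.hl.mem_pre.1 hx').2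
    rw [inv_inv]
    exact mE (mL (by simpa [mul_assoc] using comm_cj' (ab.mul_comm hx' dE) g) (E_le this)) this
  have ker : ∀ x ∈ E, θ x = 1 → x = 1 ∨ x = s := fun x hx e => sq_zp h.iv.sq (v ⟨OL_le s (lE hx), h.k2 (h.ln (lE hx)) e⟩)
  have ex : ∀ a ∈ EE, a ≠ 1 → ∃ n ∈ 𝐍 E, n * s * n⁻¹ ∈ E ∧ θ (n * s * n⁻¹) = a := fun a ha n => by
    obtain ⟨m, hm, k, rfl⟩ := E_tr ha n
    obtain ⟨l, hl, rfl⟩ := h.sur m hm
    have e : l * g * s * (l * g)⁻¹ = l * (g * s * g⁻¹) * l⁻¹ := by group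
    exact ⟨l * g, mul_mem (pre_norm h.hl hl k) (by simpa using gE), e ▸ conj_mem_of_norm (pre_norm h.hl hl k) dE,
      by rw [e, h.hl.conj hl (lE dE), h.tz]⟩
  have uq : ∀ x ∈ E, ∀ y ∈ E, IsConj s x → IsConj s y → θ x ≠ 1 → θ x = θ y → x = y := fun x hx y hy a b =>
    h.uq v a b (OL_comm (lE hx)).symm (OL_comm (lE hy)).symm (h.im x (lE hx))
  have es : ∀ x ∈ E, θ (s * x) = θ x := fun x hx => h.cmul (h.ln (lE hx)) (OL_cen s)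
  have one : ¬ IsConj s 1 := fun k => h.iv.ne (isConj_one_left.1 k)
  have n2 : ∀ x ∈ E, IsConj s x → ¬ IsConj s (s * x) := fun x hx a b => by
    by_cases e : θ x = 1
    · rcases ker x hx e with rfl | rfl
      exacts [one a, one (h.iv.sq ▸ b)]
    · exact h.iv.ne (by simpa using (uq x hx _ (mul_mem sE hx) a b e (es x hx).symm).symm)
  have n1 : ∀ x ∈ E, ¬ IsConj s x → IsConj s (s * x) := fun x hx a => by
    by_cases e : θ x = 1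
    · rcases ker x hx e with rfl | rfl
      exacts [by rw [mul_one], absurd (IsConj.refl _) a]
    obtain ⟨n, -, k1, k2⟩ := ex _ (h.hl.mem_pre.1 hx).2 e
    rcases ker _ (mul_mem (inv_mem hx) k1) (hom_div h.hl (lE hx) (lE k1) k2.symm) with t | t
    · exact absurd (inv_mul_eq_one.1 t ▸ isConj_cj' s n) a
    · rw [← ab.mul_comm hx sE, ← eq_mul_of_inv_mul_eq t]; exact isConj_cj' s n
  have n3 : ∀ x ∈ E, ∀ y ∈ E, IsConj s x → IsConj s y → ¬ IsConj s (x * y) := fun x hx y hy a b k => by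
    obtain ⟨n, hn, rfl⟩ : ∃ n ∈ 𝐍 E, n * s * n⁻¹ = x := by
      by_cases e : θ x = 1
      · rcases ker x hx e with rfl | rfl
        exacts [absurd a one, ⟨1, one_mem _, by simp⟩]
      obtain ⟨n, hn, k1, k2⟩ := ex _ (h.hl.mem_pre.1 hx).2 e
      exact ⟨n, hn, (uq x hx _ k1 a (isConj_cj' s n) e k2.symm).symm⟩
    exact n2 _ (conj_mem_of_norm' hn hy) (b.trans (by simpa using isConj_cj' y n⁻¹))
      (k.trans (by simpa [mul_assoc] using isConj_cj' (n * s * n⁻¹ * y) n⁻¹))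
  let H : Subgroup G :=
    { carrier := {x | x ∈ E ∧ ¬ IsConj s x}
      one_mem' := ⟨one_mem _, one⟩
      mul_mem' := fun {x y} hx hy => ⟨mul_mem hx.1 hy.1, by
        have := n3 _ (mul_mem sE hx.1) _ (mul_mem sE hy.1) (n1 x hx.1 hx.2) (n1 y hy.1 hy.2)
        rwa [ab.mul_comm sE hx.1, mul_assoc, ← mul_assoc s, h.iv.sq, one_mul] at this⟩
      inv_mem' := fun {x} hx => by rwa [inv_sq (sq x hx.1)] }
  have nH : ∀ i ∈ [3, 4, 5, 6, 7, 8, 9, 10, 11, 12, 13, 14], ∀ p ∈ OL s, θ p = φ i → p ∈ 𝐍 H := fun i hi p hp e =>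
    mem_norm_of_cj_le fun x hx => by
      obtain ⟨x, hx', rfl⟩ := mem_cj_iff.1 hx
      exact ⟨conj_mem_of_norm (pre_norm h.hl hp (e ▸ E_N hi)) hx'.1, fun k => hx'.2 (k.trans (isConj_cj' x p).symm)⟩
  obtain ⟨p, hp, ep⟩ := h.sur _ (φ_MM (i := 8) (by decide))
  obtain ⟨q, hq, eq⟩ := h.sur _ (φ_MM (i := 9) (by decide))
  refine h.iv.ne (h.ns0 (H := H) (fun x hx => lE hx.1) (fun x hx e => (ker x hx.1 e).resolve_right fun k =>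
    hx.2 (k ▸ IsConj.refl _)) (fun x hx => (h.hl.mem_pre.1 hx.1).2) (fun a ha => ?_) hp hq ep eq
    (nH 8 (by decide) p hp ep) (nH 9 (by decide) q hq eq) s sL (OL_cen s))
  obtain ⟨x, hx, rfl⟩ := h.sur a (E_le ha)
  have k := mE hx ha
  by_cases t : IsConj s x
  exacts [⟨s * x, ⟨mul_mem sE k, n2 x k t⟩, es x k⟩, ⟨x, ⟨k, t⟩, rfl⟩]

theorem odd_chain (o : Odd (orderOf x)) (c : Commute x (x * f * x⁻¹ * f⁻¹)) (p : PiElt {2} (x * f * x⁻¹ * f⁻¹)) :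
    Commute x f := by
  have e : ∀ n : ℕ, x ^ n * f * (x ^ n)⁻¹ = (x * f * x⁻¹ * f⁻¹) ^ n * f := fun n => by
    induction n with
    | zero => simp
    | succ n ih =>
      rw [show x ^ (n + 1) * f * (x ^ (n + 1))⁻¹ = x * (x ^ n * f * (x ^ n)⁻¹) * x⁻¹ by rw [pow_succ']; group, ih,
        ← mul_assoc, (c.pow_right n).eq, pow_succ]; group
  have := e (orderOf x)
  rw [pow_orderOf_eq_one, one_mul, inv_one, mul_one, right_eq_mul] at this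
  exact comm_iff_c.2 (p.eq_one (odd_elt.2 (o.of_dvd_nat (orderOf_dvd_of_pow_eq_one this))))

theorem mem_of_odd_mul {K : Subgroup G} (o : Odd (orderOf x)) (hy : y ∈ K) (c : Commute y (y⁻¹ * x)) (p : PiElt {2} (y⁻¹ * x)) :
    x ∈ K := by
  have e : x ^ orderOf (y⁻¹ * x) ∈ K := by
    nth_rw 1 [← mul_inv_cancel_left y x]
    rw [c.mul_pow, pow_orderOf_eq_one, mul_one]; exact pow_mem hy _
  exact zpowers_le.2 e (mem_zpowers_pow_iff.2 (p.coprime (odd_elt.2 o)))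

theorem Qm.lift_qt {Q : Type*} [Group Q] [Finite Q] {ψ : G → Q} {H X : Subgroup G} {N : Subgroup Q} {θ : Q → Pm}
    (q : Qm H X ψ) (p : PiGrp {2} X) (oc : ∀ x ∈ H, Odd (orderOf x) → x ∈ 𝐂 X) (h : QT N θ) :
    ∃ N1 θ1, QT N1 θ1 ∧ N1 ≤ H ∧ (∀ x ∈ N1, ψ x ∈ N) ∧ ∀ y ∈ H, ψ y ∈ 𝐂 N → y ∈ 𝐂 N1 := by
  let N1 := closure {x | x ∈ H ∧ ψ x ∈ N ∧ Odd (orderOf x)}
  have k := clo_pre q.hom (T := N) (s := {x | x ∈ H ∧ ψ x ∈ N ∧ Odd (orderOf x)}) fun x hx => ⟨hx.1, hx.2.1⟩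
  have l : N1 ≤ H := fun x hx => (k x hx).1
  have c : N1 ≤ 𝐂 X := (closure_le _).2 fun x hx => oc x hx.1 hx.2.2
  have su : N ≤ q.hom.im N1 l := h.odg.trans ((closure_le _).2 fun y hy => by
    obtain ⟨g, hg, rfl⟩ := q.sur y
    obtain ⟨x, h1, h2, h3⟩ := odd_lift q.hom hg hy.2
    exact q.hom.mem_im.2 ⟨x, subset_closure ⟨zpowers_le.2 hg h1, h3 ▸ hy.1, h2⟩, h3⟩)
  have pf : N1 ≤ ⁅N1, N1⁆ := (closure_le _).2 fun x hx => by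
    obtain ⟨y, hy, e⟩ := q.hom.mem_im.1 ((im_comm q.hom l l ((der_le _).trans l)).ge (der_mono su (h.pf hx.2.1)))
    have m := (q.div (l (der_le _ hy)) hx.1).1 e
    exact mem_of_odd_mul hx.2.2 hy (cen_comm (c (der_le _ hy)) m).symm (p.elt m)
  have cc : ∀ y ∈ H, ψ y ∈ 𝐂 N → y ∈ 𝐂 N1 := fun y hy a => cc_sol pf p.sol (cent_symm c) fun x hx =>
    (q.comm (l hx) hy).1 (cen_comm a (k x hx).2)
  obtain ⟨θ1, t, -⟩ := QT.of (L := N1) (π := fun x => θ (ψ x)) (hom_comp (q.hom.mono l) h.hl fun x hx => (k x hx).2)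
    (fun x hx => h.im _ (k x hx).2) (fun m hm => by
      obtain ⟨y, hy, rfl⟩ := h.sur m hm
      obtain ⟨x, hx, rfl⟩ := q.hom.mem_im.1 (su hy)
      exact ⟨x, hx, rfl⟩) (fun x hx e => cc x (l hx) (h.k2 (h.ln (k x hx).2) e)) pf
  exact ⟨N1, θ1, t, l, fun x hx => (k x hx).2, cc⟩
end

theorem IP.sec (k : ∀ {G : Type u} [Group G] [Finite G] {s : G} {θ : G → Pm}, HI s θ →
      𝐂₁ s ⊓ 𝐂 (OL s) ≤ zpowers s → ¬ H0 s → ∃ N θ', QT N θ' ∧ cj s N ≤ 𝐂 N)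
    {G : Type u} [Group G] [Finite G] {f g : G} {θ : G → Pm} (h : IP f θ g) :
    ∃ N θ', QT N θ' ∧ cj f N ≤ 𝐂 N := by
  obtain ⟨z, z1, z2, z3, z4⟩ := h.zh
  obtain ⟨z4, z5⟩ := z4 g h
  obtain ⟨θ0, p, eθ⟩ := h.toHI.cj' g
  have c := h.cm
  have tz := h.tz
  have cc := h.cc
  have tz' := h.tz'
  simp only [eθ] at cc tz' z5
  generalize g * f * g⁻¹ = d at *
  have nd := OL_nr c.symm
  have nf := OL_nr c
  have w2 : f * d * z * (f * d * z) = 1 :=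
    sq_mul (sq_mul h.iv.sq p.iv.sq c) z3 ((OL_comm z1).symm.mul_left (OL_comm z4).symm)
  obtain ⟨X, -, ⟨x1, x2, x3, x4⟩, mx⟩ := exists_maximal (P := fun X => PiGrp {2} X ∧ X ≤ 𝐂 (OL f) ⊓ 𝐂 (OL d) ∧ f ∈ 𝐍 X ∧
    f * d * z ∈ X) (H := zpowers (f * d * z)) ⟨piGrp_zpowers.2 (pi2_of_sq w2), zpowers_le.2 ⟨by
      rw [mul_assoc]; exact mul_mem (OL_cen f) (h.k2 (mul_mem nd (h.ln z1)) (by rw [h.hom _ nd _ (h.ln z1), tz, z2, pZ_iv.sq])),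
      p.k2 (mul_mem (mul_mem nf (OL_nr rfl)) (p.ln z4)) (by
        rw [p.hom _ (mul_mem nf (OL_nr rfl)) _ (p.ln z4), p.mulc nf (OL_cen d), tz', z5, pZ_iv.sq])⟩,
      cent_le_norm _ ((cent_zpowers _).ge (c1_of (((Commute.refl f).mul_right c).mul_right (OL_comm z1).symm))),
      mem_zpowers _⟩
  have Lf : OL f ≤ 𝐂 X := cent_symm (x2.trans inf_le_left)
  have Ld : OL d ≤ 𝐂 X := cent_symm (x2.trans inf_le_right)
  have nX : X ⊔ zpowers f ≤ 𝐍 X := sup_le (le_norm_self X) (zpowers_le.2 x3)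
  have n : X ⊴ 𝐂 X ⊔ (X ⊔ zpowers f) := ⟨le_sup_left.trans le_sup_right, sup_le (cent_le_norm X) nX⟩
  have fH : f ∈ 𝐂 X ⊔ (X ⊔ zpowers f) := mem_sup_right (mem_sup_right (mem_zpowers f))
  have oc : ∀ x ∈ 𝐂 X ⊔ (X ⊔ zpowers f), Odd (orderOf x) → x ∈ 𝐂 X := fun x hx o =>
    (odd_elt.2 o).mem_of_relIndex hx (norm_cent n.norm) (by
      rw [relIndex_sup_norm' (.inl (norm_cent nX))]
      exact ((x1.sup (ZD.iv_pi h.iv) (.inr (zpowers_le.2 x3))).dvd (relIndex_dvd_card _ _)).compl_compl)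
  have cH : 𝐂 X ≤ 𝐂 X ⊔ (X ⊔ zpowers f) := le_sup_left
  generalize 𝐂 X ⊔ (X ⊔ zpowers f) = H at *
  obtain ⟨Q, _, _, ψ, q⟩ := exists_qm n
  have fK : f ∉ 𝐂 (OL d) := fun a => pZ_iv.ne (tz' ▸ p.k1 a)
  obtain ⟨θ', r, e, -⟩ := h.map q.hom fH (Lf.trans cH) (fun a => fK (x2 ((q.ker f fH).1 a)).2)
    (fun x hx a => (x2 ((q.ker x (cH (Lf hx))).1 a)).1) fun y a o => by
      obtain ⟨y, hy, rfl⟩ := q.sur y
      obtain ⟨x, h1, h2, h3⟩ := odd_lift q.hom hy o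
      have hx := zpowers_le.2 hy h1
      have m := (q.comm hx fH).1 (h3 ▸ a)
      exact ⟨x, mem_OL (odd_chain h2 (cen_comm (oc x hx h2) m).symm (x1.elt m)) h2, h3⟩
  have dH : d ∈ H ∧ ψ d = ψ f * ψ z := by
    have a : d = f * (f * d * z) * z := by rw [← mul_assoc, ← mul_assoc, h.iv.sq, one_mul, mul_assoc, z3, mul_one]
    have b := mul_mem fH (q.le x4)
    exact ⟨a ▸ mul_mem b (cH (Lf z1)), by rw [a, q.hom _ b _ (cH (Lf z1)), q.hom _ fH _ (q.le x4), q.k1 x4, mul_one]⟩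
  have k1 : ∀ y ∈ q.hom.pre (𝐂₁ (ψ f) ⊓ 𝐂 (OL (ψ f))), y ∈ 𝐂 (OL f) := fun y hy => cc_sol h.pf x1.sol (cent_symm Lf)
    fun x hx => (q.comm (cH (Lf hx)) (pre_le _ _ hy)).1 (cen_comm (q.hom.mem_pre.1 hy).2.2 (im_OL q.hom fH (Lf.trans cH) hx))
  have eX := mx (q.hom.pre (𝐂₁ (ψ f) ⊓ 𝐂 (OL (ψ f))) ⊓ 𝐂 (OL d)) ⟨by
      refine PiGrp.inf_left ?_
      rw [PiGrp, q.hom.card_eq (pre_le _ _) (Z := X) fun g => ⟨fun a => ⟨q.hom.mem_pre.2 ⟨q.le a, q.k1 a ▸ one_mem _⟩, q.k1 a⟩,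
        fun a => (q.ker g (pre_le _ _ a.1)).1 a.2⟩]
      refine PiNat.mul (r.vg.le fun y hy => ?_) x1
      obtain ⟨x, hx, rfl⟩ := q.hom.mem_im.1 hy
      exact (q.hom.mem_pre.1 hx).2, fun y hy => ⟨k1 y hy.1, hy.2⟩,
    norm_inf (zpowers_le.2 (pre_norm q.hom fH (le_norm_self _ (mem_inf.2 ⟨self_mem_cent1 _, OL_cen _⟩))))
      (norm_cent (zpowers_le.2 nf)) (mem_zpowers f), q.hom.mem_pre.2 ⟨q.le x4, q.k1 x4 ▸ one_mem _⟩, (x2 x4).2⟩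
    fun y hy => ⟨q.hom.mem_pre.2 ⟨q.le hy, q.k1 hy ▸ one_mem _⟩, (x2 hy).2⟩
  have v : 𝐂₁ (ψ f) ⊓ 𝐂 (OL (ψ f)) ≤ zpowers (ψ f) := fun y hy => by
    obtain ⟨y, hH, rfl⟩ := q.sur y
    have m := q.hom.mem_pre.2 ⟨hH, hy⟩
    have a := (q.comm hH dH.1).1 (dH.2 ▸ (c1_comm hy.1).mul_right (cen_comm hy.2 (im_OL q.hom fH (Lf.trans cH) z1)).symm)
    have ny : y ∈ 𝐍 (OL d) := mem_norm_of_cj_le (cj_le_iff.2 (OL_ind fun o co oo => mem_cj_inv.2 (mem_OL (by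
      simpa [mul_assoc] using (cen_comm (cen_cj (n.norm hH) (Ld (mem_OL co oo))) (inv_mem a)).symm.mul_right (comm_cj co y)) (odd_cj oo y))))
    rcases cc y ny fun x hx _ => cen_comm (k1 y m) hx with b | b
    · exact q.k1 (eX.le ⟨m, p.k2 ny b⟩) ▸ one_mem _
    · have := q.k1 (eX.le ⟨mul_mem m (q.hom.mem_pre.2 ⟨fH, self_mem_cent1 _, OL_cen _⟩),
        p.k2 (mul_mem ny nf) (by rw [p.hom _ ny _ nf, b, tz', pZ_iv.sq])⟩)
      rw [q.hom _ hH _ fH] at this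
      exact eq_inv_of_mul_eq_one_left this ▸ inv_mem (mem_zpowers _)
  obtain ⟨N, θ1, a1, a2⟩ := k r v fun h0 => by
    obtain ⟨m, hm, t⟩ := clsM m34 i34
    obtain ⟨l, hl, rfl⟩ := p.sur m hm
    have lH := cH (Ld hl)
    have c1 := p.cm2 nf h.iv.sq hl (by rw [tz', t]; exact weq [7, 9] [9, 7])
    have m := mul_mem (mul_mem lH fH) (inv_mem lH)
    have c2 := hom_comm q.hom fH m c1
    have t' := (p.hom.conj (p.ln hl) nf).trans (tz' ▸ t)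
    rw [q.hom.conj lH fH] at c2
    rcases sq_zp r.iv.sq (v ⟨c1_of c2.symm, h0 _ c2⟩) with b | b <;> rw [← q.hom.conj lH fH] at b
    · exact i34.ne (t' ▸ p.k1 (x2 ((q.ker _ m).1 b)).2)
    · have := p.k1 (x2 ((q.div m fH).1 b)).2
      have nm := mul_mem (mul_mem (p.ln hl) nf) (inv_mem (p.ln hl))
      rw [p.hom _ (inv_mem nm) _ nf, p.hom.inv nm, t', tz', inv_mul_eq_one] at this
      exact absurd this (wne [9] [7])
  obtain ⟨N1, θ2, b1, b2, b3, b4⟩ := q.lift_qt x1 oc a1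
  refine ⟨N1, θ2, b1, fun y hy => ?_⟩
  obtain ⟨y, hy', rfl⟩ := mem_cj_iff.1 hy
  exact b4 _ (mul_mem (mul_mem fH (b2 hy')) (inv_mem fH)) (q.hom.conj fH (b2 hy') ▸ a2 (conj_mem_cj.2 (b3 y hy')))

end CF.Tr
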