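import Cfsg.Agent.Tr.AB
import Cfsg.Agent.Tr.P

/-! The halves of the involutions of `OL s`. -/

set_option autoImplicit false
set_option maxRecDepth 1000000
set_option linter.unusedSectionVars false

namespace CF.Tr
open Cfsg Subgroup CF.BG CF.Bender CF.J4 CF.Comp CF.Dce CF.Comp.Mat CF.Dce.J4
open scoped commutatorElement

theorem E_fix (p q : List ℕ) (l : List (List ℕ)) (h : ∀ w ∈ [[], [7], [9], [7, 9], [11], [7, 11], [9, 11], [7, 9, 11], [13],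
    [7, 13], [9, 13], [7, 9, 13], [11, 13], [7, 11, 13], [9, 11, 13], [7, 9, 11, 13]],
      Bt.difW nN 24 5 (w ++ p) (p ++ w) = true ∨ Bt.difW nN 24 5 (w ++ q) (q ++ w) = true ∨
        ∃ u ∈ l, sameW nN 24 5 w u = true) :
    ∀ a ∈ EE, Commute a (ev φ p) → Commute a (ev φ q) → ∃ u ∈ l, a = ev φ u := E_all fun w hw c c' => by
  rcases h w hw with k | k | ⟨u, hu, k⟩
  · exact absurd (by rw [ev_append, ev_append, c.eq]) (neN k)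
  · exact absurd (by rw [ev_append, ev_append, c'.eq]) (neN k)
  · exact ⟨u, hu, eqN k⟩

theorem Ef1 {a : Pm} (h : a ∈ EE) (c : Commute a v1) : a = 1 ∨ a = pZ ∨ a = e34 ∨ a = pZ * e34 := by
  simpa [evl] using E_fix [15] [15] [[], [7], [9], [7, 9]] (by decide +kernel) a h (by simpa [evl]) (by simpa [evl])

theorem Ef2 {a : Pm} (h : a ∈ EE) (c : Commute a v1) (c' : Commute a v2) : a = 1 ∨ a = pZ := by
  simpa [evl] using E_fix [15] [17] [[], [7]] (by decide +kernel) a h (by simpa [evl]) (by simpa [evl])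

theorem Ef3 {a : Pm} (h : a ∈ EE) (c : Commute a ro) (c' : Commute a (v1 * ro * v1⁻¹)) : a = 1 ∨ a = pZ := by
  simpa [evl] using E_fix [23] [15, 23, 16] [[], [7]] (by decide +kernel) a h (by simpa [evl])
    (by simpa only [ev_cons, ev_nil, evl, mul_one, mul_assoc] using c')

theorem Ef4 {a : Pm} (h : a ∈ EE) (c : Commute a ro) (c' : Commute a pH) : a = 1 ∨ a = pZ * e13 := by
  simpa [evl] using E_fix [23] [29] [[], [7, 13]] (by decide +kernel) a h (by simpa [evl]) (by simpa [evl])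

theorem Ef5 {a : Pm} (h : a ∈ EE) (c : Commute a ta) : a = 1 := by
  simpa [evl] using E_fix [27] [27] [[]] (by decide +kernel) a h (by simpa [evl]) (by simpa [evl])

theorem Ef6 {a : Pm} (h : a ∈ EE) (c : Commute a ro) (c' : Commute a ro2) : a = 1 := by
  simpa [evl] using E_fix [23] [25] [[]] (by decide +kernel) a h (by simpa [evl]) (by simpa [evl])

universe u
variable {G : Type u} [Group G] [Finite G] {θ : G → Pm} {σ : Pm → G} {s g x y : G} {W J L : Subgroup G} {a b : Pm}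

/-- the inverse isomorphism -/
structure Sc (L : Subgroup G) (θ : G → Pm) (σ : Pm → G) : Prop where
  hom : HomOn MM σ
  mem : ∀ {m}, m ∈ MM → σ m ∈ L
  l : ∀ {m}, m ∈ MM → θ (σ m) = m
  r : ∀ {x}, x ∈ L → σ (θ x) = x

theorem QT.sc (h : QT L θ) (inj : ∀ x ∈ L, θ x = 1 → x = 1) : ∃ σ, Sc L θ σ := by
  choose! σ s1 s2 using h.sur
  have e : ∀ x ∈ L, ∀ y ∈ L, θ x = θ y → x = y := fun x hx y hy k =>
    inv_mul_eq_one.1 (inj _ (mul_mem (inv_mem hx) hy) (hom_div h.hl hx hy k))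
  exact ⟨σ, fun a ha b hb => e _ (s1 _ (mul_mem ha hb)) _ (mul_mem (s1 a ha) (s1 b hb))
    (by rw [h.hl _ (s1 a ha) _ (s1 b hb), s2 _ (mul_mem ha hb), s2 a ha, s2 b hb]), s1 _, s2 _,
    fun hx => e _ (s1 _ (h.im _ hx)) _ hx (s2 _ (h.im _ hx))⟩

theorem Sc.cm (h : Sc L θ σ) (ha : a ∈ MM) (hb : b ∈ MM) (c : Commute a b) : Commute (σ a) (σ b) := hom_comm h.hom ha hb c

theorem Sc.cj (h : Sc L θ σ) (ha : a ∈ MM) (hb : b ∈ MM) {c : Pm} (e : a * b * a⁻¹ = c) : σ a * σ b * (σ a)⁻¹ = σ c := by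
  rw [← h.hom.conj ha hb, e]

theorem Sc.iv (h : Sc L θ σ) (ha : a ∈ MM) (i : Iv a) : Iv (σ a) :=
  ⟨fun e => i.ne (by rw [← h.l ha, e, ← h.hom.one, h.l (one_mem _)]), hom_sq h.hom ha i.sq⟩

theorem Sc.inj (h : Sc L θ σ) (ha : a ∈ MM) (hb : b ∈ MM) (e : σ a = σ b) : a = b := by rw [← h.l ha, e, h.l hb]

namespace L
/-- the data before the construction of the halves -/
structure B0 (s : G) (θ : G → Pm) (σ : Pm → G) (W J : Subgroup G) : Prop extends HI s θ where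
  sc : Sc (OL s) θ σ
  mW : ∀ x, x ∈ W ↔ x ∈ OL s ∧ θ x ∈ EE
  jf : Jf (W ⊔ zpowers s) W J s

theorem ex (h : IP s θ g) (v : 𝐂₁ s ⊓ 𝐂 (OL s) ≤ zpowers s) (n : s ∉ OL s) :
    (∀ x ∈ OL s, ¬ IsConj s x) ∧ ∃ σ W J, B0 s θ σ W J := by
  have inj : ∀ x ∈ OL s, θ x = 1 → x = 1 := fun x hx e =>
    (sq_zp h.iv.sq (v ⟨OL_le s hx, h.k2 (h.ln hx) e⟩)).resolve_right fun k => n (k ▸ hx)
  obtain ⟨σ, sc⟩ := h.sc inj
  obtain ⟨z, z1, z2, -, z4⟩ := h.dz v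
  obtain rfl : σ pZ = z := z2 ▸ sc.r z1
  have nD : ∀ x ∈ OL s, ¬ IsConj s x := fun x hx k => by
    obtain ⟨m, hm, e⟩ := clsM (h.im x hx) ⟨fun e => (ZD.cl_iv h.iv k).ne (inj x hx e), hom_sq h.hl hx (ZD.cl_iv h.iv k).sq⟩
    have := z4 _ (k.trans (by
      rw [← sc.r hx, ← sc.cj hm pZ_MM e]; exact (isConj_cj' _ _).symm)) (OL_comm z1).symm z2
    exact h.iv.ne (by simpa using this.symm)
  refine ⟨nD, σ, h.hl.pre EE, ?_⟩
  generalize hW : h.hl.pre EE = W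
  have mW : ∀ x, x ∈ W ↔ x ∈ OL s ∧ θ x ∈ EE := fun x => hW ▸ h.hl.mem_pre
  have sW : ∀ {a}, a ∈ EE → σ a ∈ W := fun ha => (mW _).2 ⟨sc.mem (E_le ha), by rwa [sc.l (E_le ha)]⟩
  have nW : ∀ {m}, m ∈ MM → m ∈ 𝐍 EE → σ m ∈ 𝐂₁ s ⊓ 𝐍 W := fun hm k =>
    ⟨OL_le s (sc.mem hm), hW ▸ pre_norm h.hl (sc.mem hm) (by rwa [sc.l hm])⟩
  have sqW : ∀ x ∈ W, x * x = 1 := fun x hx => h.li ((mW x).1 hx).1 (E_sq ((mW x).1 hx).2)
  have cs : ∀ x ∈ W, Commute x s := fun x hx => OL_comm ((mW x).1 hx).1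
  have sN : s ∈ 𝐍 W := cent_le_norm W (cen_of cs)
  have mV : ∀ x, x ∈ W ⊔ zpowers s ↔ x ∈ W ∨ x * s ∈ W := fun x => mem_sup_zp h.iv.sq sN
  have mV' : ∀ x, x ∈ W ⊔ zpowers s ↔ Commute x s ∧ θ x ∈ EE := fun x => by
    refine ⟨fun k => ((mV x).1 k).elim (fun k => ⟨cs x k, ((mW x).1 k).2⟩) fun k => ?_, fun k => (mV x).2 ?_⟩
    · have c : Commute x s := by simpa using (cs _ k).mul_left (Commute.refl s).inv_left
      exact ⟨c, h.mulc (OL_nr c) (OL_cen s) ▸ ((mW _).1 k).2⟩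
    · have m := sW k.2
      rcases sq_zp h.iv.sq (v ⟨c1_of ((cs _ m).inv_left.mul_left k.1),
        h.div (h.ln ((mW _).1 m).1) (OL_nr k.1) (sc.l (E_le k.2))⟩) with t | t
      · exact .inl (inv_mul_eq_one.1 t ▸ m)
      · exact .inr (by rwa [eq_mul_of_inv_mul_eq t, mul_assoc, h.iv.sq, mul_one])
  have sV : s ∈ W ⊔ zpowers s := mem_sup_right (mem_zpowers s)
  have sqV : ∀ x ∈ W ⊔ zpowers s, x * x = 1 := fun x hx => ((mV x).1 hx).elim (sqW x) fun k => by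
    simpa [mul_assoc, h.iv.sq] using sq_mul (sqW _ k) h.iv.sq (cs _ k)
  have ed := z4 _ (isConj_cj' s g) h.cm h.tz
  have gN : g ∈ 𝐍 (W ⊔ zpowers s : Subgroup G) := by
    refine inv_mem_iff.1 (mem_norm_of_cj_le (cj_le_iff.2 (sup_le (fun x hx => mem_cj.2 ((mV' _).2 ⟨?_, ?_⟩))
      (zpowers_le.2 (mem_cj.2 ((mV' _).2 ⟨?_, ?_⟩)))))) <;> simp only [inv_inv]
    · simpa [mul_assoc] using comm_cj' (show Commute x (g * s * g⁻¹) from ed ▸ (cs x hx).mul_right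
        ((abel_of_sq sqW).mul_comm hx (sW mem_E.1))) g
    · exact h.ee x ((mW x).1 hx).1 ((mW x).1 hx).2
    · simpa [mul_assoc] using comm_cj' h.cm g
    · exact h.tz' ▸ mem_E.1
  have nV : ∀ {k}, k ∈ 𝐂₁ s ⊓ 𝐍 W → k ∈ 𝐍 (W ⊔ zpowers s : Subgroup G) := fun hk =>
    norm_sup (zpowers_le.2 hk.2) (zpowers_le.2 (cent_le_norm _ ((cent_zpowers s).ge hk.1))) (mem_zpowers _)
  have tr : ∀ w ∈ W, ∃ k ∈ 𝐍 (W ⊔ zpowers s : Subgroup G), k * s * k⁻¹ = s * w := fun w hw => by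
    by_cases e : θ w = 1
    · exact ⟨1, one_mem _, by simp [inj w ((mW w).1 hw).1 e]⟩
    obtain ⟨m, hm, k, t⟩ := E_tr ((mW w).1 hw).2 e
    refine ⟨σ m * g, mul_mem (nV (nW hm k)) gN, ?_⟩
    rw [show σ m * g * s * (σ m * g)⁻¹ = σ m * (g * s * g⁻¹) * (σ m)⁻¹ by group, ed, ← mul_assoc, (OL_comm (sc.mem hm)).eq,
      mul_assoc s, mul_assoc s, sc.cj hm pZ_MM t, sc.r ((mW w).1 hw).1]
  have NW : 𝐍 (W ⊔ zpowers s : Subgroup G) ≤ 𝐍 W := le_norm_iff.2 fun k hk w hw =>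
    ((mV _).1 (conj_mem_of_norm hk (mem_sup_left hw))).resolve_right fun t => by
      obtain ⟨j, -, e⟩ := tr _ t
      rw [← (cs _ t).eq, mul_assoc _ s s, h.iv.sq, mul_one] at e
      exact nD w ((mW w).1 hw).1 ((e ▸ isConj_cj' s j).trans (isConj_cj' w k).symm)
  have sW' : s ∉ W := fun k => n ((mW s).1 k).1
  have dec : ∀ x ∈ W ⊔ zpowers s, x ∈ W ∨ s * x ∈ W := fun x hx => ((mV x).1 hx).imp_right fun k => ((mV' x).1 hx).1.eq ▸ k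
  have N1 := nW mv1 (E_N (by decide))
  have N2 := nW mv2 (E_N (by decide))
  have cθ : ∀ {w m}, w ∈ W → m ∈ MM → Commute (σ m) w → Commute (θ w) m := fun hw hm c =>
    (sc.l hm ▸ hom_comm h.hl (sc.mem hm) ((mW _).1 hw).1 c).symm
  have af : Af (W ⊔ zpowers s) W s := ⟨le_sup_left, sV, sW', sqV, dec, fun x hx => by
      have c := cen_comm hx sV
      refine (mV' x).2 ⟨c.symm, E_cen (h.mem x (OL_nr c.symm)) (cen_of fun a ha => ?_)⟩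
      exact sc.l (E_le ha) ▸ hom_comm h.hom (h.ln (sc.mem (E_le ha))) (OL_nr c.symm) (cen_comm hx (mem_sup_left (sW ha))),
    fun w hw => by
      obtain ⟨k, -, k1, k2⟩ := tl (Z := ⊥) (T := zpowers (σ v1) ⊔ zpowers (σ v2)) (w₀ := σ pZ) bot_le le_sup_left
        (le_norm_self _) le_rfl (by simp) NW sqV sV sW' (fun w hw => (tr w hw).imp fun k t => ⟨t.1, by simp [t.2]⟩)
        (sup_le (zpowers_le.2 (nV N1)) (zpowers_le.2 (nV N2)))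
        (((ZD.iv_pi (sc.iv mv1 iv1)).sup (ZD.iv_pi (sc.iv mv2 iv2)) (.inl (norm_of_cent (zpowers_le.2
          ((cent_zpowers _).ge (c1_of (sc.cm mv1 mv2 (weq [15, 17] [17, 15])))))))).isPGroup)
        (fun k hk => comm_iff_c.1 (c1_comm ((sup_le (zpowers_le.2 N1.1) (zpowers_le.2 N2.1) : _ ≤ 𝐂₁ s) hk)))
        (fun w hw a => (Ef2 ((mW w).1 hw).2 (cθ hw mv1 (comm_iff_c.2 (a _ (mem_sup_left (mem_zpowers _)))))
          (cθ hw mv2 (comm_iff_c.2 (a _ (mem_sup_right (mem_zpowers _)))))).imp (inj w ((mW w).1 hw).1) fun t => by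
            rw [← t, sc.r ((mW w).1 hw).1, mul_inv_cancel]; exact one_mem _) (sW mem_E.1)
        (fun w hw => mem_sup_right (by
          by_cases e : θ w = 1
          · exact inj w ((mW w).1 hw).1 e ▸ one_mem _
          obtain ⟨m, hm, k, t⟩ := E_tr ((mW w).1 hw).2 e
          exact subset_closure ⟨σ m, nV (nW hm k), by rw [sc.cj hm pZ_MM t, sc.r ((mW w).1 hw).1]⟩)) dec w hw
      exact ⟨k, cen_of fun x hx => (comm_iff_c.2 (k2 x hx)).symm, mul_inv_eq_one.1 k1⟩⟩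
  have Nr := nW mro (E_N (by decide))
  have Nh := nW mpH (E_N (by decide))
  have or := hom_odd sc.hom mro ro_odd
  obtain ⟨J, jf⟩ := af.jf (w₁ := σ pZ) (w₂ := σ e13) (sW mem_E.1) (sc.iv pZ_MM pZ_iv).ne
    (fun e => absurd (sc.inj m13 pZ_MM e) (wne [13] [7])) ⟨_, Nh, sc.cj mpH pZ_MM (weq [29, 7, 30] [13])⟩
    (fun w hw a => (Ef3 ((mW w).1 hw).2 (cθ hw mro (comm_of_sq or (a _ Nr (sc.cm mro pZ_MM ro_z))))
      (cθ hw (MM_cj (MM_le mv1) mro) (sc.cj mv1 mro rfl ▸ comm_of_sq (odd_cj or _) (a _ (mul_mem (mul_mem N1 Nr) (inv_mem N1))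
        (sc.cj mv1 mro rfl ▸ sc.cm (MM_cj (MM_le mv1) mro) pZ_MM (weq [15, 23, 16, 7] [7, 15, 23, 16])))))).imp
      (inj w ((mW w).1 hw).1) fun t => by rw [← t, sc.r ((mW w).1 hw).1])
    (fun w hw a => (Ef4 ((mW w).1 hw).2 (cθ hw mro (a _ Nr (.inl ⟨sc.cj mro pZ_MM (weq [23, 7, 24] [7]),
      sc.cj mro m13 (weq [23, 13, 24] [13])⟩))) (cθ hw mpH (a _ Nh (.inr ⟨sc.cj mpH pZ_MM (weq [29, 7, 30] [13]),
      sc.cj mpH m13 (weq [29, 13, 30] [7])⟩)))).imp (inj w ((mW w).1 hw).1) fun t => by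
        rw [← sc.hom _ pZ_MM _ m13, ← t, sc.r ((mW w).1 hw).1])
    fun w hw => sc.r ((mW w).1 hw).1 ▸ (clo_pre sc.hom (by
      rintro _ (rfl | ⟨o, ho, -, c, rfl⟩)
      · exact ⟨pZ_MM, subset_closure (.inl rfl)⟩
      · exact ⟨MM_cj (MM_le ho) m13, subset_closure (.inr ⟨σ o, nW ho (E_nz (MM_le ho) c), sc.cm ho pZ_MM c,
          sc.hom.conj ho m13⟩)⟩) _ (E_gen ((mW w).1 hw).2)).2
  exact ⟨J, h.toHI, sc, mW, jf⟩

namespace B0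
variable (h : B0 s θ σ W J)
include h

theorem sW (ha : a ∈ EE) : σ a ∈ W := (h.mW _).2 ⟨h.sc.mem (E_le ha), by rwa [h.sc.l (E_le ha)]⟩

theorem ex (hx : x ∈ W) : ∃ a ∈ EE, x = σ a := ⟨_, ((h.mW x).1 hx).2, (h.sc.r ((h.mW x).1 hx).1).symm⟩

theorem nJ (ha : a ∈ MM) (n : a ∈ 𝐍 EE) : σ a ∈ 𝐍 J := h.jf.nor ⟨OL_le s (h.sc.mem ha), by
  rw [show W = h.hl.pre EE from Subgroup.ext fun x => (h.mW x).trans h.hl.mem_pre.symm]
  exact pre_norm h.hl (h.sc.mem ha) (by rwa [h.sc.l ha])⟩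

theorem dcj (ha : a ∈ MM) : dl s (σ a * x * (σ a)⁻¹) = σ a * dl s x * (σ a)⁻¹ := h.jf.dcj (OL_le s (h.sc.mem ha))

theorem cm (ha : a ∈ MM) (hb : b ∈ MM) (c : Commute (σ a) (σ b)) : Commute a b :=
  h.sc.l ha ▸ h.sc.l hb ▸ hom_comm h.hl (h.sc.mem ha) (h.sc.mem hb) c

theorem div (hx : x ∈ J) (hy : y ∈ J) (e : dl s x = dl s y) : ∃ a ∈ EE, y = x * σ a := by
  obtain ⟨a, ha, t⟩ := h.ex (h.jf.cf (mul_mem (inv_mem hx) hy) (h.jf.d0.1 (hom_div h.jf.toAf.hd (h.jf.JR hx) (h.jf.JR hy) e)))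
  exact ⟨a, ha, by rw [← t]; simp⟩

theorem mv (hx : x ∈ J) (e : dl s x = σ pZ) (ha : a ∈ MM) (c : Commute a pZ) : ∃ b ∈ EE, σ a * x * (σ a)⁻¹ = x * σ b :=
  h.div hx (conj_mem_of_norm (h.nJ ha (E_nz (MM_le ha) c)) hx) (by rw [h.dcj ha, e, h.sc.cj ha pZ_MM (comm_iff_cj.1 c)])

theorem fx (ha : a ∈ MM) (hb : b ∈ EE) (c : Commute (σ a) x) (c' : Commute (σ a) (x * σ b)) : Commute b a :=
  (h.cm ha (E_le hb) (by simpa using c.inv_right.mul_right c')).symm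

theorem adj (hx : x ∈ J) (e : dl s x = σ pZ) (ha : a ∈ MM) (hb : b ∈ EE) {u : Pm} (hu : u ∈ EE)
    (t : σ a * x * (σ a)⁻¹ = x * σ b) (k : b * (a * u * a⁻¹) = u) : x * σ u ∈ J ∧ dl s (x * σ u) = σ pZ ∧ Commute (σ a) (x * σ u) :=
  have m := h.jf.VR (h.jf.le (h.sW hu))
  ⟨mul_mem hx (h.jf.WJ (h.sW hu)), by rw [h.jf.toAf.hd _ (h.jf.JR hx) _ m.1, m.2, e, mul_one], comm_iff_cj.2 (by
    rw [show σ a * (x * σ u) * (σ a)⁻¹ = σ a * x * (σ a)⁻¹ * (σ a * σ u * (σ a)⁻¹) by group, t, h.sc.cj ha (E_le hu) rfl,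
      mul_assoc, ← h.sc.hom _ (E_le hb) _ (MM_cj (MM_le ha) (E_le hu)), k])⟩

theorem tw (ha : a ∈ MM) (i : Iv a) (hb : b ∈ EE) (t : σ a * x * (σ a)⁻¹ = x * σ b) : Commute b a := by
  have := congrArg (fun y => σ a * y * (σ a)⁻¹) t
  rw [show σ a * (σ a * x * (σ a)⁻¹) * (σ a)⁻¹ = σ a * σ a * x * (σ a * σ a)⁻¹ by group, (h.sc.iv ha i).sq,
    show σ a * (x * σ b) * (σ a)⁻¹ = σ a * x * (σ a)⁻¹ * (σ a * σ b * (σ a)⁻¹) by group, t, one_mul, inv_one, mul_one, mul_assoc,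
    left_eq_mul] at this
  refine (h.cm ha (E_le hb) (comm_iff_cj.2 ?_)).symm
  rw [eq_inv_of_mul_eq_one_right this, inv_sq (h.jf.sqW (h.sW hb))]

theorem x0 : ∃ x ∈ J, dl s x = σ pZ ∧ ∀ a ∈ MM, Commute a pZ → Commute (σ a) x := by
  have z1 : Commute v1 pZ := weq [15, 7] [7, 15]
  have z2 : Commute v2 pZ := weq [17, 7] [7, 17]
  have z3 : Commute t3 pZ := weq [19, 7] [7, 19]
  obtain ⟨x, hx, e, c1⟩ : ∃ x ∈ J, dl s x = σ pZ ∧ Commute (σ v1) x := by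
    obtain ⟨x, hx, e⟩ := h.jf.sur _ (h.sW mem_E.1)
    obtain ⟨b, hb, t⟩ := h.mv hx e mv1 z1
    rcases Ef1 hb (h.tw mv1 iv1 hb t) with rfl | rfl | rfl | rfl
    · exact ⟨_, h.adj hx e mv1 hb (one_mem _) t (by simp)⟩
    · exact ⟨_, h.adj hx e mv1 hb mem_E.2.2.1 t (weq [7, 15, 11, 16] [11])⟩
    · exact ⟨_, h.adj hx e mv1 hb mem_E.2.2.2 t (weq [9, 15, 13, 16] [13])⟩
    · exact ⟨_, h.adj hx e mv1 hb (mul_mem mem_E.2.2.1 mem_E.2.2.2) t (weq [7, 9, 15, 11, 13, 16] [11, 13])⟩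
  have k : ∀ {x a b u}, a ∈ MM → b ∈ EE → u ∈ MM → σ a * x * (σ a)⁻¹ = x * σ b → Commute (σ u) x →
      Commute (σ (a⁻¹ * u * a)) x → Commute b u := fun {x a b u} ha hb hu t c c' => h.fx hu hb c (by
    rw [h.sc.hom.conj' ha hu] at c'
    rw [← t]; simpa [mul_assoc] using comm_cj c' (σ a))
  obtain ⟨x, hx, e, c1, c2⟩ : ∃ x ∈ J, dl s x = σ pZ ∧ Commute (σ v1) x ∧ Commute (σ v2) x := by
    obtain ⟨b, hb, t⟩ := h.mv hx e mv2 z2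
    rcases Ef2 hb (k mv2 hb mv1 t c1 (by rw [(weq [18, 15, 17] [15] : v2⁻¹ * v1 * v2 = v1)]; exact c1)) (h.tw mv2 iv2 hb t) with rfl | rfl
    · exact ⟨x, hx, e, c1, comm_iff_cj.2 (by rw [t, h.sc.hom.one, mul_one])⟩
    · obtain ⟨a1, a2, a3⟩ := h.adj hx e mv2 hb mem_E.2.1 t (weq [7, 17, 9, 18] [9])
      exact ⟨_, a1, a2, c1.mul_right (h.sc.cm mv1 m34 (weq [15, 9] [9, 15])), a3⟩
  have c12 : Commute (σ (v1 * v2)) x := h.sc.hom _ mv1 _ mv2 ▸ c1.mul_left c2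
  have cr : Commute (σ ro) x := by
    obtain ⟨b, hb, t⟩ := h.mv hx e mro ro_z
    refine comm_of_sq (hom_odd h.sc.hom mro ro_odd) (comm_iff_cj.2 ?_)
    rw [show σ ro * σ ro * x * (σ ro * σ ro)⁻¹ = σ ro * (σ ro * x * (σ ro)⁻¹) * (σ ro)⁻¹ by group, t,
      show σ ro * (x * σ b) * (σ ro)⁻¹ = σ ro * x * (σ ro)⁻¹ * (σ ro * σ b * (σ ro)⁻¹) by group, t, mul_assoc x, mul_eq_left]
    rcases Ef2 hb (k mro hb mv1 t c1 ((weq [24, 15, 23] [15, 17] : ro⁻¹ * v1 * ro = v1 * v2) ▸ c12))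
      (k mro hb mv2 t c2 ((weq [24, 17, 23] [15] : ro⁻¹ * v2 * ro = v1) ▸ c1)) with rfl | rfl
    · simp [h.sc.hom.one]
    · rw [h.sc.cj mro pZ_MM (comm_iff_cj.1 ro_z), (h.sc.iv pZ_MM pZ_iv).sq]
  have ct : Commute (σ t3) x := by
    obtain ⟨b, hb, t⟩ := h.mv hx e mt3 z3
    rcases Ef2 hb (k mt3 hb mv1 t c1 (by rw [(weq [20, 15, 19] [15] : t3⁻¹ * v1 * t3 = v1)]; exact c1))
      (k mt3 hb mv2 t c2 ((weq [20, 17, 19] [15, 17] : t3⁻¹ * v2 * t3 = v1 * v2) ▸ c12)) with rfl | rfl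
    · exact comm_iff_cj.2 (by rw [t, h.sc.hom.one, mul_one])
    exfalso
    have n := h.nJ mta (E_N (by decide))
    have m1 := conj_mem_of_norm n hx
    have m2 := conj_mem_of_norm n m1
    have R := h.jf.JR
    have t3' : σ ta * σ ta * σ ta = 1 := by
      rw [← h.sc.hom _ mta _ mta, ← h.sc.hom _ (mul_mem mta mta) _ mta, ← h.sc.hom.one]; exact congrArg σ (weq [27, 27, 27] [])
    have a1 := h.sc.cj mta pZ_MM (weq [27, 7, 28] [9] : _ = e34)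
    have a2 := h.sc.cj mta m34 (weq [27, 9, 28] [7, 9] : _ = pZ * e34)
    rw [h.sc.hom _ pZ_MM _ m34] at a2
    have w := h.jf.sqW (mul_mem (h.sW mem_E.1) (h.sW mem_E.2.1))
    obtain ⟨p, hp, ep⟩ := h.ex (h.jf.cf (mul_mem (mul_mem hx m1) m2) (h.jf.d0.1 (by
      rw [h.jf.toAf.hd _ (R (mul_mem hx m1)) _ (R m2), h.jf.toAf.hd _ (R hx) _ (R m1), h.dcj mta (x := σ ta * x * (σ ta)⁻¹),
        h.dcj mta, e, a1, a2, w])))
    obtain rfl := Ef5 hp (h.cm mta (E_le hp) (comm_iff_cj.2 (by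
      rw [← ep, show σ ta * (x * (σ ta * x * (σ ta)⁻¹) * (σ ta * (σ ta * x * (σ ta)⁻¹) * (σ ta)⁻¹)) * (σ ta)⁻¹ =
        σ ta * x * (σ ta)⁻¹ * (σ ta * (σ ta * x * (σ ta)⁻¹) * (σ ta)⁻¹) * (σ ta * σ ta * σ ta * x * (σ ta * σ ta * σ ta)⁻¹) by group,
        t3', one_mul, inv_one, mul_one, h.jf.ab.mul_comm (mul_mem m1 m2) hx, mul_assoc x]))).symm
    have b1 := h.sc.cj mta mt3 (weq [27, 19, 28] [15] : _ = v1)
    have b2 := h.sc.cj mta (mul_mem mt3 mv1) (weq [27, 19, 15, 28] [19] : _ = t3)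
    rw [h.sc.hom _ mt3 _ mv1] at b2
    have d1 : σ v1 * (σ ta * x * (σ ta)⁻¹) * (σ v1)⁻¹ = σ ta * x * (σ ta)⁻¹ * σ e34 := by
      rw [← b1, ← a1, show σ ta * x * (σ ta)⁻¹ * (σ ta * σ pZ * (σ ta)⁻¹) = σ ta * (x * σ pZ) * (σ ta)⁻¹ by group, ← t]; group
    have d2 : σ t3 * (σ ta * x * (σ ta)⁻¹) * (σ t3)⁻¹ = σ ta * x * (σ ta)⁻¹ * σ e34 := by
      rw [← a1, show σ ta * x * (σ ta)⁻¹ * (σ ta * σ pZ * (σ ta)⁻¹) = σ ta * (x * σ pZ) * (σ ta)⁻¹ by group, ← t]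
      conv_lhs => rw [← b2]
      conv_rhs => rw [← comm_iff_cj.1 c1]
      group
    have d3 : σ v1 * (σ ta * (σ ta * x * (σ ta)⁻¹) * (σ ta)⁻¹) * (σ v1)⁻¹ =
        σ ta * (σ ta * x * (σ ta)⁻¹) * (σ ta)⁻¹ * (σ pZ * σ e34) := by
      rw [← b1, ← a2, show σ ta * (σ ta * x * (σ ta)⁻¹) * (σ ta)⁻¹ * (σ ta * σ e34 * (σ ta)⁻¹) =
        σ ta * (σ ta * x * (σ ta)⁻¹ * σ e34) * (σ ta)⁻¹ by group, ← d2]; group
    generalize σ ta * x * (σ ta)⁻¹ = y at *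
    generalize σ ta * y * (σ ta)⁻¹ = y' at *
    have := congrArg (fun u => σ v1 * u * (σ v1)⁻¹) ep
    rw [show σ v1 * (x * y * y') * (σ v1)⁻¹ = σ v1 * x * (σ v1)⁻¹ * (σ v1 * y * (σ v1)⁻¹) * (σ v1 * y' * (σ v1)⁻¹) by group,
      comm_iff_cj.1 c1, d1, d3, show x * (y * σ e34) * (y' * (σ pZ * σ e34)) = x * y * (σ e34 * y') * (σ pZ * σ e34) by group,
      (cen_comm (h.jf.cW m2) (h.sW mem_E.2.1)).eq, ← mul_assoc (x * y), ep, h.sc.hom.one, (h.sc.cm pZ_MM m34 (weq [7, 9] [9, 7])).eq]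
      at this
    exact (h.sc.iv pZ_MM pZ_iv).ne (by simpa [mul_assoc, ← mul_assoc (σ e34), (h.sc.iv m34 i34).sq] using this)
  refine ⟨x, hx, e, fun a ha c => c1_comm (clo_pre h.sc.hom (T := 𝐂₁ x) ?_ a (cz_gen ⟨ha, c1_of c⟩)).2⟩
  have kE : ∀ {a}, a ∈ EE → a ∈ MM ∧ σ a ∈ 𝐂₁ x := fun ha => ⟨E_le ha, c1_of (cen_comm (h.jf.cW hx) (h.sW ha))⟩
  rintro _ (rfl | rfl | rfl | rfl | rfl | rfl | rfl | rfl)
  exacts [kE mem_E.1, kE mem_E.2.1, kE mem_E.2.2.1, kE mem_E.2.2.2, ⟨mv1, c1_of c1⟩, ⟨mv2, c1_of c2⟩, ⟨mt3, c1_of ct⟩,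
    ⟨mro, c1_of cr⟩]
end B0
end L

theorem IP.b1 (h : IP s θ g) (v : 𝐂₁ s ⊓ 𝐂 (OL s) ≤ zpowers s) (n : s ∉ OL s) : ∃ W J lam, B1 s θ W J lam := by
  obtain ⟨nD, σ, W, J, b⟩ := L.ex h v n
  obtain ⟨x, hx, e, c⟩ := b.x0
  have sc := b.sc
  have inj : ∀ x ∈ OL s, θ x = 1 → x = 1 := fun x hx e => by rw [← sc.r hx, e, sc.hom.one]
  have ex : ∀ a ∈ OL s, Iv a → ∃ l ∈ OL s, l * σ pZ * l⁻¹ = a := fun a ha i => by
    obtain ⟨m, hm, t⟩ := clsM (h.im a ha) ⟨fun k => i.ne (inj a ha k), hom_sq h.hl ha i.sq⟩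
    exact ⟨_, sc.mem hm, by rw [sc.cj hm pZ_MM t, sc.r ha]⟩
  choose! τ t1 t2 using ex
  have zL := sc.mem pZ_MM
  have iz := sc.iv pZ_MM pZ_iv
  have wd : ∀ l ∈ OL s, τ (l * σ pZ * l⁻¹) * x * (τ (l * σ pZ * l⁻¹))⁻¹ = l * x * l⁻¹ := fun l hl => by
    have m := mul_mem (mul_mem hl zL) (inv_mem hl)
    have m' := mul_mem (inv_mem hl) (t1 _ m (iz.conj l))
    have k := hom_comm h.hl m' zL (comm_iff_cj.2 (by
      rw [show ∀ k : G, l⁻¹ * k * σ pZ * (l⁻¹ * k)⁻¹ = l⁻¹ * (k * σ pZ * k⁻¹) * l from fun k => by group, t2 _ m (iz.conj l)]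
      group))
    rw [sc.l pZ_MM] at k
    have := c _ (h.im _ m') k
    rw [sc.r m'] at this
    rw [← comm_iff_cj.1 this]; conv_lhs => rw [comm_iff_cj.1 this]
    group
  let lam : G → G := fun a => τ a * x * (τ a)⁻¹
  have eqv : ∀ a ∈ OL s, Iv a → ∀ l ∈ OL s, lam (l * a * l⁻¹) = l * lam a * l⁻¹ := fun a ha i l hl => by
    have := wd _ (mul_mem hl (t1 a ha i))
    rw [show l * τ a * σ pZ * (l * τ a)⁻¹ = l * (τ a * σ pZ * (τ a)⁻¹) * l⁻¹ by group, t2 a ha i] at this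
    exact this.trans (by simp only [lam]; group)
  have lz : lam (σ pZ) = x := by simpa using wd 1 (one_mem _)
  have cen : ∀ a ∈ OL s, Iv a → ∀ y ∈ OL s, Commute y a → Commute y (lam a) := fun a ha i y hy k =>
    comm_iff_cj.2 (by rw [← eqv a ha i y hy, comm_iff_cj.1 k])
  have le : ∀ {a}, a ∈ EE → a ≠ 1 → lam (σ a) ∈ J ∧ dl s (lam (σ a)) = σ a := fun ha k => by
    obtain ⟨m, hm, k', rfl⟩ := E_tr ha k
    rw [← sc.cj hm pZ_MM rfl, eqv _ zL iz _ (sc.mem hm), lz, b.dcj hm, e]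
    exact ⟨conj_mem_of_norm (b.nJ hm k') hx, rfl⟩
  have R := b.jf.JR
  have ab := b.jf.ab
  have tri : ∀ {p u}, p ∈ MM → u ∈ EE → u ≠ 1 → u ≠ pZ → (∀ a ∈ EE, Commute a p → (∀ y ∈ MM, Commute y pZ → Commute y u →
      Commute a y) → a = 1) → (p * pZ * p⁻¹ = u ∧ p * u * p⁻¹ = pZ * u ∧ p * (pZ * u) * p⁻¹ = pZ) →
      lam (σ pZ) * lam (σ u) * lam (σ (pZ * u)) = 1 := fun {p u} hp hu u1 u2 f k => by
    have u3 : pZ * u ≠ 1 := fun t => u2 (by rw [eq_inv_of_mul_eq_one_right t, pZ_iv.inv])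
    have hv := mul_mem mem_E.1 hu
    have iu := sc.iv (E_le hu) ⟨u1, E_sq hu⟩
    have iv := sc.iv (E_le hv) ⟨u3, E_sq hv⟩
    obtain ⟨a1, b1⟩ := le mem_E.1 pZ_iv.ne
    obtain ⟨a2, b2⟩ := le hu u1
    obtain ⟨a3, b3⟩ := le hv u3
    obtain ⟨q, hq, eq⟩ := b.ex (b.jf.cf (mul_mem (mul_mem a1 a2) a3) (b.jf.d0.1 (by
      rw [b.jf.toAf.hd _ (R (mul_mem a1 a2)) _ (R a3), b.jf.toAf.hd _ (R a1) _ (R a2), b1, b2, b3,
        ← sc.hom _ pZ_MM _ (E_le hu), iv.sq])))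
    rw [eq, f q hq (b.cm hp (E_le hq) (comm_iff_cj.2 ?_)).symm fun y hy c1 c2 => (b.cm hy (E_le hq) ?_).symm, sc.hom.one]
    · rw [← eq, show ∀ p a b c : G, p * (a * b * c) * p⁻¹ = p * a * p⁻¹ * (p * b * p⁻¹) * (p * c * p⁻¹) from
        fun _ _ _ _ => by group, ← eqv _ zL iz _ (sc.mem hp), ← eqv _ (sc.mem (E_le hu)) iu _ (sc.mem hp),
        ← eqv _ (sc.mem (E_le hv)) iv _ (sc.mem hp), sc.cj hp pZ_MM k.1, sc.cj hp (E_le hu) k.2.1, sc.cj hp (E_le hv) k.2.2,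
        ab.mul_comm (mul_mem a2 a3) a1, mul_assoc (lam (σ pZ))]
    · exact eq ▸ ((cen _ zL iz _ (sc.mem hy) (sc.cm hy pZ_MM c1)).mul_right (cen _ (sc.mem (E_le hu)) iu _ (sc.mem hy)
        (sc.cm hy (E_le hu) c2))).mul_right (cen _ (sc.mem (E_le hv)) iv _ (sc.mem hy) (sc.cm hy (E_le hv) (c1.mul_right c2)))
  have T : ∀ {p q}, p ∈ EE → q ∈ EE → p ≠ 1 → q ≠ 1 → p ≠ q → lam (σ p) * lam (σ q) * lam (σ (p * q)) = 1 :=
    fun {p q} hp hq p1 q1 pq => by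
      obtain ⟨m, hm, -, rfl, k⟩ := E_pair hp hq p1 q1 pq
      have t : ∀ u ∈ EE, u ≠ 1 → pZ * u ≠ 1 → lam (σ pZ) * lam (σ u) * lam (σ (pZ * u)) = 1 →
          lam (σ (m * pZ * m⁻¹)) * lam (σ (m * u * m⁻¹)) * lam (σ (m * pZ * m⁻¹ * (m * u * m⁻¹))) = 1 := fun u hu u1 u3 t => by
        have hv := mul_mem mem_E.1 hu
        rw [show m * pZ * m⁻¹ * (m * u * m⁻¹) = m * (pZ * u) * m⁻¹ by group, sc.hom.conj hm pZ_MM, sc.hom.conj hm (E_le hu),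
          sc.hom.conj hm (E_le hv), eqv _ zL iz _ (sc.mem hm), eqv _ (sc.mem (E_le hu)) (sc.iv (E_le hu) ⟨u1, E_sq hu⟩) _ (sc.mem hm),
          eqv _ (sc.mem (E_le hv)) (sc.iv (E_le hv) ⟨u3, E_sq hv⟩) _ (sc.mem hm),
          show ∀ p a b c : G, p * a * p⁻¹ * (p * b * p⁻¹) * (p * c * p⁻¹) = p * (a * b * c) * p⁻¹ from fun _ _ _ _ => by group, t]
        simp
      rcases k with rfl | rfl
      · refine t _ mem_E.2.2.2 i13.ne (wne [7, 13] []) ?_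
        have := tri (p := ro2⁻¹) (inv_mem mro2) mem_E.2.2.2 i13.ne (wne [13] [7]) (fun a ha c1 c2 =>
          Ef6 ha (c2 ro mro ro_z (weq [23, 13] [13, 23])) (by simpa using c1.inv_right))
          ⟨weq [26, 7, 25] [13], weq [26, 13, 25] [7, 13], weq [26, 7, 13, 25] [7]⟩
        exact this
      · exact t _ mem_E.2.1 i34.ne (wne [7, 9] []) (tri mta mem_E.2.1 i34.ne (wne [9] [7]) (fun a ha c1 _ => Ef5 ha c1)
          ⟨weq [27, 7, 28] [9], weq [27, 9, 28] [7, 9], weq [27, 7, 9, 28] [7]⟩)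
  have el : ∀ j ∈ J, j * j = 1 := b.jf.ty.resolve_right fun ty => by
    have sq : ∀ {a}, a ∈ EE → a ≠ 1 → lam (σ a) * lam (σ a) * σ a = 1 := fun ha k => by
      have := (b.jf.fj (R (le ha k).1)).symm.trans (ty _ (le ha k).1)
      rw [(le ha k).2] at this
      rw [mul_assoc, this, mul_inv_cancel]
    obtain ⟨e1, e2, e3, -⟩ := mem_E
    have k1 := T e1 e2 pZ_iv.ne i34.ne (wne [7] [9])
    have k2 := T (mul_mem e1 e2) e3 (wne [7, 9] []) i35.ne (wne [7, 9] [11])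
    have k3 := T e2 e3 i34.ne i35.ne (wne [9] [11])
    have k4 := T e1 (mul_mem e2 e3) pZ_iv.ne (wne [9, 11] []) (wne [7] [9, 11])
    rw [← mul_assoc pZ] at k4
    have a1 := (le e1 pZ_iv.ne).1
    have a2 := (le e2 i34.ne).1
    have a3 := (le e3 i35.ne).1
    have s1 := sq e1 pZ_iv.ne
    have s3 := sq e3 i35.ne
    rw [eq_inv_of_mul_eq_one_right k1] at k2
    rw [eq_inv_of_mul_eq_one_right k3, eq_inv_of_mul_eq_one_right k2, mul_inv_eq_one] at k4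
    generalize lam (σ pZ) = A at *
    generalize lam (σ e34) = B at *
    generalize lam (σ e35) = C at *
    have k5 : A * C⁻¹ = A⁻¹ * C := mul_left_cancel (a := B⁻¹) (calc
      B⁻¹ * (A * C⁻¹) = A * (B * C)⁻¹ := by rw [ab.mul_comm (inv_mem a2) (mul_mem a1 (inv_mem a3))]; group
      _ = _ := by rw [k4]; group)
    have : A * A = C * C := calc
      A * A = A * (A * C⁻¹) * C := by group
      _ = _ := by rw [k5]; group
    rw [this, ← s3, mul_right_inj] at s1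
    exact absurd (sc.inj pZ_MM m35 s1) (wne [7] [11])
  have dW : ∀ a ∈ W, a ≠ 1 → ∃ p ∈ EE, p ≠ 1 ∧ a = σ p := fun a ha k => (b.ex ha).imp fun p t =>
    ⟨t.1, fun u => k (by rw [t.2, u, sc.hom.one]), t.2⟩
  refine ⟨W, J, lam, h.toHI, v, inj, nD, b.mW, b.jf, el, eqv, fun a ha i => sq_cj (el x hx) _, fun a ha i => ?_, cen,
    fun a ha k => ?_, fun p hp q hq p1 q1 pq => ?_⟩
  · have k := comm_iff_cj.1 (OL_comm (t1 a ha i))
    calc s * lam a * s = τ a * (s * x * s) * (τ a)⁻¹ := by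
          conv_lhs => rw [← k]
          simp only [lam]; group
      _ = lam a * (τ a * σ pZ * (τ a)⁻¹) := by rw [b.jf.fj (R hx), e]; simp only [lam]; group
      _ = _ := by rw [t2 a ha i]
  · obtain ⟨p, hp, p1, rfl⟩ := dW a ha k
    exact (le hp p1).1
  · obtain ⟨a, ha, a1, rfl⟩ := dW p hp p1
    obtain ⟨b, hb, b1, rfl⟩ := dW q hq q1
    rw [← sc.hom _ (E_le ha) _ (E_le hb), eq_inv_of_mul_eq_one_right (T ha hb a1 b1 fun t => pq (t ▸ rfl)),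
      inv_sq (el _ (mul_mem (le ha a1).1 (le hb b1).1))]

end CF.Tr
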