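import Cfsg.Agent.Tr.T2

/-! The Sylow subgroup acting on the module: offenders. -/

set_option autoImplicit false
set_option maxRecDepth 1000000
set_option linter.unusedSectionVars false

namespace CF.Tr
open Cfsg Subgroup CF.BG CF.Bender CF.J4 CF.Comp CF.Dce CF.Comp.Mat CF.Dce.J4 CF.JP
open CF.RF (n11 x11 v11 fe lm lm_iff fixM_iff)

namespace M

/-- the generators of the inner Sylow subgroup -/
abbrev s7 : List (List ℕ) := [[19], [17], [15], [13], [11], [9], [7]]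

/-- the generators of the Sylow subgroup -/
abbrev s8 : List (List ℕ) := [21] :: s7

theorem pcT : Bt.Pc φ 2 s8 := Bt.Eqv.pc (eq := sameW nN 24 5) (fun _ _ => eqN) (c :=
  [([], [[1], [3], [5], [7, 13], [9], [11], [13]]), ([], [[1, 3], [3], [5, 9, 11], [7, 9], [9], [11]]),
    ([], [[1], [3, 5], [5], [7, 9], [9]]), ([], [[1, 5], [3, 7], [5], [7]]), ([], [[1], [3], [5]]), ([], [[1], [3]]),
    ([], [[1]]), ([], [])]) (by decide +kernel)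

theorem s7_MM : clo φ s7 ≤ MM := clo_le.2 fun w hw =>
  ev_MM ((by decide +kernel : ∀ w ∈ s7, imgW nN 1 w (2 ^ 23) = 2 ^ 23) w hw)

theorem mem_s7 {σ : Pm} (h : σ ∈ TA) (m : σ ∈ MM) : σ ∈ clo φ s7 := by
  obtain ⟨e, he, x, hx, rfl⟩ := pcT.exists two_ne_zero h
  obtain rfl | rfl : e = 0 ∨ e = 1 := by omega
  · simpa using hx
  · exact absurd (by simpa using mul_mem (inv_mem (s7_MM hx)) m) (ev_nMM (w := [21]) (by decide +kernel))

/-- the table of type `t` -/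
noncomputable abbrev E (t : ℕ) : ℕ → ℕ := nth (mo 11) (LN t)

/-- the matrix of a word -/
noncomputable abbrev ew (t : ℕ) (w : List ℕ) : ℕ := evW (mm 11) (mo 11) (E t) w

/-- the list of all normal forms -/
noncomputable def pcL (t : ℕ) (ss : List (List ℕ)) : List ℕ := List.rec (motive := fun _ => List ℕ) [mo 11]
  (fun s _ r => forceL r fun r => force (ew t s) fun x => lapp r (lmap (mm 11 x) r)) ss

/-- the checks -/
noncomputable def okM (t : ℕ) : Bool := forceL (pcL t s8) fun L => forceP (lmap (fun x => (x, fixM 11 2048 x)) L) fun P =>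
  lall (fun b => b) [pcM 11 (E t) (fun x => lm x L) s8,
    pcM 11 (E t) (fun x => imp (Nat.beq (mm 11 x x) (mo 11)) (Bool.rec (force (Nat.xor x (mo 11)) fun D =>
      Nat.ble (llen (lfil (fun y => Nat.beq (mm 11 D y) D) L)) 4) true (Nat.beq x (mo 11)))) s7,
    lall (fun p : ℕ × ℕ => forceP (cnds2 11 2048 p.1 (full 2048) (mo 11, 0) P) (ofd 11 2048 p.1 p.2 3 (full 2048)))
      [(512, 1), (256, 7), (128, 15), (64, 31), (32, 63), (16, 127), (1, 255)]]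

theorem chk0 : okM 0 = true := by decide +kernel
theorem chk1 : okM 1 = true := by decide +kernel
theorem chk2 : okM 2 = true := by decide +kernel

theorem chk {t : ℕ} (h : t < 3) : okM t = true := by
  obtain rfl | rfl | rfl : t = 0 ∨ t = 1 ∨ t = 2 := by omega
  exacts [chk0, chk1, chk2]

variable {G : Type*} [Group G] [Finite G]

theorem ofd_spec {A K : Subgroup G} {r : G → ℕ × ℕ → Prop} {W : Set ℕ} {c b : ℕ} (hc : c ≤ W.ncard)
    (h1 : ∀ g ∈ A, ∀ k ∈ A, ∀ x, r g x → r k x → g⁻¹ * k ∈ K)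
    (h2 : ∀ g ∈ A, ∀ k ∈ A, ∀ x y, r g x → r k y → mm 11 x.1 y.1 = mm 11 y.1 x.1)
    (h3 : ∀ g ∈ A, ∀ x, r g x → ∀ v ∈ W, v < 2048 ∧ x.2.testBit v = true) {d F : ℕ}
    (hF : ∀ v ∈ W, F.testBit v = true) {L : List (ℕ × ℕ)} (hL : ∀ g ∈ A, ∃ x ∈ L, r g x)
    (h : ofd 11 2048 c b d F L = true) : ♯A ≤ b * ♯(A ⊓ K) := by
  have base : ∀ L : List (ℕ × ℕ), (∀ g ∈ A, ∃ x ∈ L, r g x) → Nat.ble (llen L) b = true → ♯A ≤ b * ♯(A ⊓ K) :=
    fun L hL h => (card_le_rel h1 hL).trans (Nat.mul_le_mul_right _ (by rw [← llen_eq]; exact ble_iff.1 h))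
  induction d generalizing F L with
  | zero => exact base L hL h
  | succ d ih =>
    rcases brec_or.1 h with h | h
    · exact base L hL h
    rw [force_eq] at h
    obtain ⟨p1, p2⟩ := brec_and.1 h
    set L1 := lfil (fun y : ℕ × ℕ => Nat.beq (Nat.land y.2 F) F) L with e1
    set L2 := lfil (fun y : ℕ × ℕ => Bool.rec true false (Nat.beq (Nat.land y.2 F) F)) L with e2
    by_cases q : ∃ k ∈ A, ∃ y ∈ L2.drop (Nat.sub b (llen L1)), r k y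
    · obtain ⟨k, hk, y, h4, h5⟩ := q
      have h6 := lall_iff.1 p2 y h4
      rw [force_eq, forceP_eq] at h6
      have h7 : ∀ v ∈ W, (Nat.land y.2 F).testBit v = true := fun v hv => (Nat.testBit_and _ _ _).trans (by
        rw [(h3 k hk y h5 v hv).2, hF v hv]; rfl)
      refine ih h7 (fun g hg => ?_) h6
      obtain ⟨x, a, e⟩ := hL g hg
      refine ⟨x, mem_lfil a (brec_and.2 ⟨ble_iff.2 (hc.trans (ncard_le_pop (by norm_num) fun v hv => ?_)),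
        beq_iff.2 (h2 g hg k hk x y e h5)⟩), e⟩
      exact ⟨(h3 g hg x e v hv).1, (Nat.testBit_and _ _ _).trans (by rw [(h3 g hg x e v hv).2, h7 v hv]; rfl)⟩
    refine base (L1 ++ L2.take (b - llen L1)) (fun g hg => ?_) (ble_iff.2 ?_)
    · obtain ⟨x, a, e⟩ := hL g hg
      refine ⟨x, List.mem_append.2 ?_, e⟩
      cases e3 : Nat.beq (Nat.land x.2 F) F
      · have : x ∈ L2 := mem_lfil a (by rw [e3])
        rw [← List.take_append_drop (b - llen L1) L2] at this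
        exact Or.inr ((List.mem_append.1 this).resolve_right fun h4 => q ⟨g, hg, x, h4, e⟩)
      · exact Or.inl (mem_lfil a e3)
    · have := ble_iff.1 p1
      rw [llen_eq] at this
      rw [llen_eq, List.length_append, List.length_take, llen_eq]; omega

open T

variable {t : ℕ} {V S Z : Subgroup G} {ν : G → ℕ} {f : G} {g : ℕ → G} {θ : G → Pm}

theorem ac (h : Mz t S Z ν f g) (w : List ℕ) : Ac 11 S ν (ev g w) (ew t w) := h.co.cd.ev h.tb w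

variable (h : Mo t V ν f g θ)
include h

theorem evC (w : List ℕ) : ev g w ∈ 𝐂₁ f := ev_mem h.gC w

theorem evθ (w : List ℕ) : θ (ev g w) = ev φ w := h.hom.ev' h.gC h.ph w

theorem run {ss : List (List ℕ)} (p : Bt.Pc φ 2 ss) {Φ : ℕ → Bool} (c : pcM 11 (E t) Φ ss = true) {a : G}
    (ha : a ∈ 𝐂₁ f) (m : θ a ∈ clo φ ss) : ∃ x < 2 ^ (11 * 11), Ac 11 V ν a x ∧ Φ x = true := by
  obtain ⟨x, ⟨l, k, h4, h5, h6⟩, h7⟩ := p.run two_ne_zero
    (R := fun σ x => x < 2 ^ (11 * 11) ∧ ∃ k ∈ 𝐂₁ f, θ k = σ ∧ Ac 11 V ν k x)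
    (fun w σ x k ⟨_, a, h0, h1, h2⟩ hk => ⟨_, ⟨mm_lt n11 _ _, ev g w * a, mul_mem (evC h w) h0, by
      rw [h.hom _ (evC h w) _ h0, evθ h, h1], h.co.cd.mul' (ac h.toMz w) h2⟩, (force_eq _ _).symm.trans hk⟩)
    (g₀ := 1) ⟨mo_lt n11, 1, one_mem _, h.hom.one, h.co.cd.one'⟩ c _ m
  exact ⟨x, l, h.hz.acv h6 (h.div h4 ha (h5.trans (mul_one _))), h7⟩

theorem pT : IsPGroup 2 (clo g [[21], [19], [17], [15], [13], [11], [9], [7]]) := fun ⟨a, ha⟩ => by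
  obtain ⟨m, p⟩ := h.hom.mem_pre.1 ((clo_le (H := h.hom.pre TA)).2
    (fun w hw => h.hom.mem_pre.2 ⟨evC h w, evθ h w ▸ ev_mem_clo φ hw⟩) ha)
  refine ⟨8 + 1, Subtype.ext ?_⟩
  rw [coe_pow, pow_succ, pow_mul, pow_two]
  exact h.sq _ ((h.ker _ (pow_mem m _)).1 (by rw [h.hom.pow m]; exact pcT.isPGroup two_ne_zero _ p))

theorem lst {a : G} (ha : a ∈ 𝐂₁ f) (m : θ a ∈ TA) : ∃ x ∈ pcL t s8, x < 2 ^ (11 * 11) ∧ Ac 11 V ν a x := by
  have c := chk h.t3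
  simp only [okM, forceL_eq, forceP_eq, lall_iff, List.forall_mem_cons] at c
  obtain ⟨x, l, p, q⟩ := run h pcT c.1 ha m
  exact ⟨x, lm_iff.1 q, l, p⟩

theorem off (le : S ≤ 𝐂₁ f) (m : ∀ a ∈ S, θ a ∈ TA) (ab : ∀ a ∈ S, ∀ b ∈ S, a * b * a⁻¹ * b⁻¹ ∈ V) {p : ℕ × ℕ}
    (hp : p ∈ [(512, 1), (256, 7), (128, 15), (64, 31), (32, 63), (16, 127), (1, 255)]) (c : p.1 ≤ ♯(V ⊓ 𝐂 S)) :
    ♯S ≤ p.2 * ♯(S ⊓ V) := by
  have k := chk h.t3
  simp only [okM, forceL_eq, forceP_eq] at k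
  replace k := lall_iff.1 (lall_iff.1 k _ (List.mem_cons_of_mem _ (List.mem_cons_of_mem _ List.mem_cons_self))) p hp
  have c' : p.1 ≤ (ν '' (V ⊓ 𝐂 S : Subgroup G)).ncard :=
    c.trans (Set.InjOn.ncard_image fun a ha b hb => h.hz.inj ha.1 hb.1).ge
  have h3 : ∀ a ∈ S, ∀ x, Ent 11 2048 V ν a x → ∀ v ∈ ν '' (V ⊓ 𝐂 S : Subgroup G), v < 2048 ∧ x.2.testBit v = true := by
    rintro a ha x e _ ⟨v, hv, rfl⟩
    exact ⟨h.co.lt v hv.1, e.2.2 ▸ fixM_of (h.co.lt v hv.1) ((h.hz.fix_iff e.1 hv.1).2 (hv.2 a ha).symm)⟩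
  have fl : ∀ v ∈ ν '' (V ⊓ 𝐂 S : Subgroup G), (full 2048).testBit v = true := by
    rintro _ ⟨v, hv, rfl⟩
    rw [testBit_full]; exact decide_eq_true (h.co.lt v hv.1)
  refine ofd_spec (r := Ent 11 2048 V ν) c' (fun a _ b _ x p q => h.hz.mo_iff.1 (h.co.ac_div p.1 q.1))
    (fun a ha b hb x y p q => h.co.uniq' (h.hz.acv (h.co.cd.mul' p.1 q.1) ?_) (h.co.cd.mul' q.1 p.1) (mm_lt n11 _ _)
      (mm_lt n11 _ _)) h3 fl (fun a ha => ?_) k
  · simpa [mul_assoc] using ab _ (inv_mem hb) _ (inv_mem ha)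
  · obtain ⟨x, p1, p2, p3⟩ := lst h (le ha) (m a ha)
    have e : Ent 11 2048 V ν a (x, fixM 11 2048 x) := ⟨p3, p2, rfl⟩
    refine ⟨_, mem_lfil (lmap_eq _ _ ▸ List.mem_map_of_mem p1) (brec_and.2 ⟨ble_iff.2 (c'.trans (ncard_le_pop
      (by norm_num) fun v hv => ⟨(h3 a ha _ e v hv).1, (Nat.testBit_and _ _ _).trans ?_⟩)), beq_iff.2 ?_⟩), e⟩
    · rw [(h3 a ha _ e v hv).2, fl v hv]; rfl
    · rw [mm_mo n11 p2, mo_mm n11 p2]

theorem f1 {d : G} {U : Subgroup G} (hd : d ∈ 𝐂₁ f) (d2 : d * d = 1) (dV : d ∉ V) (m1 : θ d ∈ TA) (m2 : θ d ∈ MM)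
    (le : U ≤ 𝐂₁ f) (m : ∀ a ∈ U, θ a ∈ TA) (c : ∀ a ∈ U, ∀ v ∈ V, v * (d⁻¹ * v * d) * a = a * (v * (d⁻¹ * v * d))) :
    ♯U ≤ 4 * ♯(U ⊓ V) := by
  have k := chk h.t3
  simp only [okM, forceL_eq, forceP_eq] at k
  obtain ⟨x, l, p, q⟩ := run h pcT.2.2 (lall_iff.1 k _ (List.mem_cons_of_mem _ List.mem_cons_self)) hd (mem_s7 m1 m2)
  replace q := fe ((brec_or.1 (imp_iff.1 q (beq_iff.2 (h.co.uniq' (h.co.cd.mul' p p) (d2 ▸ h.co.cd.one')
    (mm_lt n11 _ _) (mo_lt n11))))).resolve_left fun e => dV (h.hz.mo_iff.1 (beq_iff.1 e ▸ p)))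
  refine (card_le_rel (r := Ac 11 V ν) (fun a _ b _ y p q => h.hz.mo_iff.1 (h.co.ac_div p q)) fun a ha => ?_).trans
    (Nat.mul_le_mul_right _ (llen_eq _ ▸ ble_iff.1 q))
  obtain ⟨y, p1, -, p3⟩ := lst h (le ha) (m a ha)
  refine ⟨y, mem_lfil p1 (beq_iff.2 (mat_ext n11 (mm_lt n11 _ _) (Nat.xor_lt_two_pow l (mo_lt n11)) fun u hu => ?_)), p3⟩
  obtain ⟨v, hv, rfl⟩ := h.co.surj u hu
  have e : vm 11 (ν v) (Nat.xor x (mo 11)) = ν (v * (d⁻¹ * v * d)) := by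
    rw [h.co.mul _ hv _ (norm_mem p.1 hv), p.2 v hv, Nat.xor_comm]
    exact (vm_xor' _ _ _ _).trans (by rw [vm_mo n11 hu])
  rw [vm_mm n11, e]
  exact (h.hz.fix_iff p3 (mul_mem hv (norm_mem p.1 hv))).2 (c a ha v hv)

end M

end CF.Tr
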