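import Cfsg.Agent.Tr.M1
import Cfsg.Agent.Tr.F1

/-! Offenders, fusion in the module and the case of a fixed involution. -/

set_option autoImplicit false
set_option maxRecDepth 1000000
set_option linter.unusedSectionVars false

namespace CF.Tr
open Cfsg Subgroup CF.BG CF.Bender CF.J4 CF.Comp CF.Dce CF.Comp.Mat CF.Dce.J4 CF.JP

variable {G : Type*} [Group G] [Finite G] {t : ℕ} {V S : Subgroup G} {ν : G → ℕ} {f : G} {g : ℕ → G} {θ : G → Pm}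

namespace M
variable (h : Mo t V ν f g θ)
include h

theorem pV : IsPGroup 2 V := IsPGroup.of_card h.card

theorem into (le : S ≤ 𝐂₁ f) (p : IsPGroup 2 S) : ∃ n ∈ 𝐂₁ f, θ n ∈ MM ∧ ∀ a ∈ S, θ (n * a * n⁻¹) ∈ TA := by
  obtain ⟨m, hm, e⟩ := sylA (Q := h.hom.im S le) (fun σ hσ => have ⟨a, ha, e⟩ := h.hom.mem_im.1 hσ; e ▸ h.mem a (le ha))
    fun ⟨σ, hσ⟩ => by
      obtain ⟨a, ha, rfl⟩ := h.hom.mem_im.1 hσ
      obtain ⟨k, hk⟩ := p ⟨a, ha⟩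
      exact ⟨k, Subtype.ext (by
        rw [coe_pow, ← h.hom.pow (le ha), show a ^ 2 ^ k = 1 from congrArg Subtype.val hk]; exact h.hom.one)⟩
  obtain ⟨n, hn, rfl⟩ := h.sur m (M22_le_S2 hm)
  exact ⟨n, hn, hm, fun a ha => h.hom.conj hn (le ha) ▸ e _ (h.hom.mem_im.2 ⟨a, ha, rfl⟩)⟩

theorem off' (le : S ≤ 𝐂₁ f) (l : V ≤ S) (q : IsPGroup 2 S) (ab : ∀ a ∈ S, ∀ b ∈ S, a * b * a⁻¹ * b⁻¹ ∈ V) {p : ℕ × ℕ}
    (hp : p ∈ [(512, 1), (256, 7), (128, 15), (64, 31), (32, 63), (16, 127), (1, 255)]) (c : p.1 ≤ ♯(V ⊓ 𝐂 S)) :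
    ♯S ≤ p.2 * 2048 := by
  obtain ⟨n, hn, -, e⟩ := into h le q
  have nV := cj_of_norm (h.nor hn)
  have := off h (S := BG.cj n S) (cj_le_of_mem hn le) (fun a ha => by
    obtain ⟨b, hb, rfl⟩ := mem_cj_iff.1 ha
    exact e b hb) (fun a ha b hb => by
      have := conj_mem_of_norm (h.nor hn) (ab _ (mem_cj.1 ha) _ (mem_cj.1 hb))
      rwa [show n * (n⁻¹ * a * n * (n⁻¹ * b * n) * (n⁻¹ * a * n)⁻¹ * (n⁻¹ * b * n)⁻¹) * n⁻¹ = a * b * a⁻¹ * b⁻¹ by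
        group] at this) hp (by rwa [← cj_cent, ← nV, ← cj_inf, card_cj])
  rwa [← nV, ← cj_inf, card_cj, card_cj, inf_eq_right.2 l, h.card] at this

end M

open M

theorem Mo.f2 (h : Mo t V ν f g θ) (le : S ≤ 𝐂₁ f) (l : V ≤ S) (p : IsPGroup 2 S)
    (ab : ∀ a ∈ S, ∀ b ∈ S, a * b * a⁻¹ * b⁻¹ ∈ V) (ne : S ≠ V) : ♯S * ♯(V ⊓ 𝐂 S) ≤ 1024 * 2048 := by
  have : Fact (Nat.Prime 2) := ⟨Nat.prime_two⟩
  have k := fun q hq => off' h le l p ab (p := q) hq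
  simp only [List.forall_mem_cons] at k
  obtain ⟨k9, k8, k7, k6, k5, k4, k0, -⟩ := k
  obtain ⟨a, ha⟩ := p.exists_card_eq
  obtain ⟨b, hb⟩ := ((pV h).to_le (inf_le_left : V ⊓ 𝐂 S ≤ V)).exists_card_eq
  have b9 : b < 9 := by_contra fun n => ne (eq_of_card_le l (h.card ▸ k9 (hb ▸
    Nat.pow_le_pow_right (n := 2) (i := 9) two_pos (not_lt.1 n)))).symm
  have u : ∀ c, 2 ^ a < 2 ^ (c + 1) → 2 ^ a ≤ 2 ^ c := fun c e =>
    Nat.pow_le_pow_right two_pos (Nat.lt_succ_iff.1 ((Nat.pow_lt_pow_iff_right one_lt_two).1 e))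
  rw [ha, hb] at k0 k4 k5 k6 k7 k8 ⊢
  have u1 := u 13
  have u2 := u 14
  have u3 := u 15
  have u4 := u 16
  have u5 := u 17
  have u6 := u 18
  clear u ha hb k9
  generalize 2 ^ a = A at *
  interval_cases b <;> norm_num at * <;> omega

theorem Mo.f2a (h : Mo t V ν f g θ) (le : S ≤ 𝐂₁ f) (p : IsPGroup 2 S) (ab : Abel S) : S ≤ V ∨ ♯S ≤ 1024 := by
  refine or_iff_not_imp_left.2 fun n => ?_
  have nV := le.trans h.nor
  have k := h.f2 (sup_le le h.le) le_sup_right (p.to_sup_of_normal_right' (pV h) nV) (fun a ha b hb => by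
    have ma := sup_le le h.le ha
    have mb := sup_le le h.le hb
    refine (h.ker _ (mul_mem (mul_mem (mul_mem ma mb) (inv_mem ma)) (inv_mem mb))).1 ?_
    rw [h.hom _ (mul_mem (mul_mem ma mb) (inv_mem ma)) _ (inv_mem mb), h.hom.conj ma mb, h.hom.inv mb]
    obtain ⟨x, hx, v, hv, rfl⟩ := (mem_sup_norm nV).1 ha
    obtain ⟨y, hy, w, hw, rfl⟩ := (mem_sup_norm nV).1 hb
    rw [h.hom _ (le hx) _ (h.le hv), h.hom _ (le hy) _ (h.le hw), (h.ker v (h.le hv)).2 hv, (h.ker w (h.le hw)).2 hw,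
      mul_one, mul_one, ← h.hom _ (le hx) _ (le hy), ab.mul_comm hx hy, h.hom _ (le hy) _ (le hx)]
    group) fun e => n (le_sup_left.trans e.le)
  have c := card_sup_mul_card_inf (.inl nV)
  have := Nat.mul_le_mul_left (♯(S ⊔ V)) (card_le (show S ⊓ V ≤ V ⊓ 𝐂 (S ⊔ V : Subgroup G) from
    le_inf inf_le_right (le_cent_sup (inf_le_left.trans ab) (inf_le_right.trans h.ab))))
  rw [c, h.card] at this
  omega

theorem Mo.fus (h : Mo t V ν f g θ) {x : G} (m : x * f * x⁻¹ ∈ V) : x ∈ 𝐍 V := by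
  have l : BG.cj x⁻¹ V ≤ 𝐂₁ f := cj_le_iff.2 (by
    rw [inv_inv, cj_cent1]; exact le_cent1_iff.2 (h.ab m))
  refine (inv_mem_iff (H := 𝐍 V)).1 (mem_norm_of_cj_le ((h.f2a l (IsPGroup.of_card (n := 11) (by
    rw [card_cj, h.card])) (abel_cj.2 h.ab)).resolve_right ?_))
  rw [card_cj, h.card]; norm_num

namespace M
variable (h : Mo t V ν f g θ)
include h

theorem exU {d : G} (hd : d ∈ 𝐂₁ f) (d2 : d * d = 1) (dV : d ∉ V) :
    ∃ U : Subgroup G, 4 < ♯U ∧ ∀ u, u ∈ U ↔ ∃ v ∈ V, v * (d⁻¹ * v * d) = u := by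
  have n := h.nor hd
  have k : HomOn V fun v => v * (d⁻¹ * v * d) := fun a ha b hb => by
    rw [mul_assoc a (d⁻¹ * a * d), ← mul_assoc (d⁻¹ * a * d), h.ab.mul_comm (norm_mem n ha) hb]; group
  refine ⟨k.im V le_rfl, ?_, fun _ => k.mem_im⟩
  have c := k.card_eq le_rfl (Z := V ⊓ 𝐂 (V ⊔ zpowers d : Subgroup G)) fun v => and_congr_right fun hv => by
    rw [cent_sup, cent_zpowers, mul_eq_one_iff_inv_eq, h.vi hv, mul_assoc, eq_inv_mul_iff_mul_eq]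
    exact ⟨fun e => (mem_cent1.1 e.2).symm, fun e => ⟨h.ab hv, mem_cent1.2 e.symm⟩⟩
  have le : V ⊔ zpowers d ≤ 𝐂₁ f := sup_le h.le (zpowers_le.2 hd)
  have z : ∀ a ∈ V ⊔ zpowers d, θ a ∈ zpowers (θ d) := fun a ha => (h.hom.mem_pre.1 (sup_le
    (fun v hv => h.hom.mem_pre.2 ⟨h.le hv, (h.ker v (h.le hv)).2 hv ▸ one_mem _⟩)
    (zpowers_le.2 (h.hom.mem_pre.2 ⟨hd, mem_zpowers _⟩)) ha)).2
  by_contra q
  refine dV ((eq_of_card_le le_sup_left (h.card ▸ off' h le le_sup_left ((pV h).to_sup_of_normal_left'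
    (Loc.isPGroup_zpowers (k := 1) (by rw [pow_one, pow_two, d2])) (zpowers_le.2 n)) (fun a ha b hb => ?_)
    List.mem_cons_self ?_)).ge (mem_sup_right (mem_zpowers d)))
  · have ma := le ha
    have mb := le hb
    refine (h.ker _ (mul_mem (mul_mem (mul_mem ma mb) (inv_mem ma)) (inv_mem mb))).1 ?_
    rw [h.hom _ (mul_mem (mul_mem ma mb) (inv_mem ma)) _ (inv_mem mb), h.hom.conj ma mb, h.hom.inv mb,
      (abel_zpowers _).mul_comm (z a ha) (z b hb)]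
    group
  · have := Nat.mul_le_mul_right (♯(V ⊓ 𝐂 (V ⊔ zpowers d : Subgroup G))) (not_lt.1 q)
    rw [← c, h.card] at this
    omega

variable (u : ∀ x, x * f * x⁻¹ ∈ V → x * f * x⁻¹ = f)
include u

theorem exW {x : G} (c : x * f * x⁻¹ ∈ 𝐂₁ f) (n : x * f * x⁻¹ ≠ f) : ∃ U ≤ 𝐂₁ f, 4 < ♯U ∧ U ⊓ V = ⊥ ∧
    U ≤ BG.cj x V ∧ (∀ a ∈ U, ∃ y, y * f * y⁻¹ = f * a) ∧ ∀ k ∈ 𝐂₁ f, k ∈ 𝐂₁ (x * f * x⁻¹) → k ∈ 𝐍 U := by
  have c' : x⁻¹ * f * x ∈ 𝐂₁ f := by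
    rw [← conj_mem_cj (g := x), cj_cent1]; simpa [mul_assoc] using mem_cent1_comm.1 c
  obtain ⟨U, c4, m⟩ := exU h c' (h.iv.conj' x).sq fun m => n (by
    have := u x⁻¹ (by simpa using m)
    rw [inv_inv] at this
    conv_lhs => rw [← this]
    group)
  have fi := h.iv.inv
  have m' : ∀ a, a ∈ BG.cj x U ↔ ∃ w ∈ BG.cj x V, w * (f * w * f) = a := fun a => by
    rw [mem_cj, m]
    refine ⟨fun ⟨v, hv, e⟩ => ⟨_, conj_mem_cj.2 hv, ?_⟩, fun ⟨w, hw, e⟩ => ⟨_, mem_cj.1 hw, ?_⟩⟩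
    · rw [show a = x * (x⁻¹ * a * x) * x⁻¹ by group, ← e, mul_inv_rev, mul_inv_rev, fi]; group
    · rw [← e, mul_inv_rev, mul_inv_rev, fi]; group
  have nf : 𝐂₁ (x * f * x⁻¹) ≤ 𝐍 (BG.cj x V) := by rw [← cj_cent1, ← cj_norm]; exact cj_mono x h.nor
  have sq : ∀ w ∈ BG.cj x V, w⁻¹ = w := fun w hw => by
    obtain ⟨v, hv, rfl⟩ := mem_cj_iff.1 hw
    rw [mul_inv_rev, mul_inv_rev, h.vi hv]; group
  have fw : ∀ w ∈ BG.cj x V, f * w * f ∈ BG.cj x V := fun w hw => by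
    simpa [fi] using conj_mem_of_norm (nf (mem_cent1_comm.1 c)) hw
  have cm := fun w hw => (abel_cj.2 h.ab).mul_comm hw (fw w hw)
  have y : ∀ a ∈ BG.cj x U, ∃ y, y * f * y⁻¹ = f * a := fun a ha => by
    obtain ⟨w, hw, rfl⟩ := (m' a).1 ha
    exact ⟨w, by rw [sq w hw, cm w hw, ← mul_assoc, ← mul_assoc, ← mul_assoc, h.iv.sq, one_mul]⟩
  refine ⟨BG.cj x U, fun a ha => ?_, by rwa [card_cj], eq_bot_of_forall fun a ha => ?_, fun a ha => ?_, y,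
    fun k k1 k2 => mem_norm_of_cj_le fun a ha => ?_⟩
  · obtain ⟨w, hw, rfl⟩ := (m' a).1 ha
    rw [mem_cent1]
    conv_rhs => rw [cm w hw]
    simp only [mul_assoc, h.iv.sq, mul_one]
    rw [← mul_assoc f f, h.iv.sq, one_mul]
  · obtain ⟨z, e⟩ := y a ha.1
    exact mul_eq_left.1 (e ▸ u z (e ▸ mul_mem h.fV ha.2))
  · obtain ⟨w, hw, rfl⟩ := (m' a).1 ha
    exact mul_mem hw (fw w hw)
  · obtain ⟨b, hb, rfl⟩ := mem_cj_iff.1 ha
    obtain ⟨w, hw, rfl⟩ := (m' b).1 hb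
    refine (m' _).2 ⟨_, conj_mem_of_norm (nf k2) hw, ?_⟩
    rw [show f * (k * w * k⁻¹) * f = k * (k⁻¹ * (f * k) * w * (k⁻¹ * (f * k))) * k⁻¹ by group, ← mem_cent1.1 k1]
    group

theorem no {x : G} (c : x * f * x⁻¹ ∈ 𝐂₁ f) (n : x * f * x⁻¹ ≠ f) (m : θ (x * f * x⁻¹) ∈ MM) : False := by
  obtain ⟨U, l, c4, i, lV, -, nU⟩ := exW h u c n
  have dV := mt (u x) n
  have d2 := (h.iv.conj x).sq
  have dU : x * f * x⁻¹ ∈ BG.cj x V := conj_mem_cj.2 h.fV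
  have pU : IsPGroup 2 (BG.cj x V) := IsPGroup.of_card (n := 11) (by rw [card_cj, h.card])
  generalize x * f * x⁻¹ = d at *
  have key : ∀ a ∈ U, ∀ v ∈ V, v * (d⁻¹ * v * d) * a = a * (v * (d⁻¹ * v * d)) := fun a ha v hv => by
    have m1 := norm_mem (h.nor c) hv
    have m2 := mul_mem hv m1
    have m3 : v * (d⁻¹ * v * d) ∈ 𝐂₁ d := mem_cent1.2 (by
      conv_rhs => rw [h.ab.mul_comm hv m1]
      rw [inv_eq_of_mul_eq_one_right d2]
      simp only [mul_assoc, d2, mul_one]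
      rw [← mul_assoc d d, d2, one_mul])
    have := eq_one_of_mem_bot i (mem_inf.2 ⟨mul_mem (conj_mem_of_norm (nU _ (h.le m2) m3) ha) (inv_mem ha), by
      simpa [mul_assoc] using mul_mem m2 (conj_mem_of_norm (h.nor (l ha)) (inv_mem m2))⟩)
    exact mul_inv_eq_iff_eq_mul.1 (mul_inv_eq_one.1 this)
  obtain ⟨k, hk, km, e⟩ := into h (S := BG.cj x V ⊓ 𝐂₁ f) inf_le_right (pU.to_le inf_le_left)
  have kV := h.nor hk
  have := f1 h (d := k * d * k⁻¹) (U := BG.cj k U) (mul_mem (mul_mem hk c) (inv_mem hk))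
    (by rw [conj_mul, d2]; simp) (fun q => dV (by simpa [mul_assoc] using conj_mem_of_norm' kV q)) (e d ⟨dU, c⟩)
    (h.hom.conj hk c ▸ mul_mem (mul_mem km m) (inv_mem km)) (cj_le_of_mem hk l) (fun a ha => by
      obtain ⟨b, hb, rfl⟩ := mem_cj_iff.1 ha
      exact e b ⟨lV hb, l hb⟩) fun a ha v hv => by
        have := congrArg (fun y => k * y * k⁻¹) (key _ (mem_cj.1 ha) _ (conj_mem_of_norm' kV hv))
        simpa [mul_assoc] using this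
  rw [← cj_of_norm kV, ← cj_inf, card_cj, card_cj, i, card_bot] at this
  omega

end M

theorem Mo.a2 [IsSimpleGroup G] (h : Mo t V ν f g θ) (e : ∀ n ∈ 𝐍 V, n * f * n⁻¹ = f) : False := by
  have u : ∀ x, x * f * x⁻¹ ∈ V → x * f * x⁻¹ = f := fun x m => e x (h.fus m)
  obtain ⟨x, c, n⟩ : ∃ x, x * f * x⁻¹ ∈ 𝐂₁ f ∧ x * f * x⁻¹ ≠ f := by
    by_contra q
    push Not at q
    have o : 𝐎 {2}ᶜ (⊤ : Subgroup G) = ⊥ := ((normalIn_top.1 (O_normal _ _)).eq_bot_or_eq_top).resolve_right fun e =>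
      h.iv.not_mem (odd_of_pi (O_pi {2}ᶜ ⊤)) (e.ge (mem_top f))
    have c : f ∈ center G := mem_center_iff.2 fun y => by
      have := ZD.zstar_in h.iv (mem_top f) (fun y _ k => q y (mem_cent1.2 k.symm)) (mem_top y)
      rw [o, mem_bot, mul_inv_eq_one, mul_inv_eq_iff_eq_mul] at this
      exact this.symm
    rcases (inferInstance : (center G).Normal).eq_bot_or_eq_top with k | k
    · exact h.iv.ne (mem_bot.1 (k ▸ c))
    · refine (φ_iv (i := 3) (by decide)).ne (h.ph 3 ▸ (h.ker _ (h.gC 3)).2 (h.cen fun v _ => ?_))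
      exact mem_center_iff.1 (k.ge (mem_top _)) v
  obtain ⟨U, l, c4, i, -, y, -⟩ := exW h u c n
  have nz : ∀ a ∈ U, a ≠ 1 → θ a ∉ MM := fun a ha a1 ma => by
    obtain ⟨z, q⟩ := y a ha
    refine no h u (x := z) (q ▸ mul_mem (self_mem_cent1 f) (l ha)) (q ▸ mt mul_eq_left.1 a1) ?_
    rwa [q, h.hom _ (self_mem_cent1 f) _ (l ha), (h.ker f (self_mem_cent1 f)).2 h.fV, one_mul]
  obtain ⟨a, ha, a1⟩ := exists_mem_ne_one (one_lt_card.1 (by omega : 1 < ♯U))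
  obtain ⟨b, hb, b1⟩ : ∃ b ∈ U, b ∉ ({1, a⁻¹} : Set G) := by
    by_contra q
    push Not at q
    have := (Set.ncard_le_ncard (s := (U : Set G)) (t := {1, a⁻¹}) q).trans (Set.ncard_insert_le _ _)
    rw [Set.ncard_singleton] at this
    exact absurd (c4.trans_le this) (by norm_num)
  rw [Set.mem_insert_iff, Set.mem_singleton_iff, not_or] at b1
  exact nz _ (mul_mem ha hb) (fun q => b1.2 (eq_inv_of_mul_eq_one_right q))
    (h.hom _ (l ha) _ (l hb) ▸ idx2 (h.mem _ (l ha)) (h.mem _ (l hb)) (nz a ha a1) (nz b hb b1.1))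

end CF.Tr
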