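import Cfsg.Agent.Tr.AB

/-! The halves of the involutions generate a component. -/

set_option autoImplicit false
set_option maxRecDepth 1000000
set_option linter.unusedSectionVars false

namespace CF.Tr
open Cfsg Subgroup CF.BG CF.Bender CF.J4 CF.Comp CF.Dce CF.Comp.Mat CF.Dce.J4
open scoped commutatorElement

variable {G : Type*} [Group G] [Finite G]
variable {θ : G → Pm} {s x y j : G} {W J : Subgroup G} {lam : G → G} {σ Λ : Pm → G} {a b m : Pm}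

/-- the halves indexed by permutations -/
structure B2 (s : G) (θ : G → Pm) (W J : Subgroup G) (σ Λ : Pm → G) : Prop extends HI s θ where
  vs : 𝐂₁ s ⊓ 𝐂 (OL s) ≤ zpowers s
  nD : ∀ x ∈ OL s, ¬ IsConj s x
  jf : Jf (W ⊔ zpowers s) W J s
  el : ∀ j ∈ J, j * j = 1
  hs : HomOn MM σ
  mL : ∀ a ∈ MM, σ a ∈ OL s
  ts : ∀ a ∈ MM, θ (σ a) = a
  st : ∀ x ∈ OL s, σ (θ x) = x
  mW : ∀ x, x ∈ W ↔ ∃ a ∈ EE, σ a = x
  eqv : ∀ a ∈ MM, a * a = 1 → ∀ m ∈ MM, Λ (m * a * m⁻¹) = σ m * Λ a * (σ m)⁻¹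
  sq : ∀ a ∈ MM, a * a = 1 → Λ a * Λ a = 1
  del : ∀ a ∈ MM, a * a = 1 → s * Λ a * s = Λ a * σ a
  mJ : ∀ a ∈ EE, Λ a ∈ J
  add : HomOn EE Λ

theorem B1.b2 (h : B1 s θ W J lam) : ∃ σ Λ, B2 s θ W J σ Λ := by
  classical
  have q := h.toHI.toQT
  have inj : ∀ x ∈ OL s, ∀ y ∈ OL s, θ x = θ y → x = y := fun x hx y hy e =>
    inv_mul_eq_one.1 (h.inj _ (mul_mem (inv_mem hx) hy) (hom_div q.hl hx hy e))
  choose! σ mL ts using h.sur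
  have hs : HomOn MM σ := fun a ha b hb => inj _ (mL _ (mul_mem ha hb)) _ (mul_mem (mL a ha) (mL b hb)) (by
    rw [q.hl _ (mL a ha) _ (mL b hb), ts _ (mul_mem ha hb), ts a ha, ts b hb])
  have iv : ∀ a ∈ MM, a * a = 1 → a ≠ 1 → Iv (σ a) := fun a ha e n =>
    ⟨fun k => n (by rw [← ts a ha, k, q.hom.one]), hom_sq hs ha e⟩
  have mW : ∀ a ∈ EE, σ a ∈ W := fun a ha => (h.mW _).2 ⟨mL a (E_le ha), (ts a (E_le ha)).symm ▸ ha⟩
  refine ⟨σ, fun a => if a = 1 then 1 else lam (σ a), h.toHI, h.vs, h.nD, h.jf, h.el, hs, mL, ts,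
    fun x hx => inj _ (mL _ (q.im x hx)) x hx (ts _ (q.im x hx)), fun x => ⟨fun k => ?_, fun ⟨a, ha, e⟩ => e ▸ mW a ha⟩,
    fun a ha e m hm => ?_, fun a ha e => ?_, fun a ha e => ?_, fun a ha => ?_, fun a ha b hb => ?_⟩
  · obtain ⟨k1, k2⟩ := (h.mW x).1 k
    exact ⟨θ x, k2, inj _ (mL _ (q.im x k1)) x k1 (ts _ (q.im x k1))⟩
  · by_cases n : a = 1
    · simp [n]
    · rw [if_neg n, if_neg fun k => n (cj_eq_one k), hs.conj hm ha, h.eqv _ (mL a ha) (iv a ha e n) _ (mL m hm)]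
  · by_cases n : a = 1
    · simp [n]
    · rw [if_neg n, h.sq _ (mL a ha) (iv a ha e n)]
  · by_cases n : a = 1
    · simp [n, hs.one, h.iv.sq]
    · rw [if_neg n, h.del _ (mL a ha) (iv a ha e n)]
  · by_cases n : a = 1
    · simp [n]
    · rw [if_neg n]; exact h.mJ _ (mW a ha) (iv a (E_le ha) (E_sq ha) n).ne
  · have a1 := E_le ha
    have b1 := E_le hb
    by_cases n : a = 1
    · simp [n]
    by_cases n' : b = 1
    · simp [n']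
    by_cases e : a = b
    · subst e
      simp only [E_sq ha, if_true, if_neg n, h.sq _ (mL a a1) (iv a a1 (E_sq ha) n)]
    · simp only [if_neg n, if_neg n', if_neg fun k : a * b = 1 => e ((eq_inv_of_mul_eq_one_left k).trans (inv_sq (E_sq hb))),
        hs a a1 b b1]
      exact h.add _ (mW a ha) _ (mW b hb) (iv a a1 (E_sq ha) n).ne (iv b b1 (E_sq hb) n').ne fun k =>
        e (by rw [← ts a a1, k, ts b b1])

/-- distinct conjugates of `E` meet trivially -/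
theorem E_ti (hm : m ∈ MM) (ha : a ∈ EE) (n : a ≠ 1) (k : m * a * m⁻¹ ∈ EE) : m ∈ 𝐍 EE := by
  obtain ⟨u, hu, nu, rfl⟩ := E_tr ha n
  obtain ⟨v, hv, nv, e⟩ := E_tr k fun e => n (cj_eq_one e)
  have := E_nz (MM_le (mul_mem (mul_mem (inv_mem hv) hm) hu)) (comm_iff_cj.2 (by
    calc v⁻¹ * m * u * pZ * (v⁻¹ * m * u)⁻¹ = v⁻¹ * (m * (u * pZ * u⁻¹) * m⁻¹) * v := by group
      _ = pZ := by rw [← e]; group))
  simpa [mul_assoc] using mul_mem (mul_mem nv this) (inv_mem nu)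

namespace B2
variable (h : B2 s θ W J σ Λ)
include h

theorem s2 : s * s = 1 := h.iv.sq

theorem cs (ha : a ∈ MM) : Commute (σ a) s := OL_comm (h.mL a ha)

theorem sW (ha : a ∈ EE) : σ a ∈ W := (h.mW _).2 ⟨a, ha, rfl⟩

theorem sJ (ha : a ∈ EE) : σ a ∈ J := h.jf.WJ (h.sW ha)

theorem inj (ha : a ∈ MM) (e : σ a = 1) : a = 1 := by rw [← h.ts a ha, e, h.hom.one]

theorem WE (ha : a ∈ MM) (e : σ a ∈ W) : a ∈ EE := by
  obtain ⟨b, hb, k⟩ := (h.mW _).1 e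
  rw [← h.ts a ha, ← k, h.ts b (E_le hb)]; exact hb

theorem cen (ha : a ∈ MM) (a2 : a * a = 1) (hm : m ∈ MM) (c : Commute m a) : Commute (σ m) (Λ a) :=
  comm_iff_cj.2 (by rw [← h.eqv a ha a2 m hm, comm_iff_cj.1 c])

theorem nW (hm : m ∈ MM) (n : m ∈ 𝐍 EE) : σ m ∈ 𝐍 W := mem_norm_of_cj_le fun x hx => by
  obtain ⟨y, hy, rfl⟩ := mem_cj_iff.1 hx
  obtain ⟨a, ha, rfl⟩ := (h.mW y).1 hy
  exact h.hs.conj hm (E_le ha) ▸ h.sW (conj_mem_of_norm n ha)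

theorem nJ (hm : m ∈ MM) (n : m ∈ 𝐍 EE) : σ m ∈ 𝐍 J := h.jf.nor ⟨c1_of (h.cs hm), h.nW hm n⟩

theorem sN : s ∈ 𝐍 J := h.jf.nor ⟨self_mem_cent1 s, cent_le_norm _ (h.jf.toAf.cW h.jf.fV)⟩

theorem dec (hj : j ∈ J) : ∃ a ∈ EE, ∃ b ∈ EE, j = Λ a * σ b := by
  obtain ⟨a, ha, e⟩ := (h.mW _).1 (h.jf.del j hj)
  have m := mul_mem (h.mJ a ha) hj
  obtain ⟨b, hb, k⟩ := (h.mW _).1 (h.jf.cf m (comm_iff_cj.2 (by
    have e1 : j * s * j⁻¹ = σ a * s := by rw [e, mul_assoc _ s s, h.s2, mul_one]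
    have e2 := h.del a (E_le ha) (E_sq ha)
    have l2 := h.sq a (E_le ha) (E_sq ha)
    calc Λ a * j * s * (Λ a * j)⁻¹ = Λ a * (j * s * j⁻¹) * (Λ a)⁻¹ := by group
      _ = s * (Λ a * (s * s)) * (Λ a)⁻¹ := by rw [e1, ← mul_assoc (Λ a), ← e2]; group
      _ = s := by rw [h.s2]; group)))
  exact ⟨a, ha, b, hb, by rw [k, ← mul_assoc, h.sq a (E_le ha) (E_sq ha), one_mul]⟩

theorem mV (c : Commute x s) (k : θ x ∈ EE) : x ∈ W ⊔ zpowers s := by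
  have m := E_le k
  have := h.vs ⟨c1_of ((h.cs m).inv_left.mul_left c), h.toQT.div (h.toQT.ln (h.mL _ m)) (OL_nr c) (h.ts _ m)⟩
  simpa using mul_mem (mem_sup_left (h.sW k) : _ ∈ W ⊔ zpowers s) (mem_sup_right this)

section
variable (hb : b ∈ MM) (b2 : b * b = 1) (nb : b ∈ 𝐍 EE)
include hb b2 nb

theorem ys : Λ b * s * (Λ b)⁻¹ = s * σ b := by
  have e := h.del b hb b2
  have c := (h.cen hb b2 hb (Commute.refl b)).eq
  calc _ = s * (s * Λ b * s) * (Λ b)⁻¹ := by rw [← mul_assoc, ← mul_assoc, h.s2, one_mul]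
    _ = _ := by rw [e, ← c]; group

theorem ys' : (Λ b)⁻¹ * (s * σ b) * Λ b = s := by rw [← h.ys hb b2 nb]; group

theorem sbN : s * σ b ∈ 𝐍 J := mul_mem h.sN (h.nJ hb nb)

theorem sb2 : s * σ b * (s * σ b) = 1 := sq_mul h.s2 (hom_sq h.hs hb b2) (h.cs hb).symm

theorem ph : HomOn J fun j => (Λ b)⁻¹ * (j * (s * σ b * j * (s * σ b)⁻¹)) * Λ b := fun u hu v hv => by
  have c : Commute v (s * σ b * u * (s * σ b)⁻¹) := h.jf.ab.mul_comm hv (conj_mem_of_norm (h.sbN hb b2 nb) hu)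
  simp only
  rw [show ∀ p q r : G, r⁻¹ * p * r * (r⁻¹ * q * r) = r⁻¹ * (p * q) * r from fun p q r => by group,
    ← c.mul_mul_mul_comm]
  group

theorem pS (ha : a ∈ EE) : σ a * (s * σ b * σ a * (s * σ b)⁻¹) = σ (a * (b * a * b⁻¹)) := by
  have m := E_le (conj_mem_of_norm nb ha)
  rw [h.hs _ (E_le ha) _ m, ← comm_iff_cj.1 (h.cs m).symm, h.hs.conj hb (E_le ha)]; group

theorem pL (ha : a ∈ EE) :
    Λ a * (s * σ b * Λ a * (s * σ b)⁻¹) = Λ (a * (b * a * b⁻¹)) * σ (b * a * b⁻¹) := by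
  have m := conj_mem_of_norm nb ha
  rw [h.add _ ha _ m, mul_assoc (Λ a), ← h.del _ (E_le m) (E_sq m), h.eqv a (E_le ha) (E_sq ha) b hb, mul_inv_rev,
    inv_sq h.s2]; group

theorem cb (ha : a ∈ EE) : Commute (a * (b * a * b⁻¹)) b := by
  have m := conj_mem_of_norm nb ha
  refine (comm_iff_cj.2 ?_).symm
  rw [← conj_mul, show b * (b * a * b⁻¹) * b⁻¹ = b * b * a * (b * b)⁻¹ by group, b2, one_mul, inv_one, mul_one]
  exact (comm_of_sqs (E_sq m) (E_sq ha) (E_sq (mul_mem m ha))).eq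

theorem fix (ha : a ∈ MM) (c : Commute a b) : (Λ b)⁻¹ * σ a * Λ b = σ a := by
  rw [mul_assoc, (h.cen hb b2 ha c).eq, inv_mul_cancel_left]

theorem pc (hj : j ∈ J) : Commute ((Λ b)⁻¹ * (j * (s * σ b * j * (s * σ b)⁻¹)) * Λ b) s := by
  have c : Commute (j * (s * σ b * j * (s * σ b)⁻¹)) (s * σ b) := by
    refine (comm_iff_cj.2 ?_).symm
    rw [← conj_mul, show ∀ t : G, t * (t * j * t⁻¹) * t⁻¹ = t * t * j * (t * t)⁻¹ from fun t => by group,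
      h.sb2 hb b2 nb, one_mul, inv_one, mul_one]
    exact h.jf.ab.mul_comm (conj_mem_of_norm (h.sbN hb b2 nb) hj) hj
  have := comm_cj' c (Λ b)
  rwa [h.ys' hb b2 nb] at this

theorem ps (hj : j ∈ J) : (Λ b)⁻¹ * j * Λ b * s * ((Λ b)⁻¹ * j * Λ b)⁻¹ * s =
    (Λ b)⁻¹ * (j * (s * σ b * j * (s * σ b)⁻¹)) * Λ b := by
  have e := h.ys' hb b2 nb
  rw [inv_sq (h.sb2 hb b2 nb)]
  generalize s * σ b = t at e
  calc _ = (Λ b)⁻¹ * (j * (t * j⁻¹ * t)) * Λ b := by rw [← e]; group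
    _ = _ := by rw [inv_sq (h.el j hj)]

theorem nj (k : ∀ j ∈ J, (Λ b)⁻¹ * (j * (s * σ b * j * (s * σ b)⁻¹)) * Λ b ∈ W ⊔ zpowers s) : Λ b ∈ 𝐍 J := by
  have d : ∀ j ∈ J, (Λ b)⁻¹ * (j * (s * σ b * j * (s * σ b)⁻¹)) * Λ b ∈ W := fun j hj =>
    ((mem_sup_zp h.s2 (cent_le_norm _ (h.jf.toAf.cW h.jf.fV))).1 (k j hj)).resolve_right fun m => by
      rw [← h.ps hb b2 nb hj, mul_assoc _ s s, h.s2, mul_one] at m
      obtain ⟨a, ha, e⟩ := (h.mW _).1 m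
      exact h.nD _ (e ▸ h.mL a (E_le ha)) (isConj_iff.2 ⟨_, rfl⟩)
  have hh := hom_comp h.add (h.ph hb b2 nb) h.mJ
  have k1 : ∀ a ∈ EE, (Λ b)⁻¹ * (Λ a * (s * σ b * Λ a * (s * σ b)⁻¹)) * Λ b = 1 → a = 1 := fun a ha e => by
    have m := conj_mem_of_norm nb ha
    have m' := mul_mem ha m
    have e1 := cj_eq_one' e
    rw [h.pL hb b2 nb ha] at e1
    have e2 := eq_inv_of_mul_eq_one_left e1
    have e3 := h.del _ (E_le m') (E_sq m')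
    rw [e2, ← (h.cs (E_le m)).inv_left.eq, mul_assoc, h.s2, mul_one, left_eq_mul] at e3
    rw [h.inj (E_le m') e3, h.add.one, one_mul] at e1
    exact cj_eq_one (h.inj (E_le m) e1)
  have i : ∀ a ∈ EE, ∀ a' ∈ EE, (Λ b)⁻¹ * (Λ a * (s * σ b * Λ a * (s * σ b)⁻¹)) * Λ b =
      (Λ b)⁻¹ * (Λ a' * (s * σ b * Λ a' * (s * σ b)⁻¹)) * Λ b → a = a' := fun a ha a' ha' e =>
    inv_mul_eq_one.1 (k1 _ (mul_mem (inv_mem ha) ha') (hom_div hh ha ha' e))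
  have l : W ≤ BG.cj (Λ b)⁻¹ J := by
    have l1 : hh.im EE le_rfl ≤ W := fun x hx => by
      obtain ⟨a, ha, rfl⟩ := hh.mem_im.1 hx; exact d _ (h.mJ a ha)
    have c1 := hh.card_eq (T := EE) (Z := ⊥) le_rfl fun g =>
      ⟨fun e => mem_bot.1 e ▸ ⟨one_mem _, hh.one⟩, fun e => mem_bot.2 (k1 g e.1 e.2)⟩
    have c2 := h.hs.card_eq (T := EE) (Z := ⊥) E_le fun g =>
      ⟨fun e => mem_bot.1 e ▸ ⟨one_mem _, h.hs.one⟩, fun e => mem_bot.2 (h.inj (E_le e.1) e.2)⟩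
    rw [show h.hs.im EE E_le = W from Subgroup.ext fun x => h.hs.mem_im.trans (h.mW x).symm] at c2
    rw [← eq_of_card_eq l1 (by rw [card_bot] at c1 c2; omega)]
    intro x hx
    obtain ⟨a, ha, rfl⟩ := hh.mem_im.1 hx
    have := h.mJ a ha
    simpa [mem_cj, mul_assoc] using mul_mem this (conj_mem_of_norm (h.sbN hb b2 nb) this)
  have mB : ∀ {j}, j ∈ J → (Λ b)⁻¹ * j * Λ b ∈ BG.cj (Λ b)⁻¹ J := fun hj => by simpa [mem_cj, mul_assoc] using hj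
  have ne : ∀ a ∈ EE, a ≠ 1 → (Λ b)⁻¹ * Λ a * Λ b * s * ((Λ b)⁻¹ * Λ a * Λ b)⁻¹ ≠ s := fun a ha n e =>
    n (k1 a ha (by rw [← h.ps hb b2 nb (h.mJ a ha), e, h.s2]))
  have := h.jf.uq (abel_cj.2 h.jf.ab) ((abel_cj.2 h.jf.ab).trans (cent_anti l)) (fun x hx => by
      obtain ⟨j, hj, rfl⟩ := mem_cj_iff.1 hx
      rw [inv_inv, h.ps hb b2 nb hj]; exact d j hj) (mB (h.mJ _ mem_E.1)) (mB (h.mJ _ mem_E.2.1))
    (ne _ mem_E.1 pZ_iv.ne) (ne _ mem_E.2.1 i34.ne) fun e => (wne [7] [9] : pZ ≠ e34) (i _ mem_E.1 _ mem_E.2.1 (by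
      rw [← h.ps hb b2 nb (h.mJ _ mem_E.1), e, h.ps hb b2 nb (h.mJ _ mem_E.2.1)]))
  simpa using inv_mem (mem_norm_of_cj_le this)
end

theorem nj1 : Λ v1 ∈ 𝐍 J := by
  have nb : v1 ∈ 𝐍 EE := E_N (by decide)
  have b2 := iv1.sq
  have hh := h.ph mv1 b2 nb
  have q := h.toQT
  refine h.nj mv1 b2 nb fun j hj => ?_
  obtain ⟨a, ha, b, hb, rfl⟩ := h.dec hj
  rw [show _ * (_ * _) * _ = _ from hh _ (h.mJ a ha) _ (h.sJ hb)]
  refine mul_mem ?_ (mem_sup_left ?_)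
  swap
  · have m := mul_mem hb (conj_mem_of_norm nb hb)
    simp only
    rw [h.pS mv1 b2 nb hb, h.fix mv1 b2 nb (E_le m) (h.cb mv1 b2 nb hb)]; exact h.sW m
  refine (clo_pre (hom_comp h.add hh h.mJ) (T := W ⊔ zpowers s) ?_ a ha).2
  have t : ∀ a ∈ EE, Commute a v1 → (Λ v1)⁻¹ * (Λ a * (s * σ v1 * Λ a * (s * σ v1)⁻¹)) * Λ v1 ∈ W ⊔ zpowers s :=
    fun a ha c => by
      rw [h.pL mv1 b2 nb ha, comm_iff_cj.1 c.symm, E_sq ha, h.add.one, one_mul, h.fix mv1 b2 nb (E_le ha) c]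
      exact mem_sup_left (h.sW ha)
  have pJ : ∀ a ∈ EE, Λ a * (s * σ v1 * Λ a * (s * σ v1)⁻¹) ∈ J := fun a ha =>
    mul_mem (h.mJ a ha) (conj_mem_of_norm (h.sbN mv1 b2 nb) (h.mJ a ha))
  have n : ∀ a ∈ EE, (Λ v1)⁻¹ * (Λ a * (s * σ v1 * Λ a * (s * σ v1)⁻¹)) * Λ v1 ∈ 𝐍 (OL s) := fun a ha =>
    OL_nr (h.pc mv1 b2 nb (h.mJ a ha))
  have s1 : ∀ a ∈ EE, θ ((Λ v1)⁻¹ * (Λ a * (s * σ v1 * Λ a * (s * σ v1)⁻¹)) * Λ v1) *
      θ ((Λ v1)⁻¹ * (Λ a * (s * σ v1 * Λ a * (s * σ v1)⁻¹)) * Λ v1) = 1 := fun a ha =>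
    hom_sq q.hom (n a ha) (by simpa using sq_cj (h.el _ (pJ a ha)) (Λ v1)⁻¹)
  have c1 : ∀ a ∈ EE, ∀ u ∈ EE, Commute u v1 →
      Commute (θ ((Λ v1)⁻¹ * (Λ a * (s * σ v1 * Λ a * (s * σ v1)⁻¹)) * Λ v1)) u := fun a ha u hu c => by
    have := hom_comm q.hom (n a ha) (q.ln (h.mL u (E_le hu))) (h.fix mv1 b2 nb (E_le hu) c ▸
      comm_cj' (h.jf.ab.mul_comm (pJ a ha) (h.sJ hu)) (Λ v1))
    rwa [h.ts u (E_le hu)] at this
  have r : ∀ a ∈ EE, θ ((Λ v1)⁻¹ * (Λ a * (s * σ v1 * Λ a * (s * σ v1)⁻¹)) * Λ v1) * v1 *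
      θ ((Λ v1)⁻¹ * (Λ a * (s * σ v1 * Λ a * (s * σ v1)⁻¹)) * Λ v1) * v1 = a * (v1 * a * v1⁻¹) := fun a ha => by
    have m := conj_mem_of_norm nb ha
    have m' := mul_mem ha m
    have n1 := n a ha
    have n2 := q.ln (h.mL _ mv1)
    have e : Λ a * (s * σ v1 * Λ a * (s * σ v1)⁻¹) * σ v1 * (Λ a * (s * σ v1 * Λ a * (s * σ v1)⁻¹)) * σ v1 =
        σ (a * (v1 * a * v1⁻¹)) := by
      have c := h.cen (E_le m') (E_sq m') mv1 (h.cb mv1 b2 nb ha).symm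
      have c' : Commute (σ (v1 * a * v1⁻¹) * σ v1) (Λ (a * (v1 * a * v1⁻¹))) :=
        Commute.mul_left (h.jf.ab.mul_comm (h.sJ m) (h.mJ _ m')) c
      rw [h.pL mv1 b2 nb ha, mul_assoc (Λ _), ← c'.eq, mul_assoc _ (Λ _), ← mul_assoc (Λ _), h.sq _ (E_le m') (E_sq m'),
        one_mul, ← h.hs _ (E_le m) _ mv1, ← h.hs _ (mul_mem (E_le m) mv1) _ (E_le m),
        ← h.hs _ (mul_mem (mul_mem (E_le m) mv1) (E_le m)) _ mv1]
      congr 1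
      calc _ = v1 * a * v1 * a := by group
        _ = v1 * a * v1⁻¹ * a := by rw [inv_sq b2]
        _ = _ := (comm_of_sqs (E_sq m) (E_sq ha) (E_sq (mul_mem m ha))).eq
    rw [← h.ts _ (E_le m'), ← h.fix mv1 b2 nb (E_le m') (h.cb mv1 b2 nb ha), ← e]
    generalize Λ a * (s * σ v1 * Λ a * (s * σ v1)⁻¹) = p at n1 ⊢
    have e2 : (Λ v1)⁻¹ * (p * σ v1 * p * σ v1) * Λ v1 = (Λ v1)⁻¹ * p * Λ v1 * σ v1 * ((Λ v1)⁻¹ * p * Λ v1) * σ v1 := by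
      conv_rhs => rw [← h.fix mv1 b2 nb mv1 (Commute.refl _)]
      group
    rw [e2, q.hom _ (mul_mem (mul_mem n1 n2) n1) _ n2, q.hom _ (mul_mem n1 n2) _ n1, q.hom _ n1 _ n2, h.ts _ mv1]
  obtain ⟨z, u, v, w⟩ := mem_E
  have cz : Commute pZ v1 := weq [7, 15] [15, 7]
  have cu : Commute e34 v1 := weq [9, 15] [15, 9]
  obtain ⟨k1, k2⟩ := e2 (q.mem _ (n _ w)) (q.mem _ (n _ v)) (s1 _ w) (s1 _ v)
    (hom_comm q.hom (n _ w) (n _ v) (comm_cj' (h.jf.ab.mul_comm (pJ _ w) (pJ _ v)) _))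
    (c1 _ w _ z cz) (c1 _ w _ u cu) (c1 _ v _ z cz) (c1 _ v _ u cu)
    ((r _ w).trans (weq [13, 15, 13, 16] [9])) ((r _ v).trans (weq [11, 15, 11, 16] [7]))
  simp only [Set.mem_insert_iff, Set.mem_singleton_iff, forall_eq_or_imp, forall_eq]
  exact ⟨⟨z, t _ z cz⟩, ⟨u, t _ u cu⟩, ⟨v, h.mV (h.pc mv1 b2 nb (h.mJ _ v)) k2⟩, w, h.mV (h.pc mv1 b2 nb (h.mJ _ w)) k1⟩

theorem njz (hb : b ∈ MM) (i : Iv b) (c : Commute b pZ) (n : b ∉ EE) :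
    Λ pZ * Λ b * (Λ pZ)⁻¹ * (Λ b)⁻¹ ∈ J ∧ Λ pZ * Λ b * Λ (pZ * b) ∈ J := by
  obtain ⟨⟨m, hm, nm, e⟩, x, hx, e'⟩ := e5 hb i c n
  have k : Λ b ∈ 𝐍 J := by
    rw [← e, h.eqv _ mv1 iv1.sq m hm]
    exact mul_mem (mul_mem (h.nJ hm nm) h.nj1) (inv_mem (h.nJ hm nm))
  have z := h.mJ _ mem_E.1
  refine ⟨by simpa [mul_assoc] using mul_mem z (conj_mem_of_norm k (inv_mem z)), ?_⟩
  have : pZ * b = x * b * x⁻¹ := by rw [e', mul_assoc _ b b, i.sq, mul_one, inv_sq (E_sq hx)]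
  rw [this, h.eqv b hb i.sq x (E_le hx)]
  have := mul_mem z (mul_mem (conj_mem_of_norm k (h.sJ hx)) (inv_mem (h.sJ hx)))
  rw [inv_sq (h.sq b hb i.sq)] at this
  simpa [mul_assoc] using this

/-- additivity on commuting involutions -/
theorem ad (ha : a ∈ MM) (hb : b ∈ MM) (ia : Iv a) (ib : Iv b) (c : Commute a b) :
    Commute (Λ a) (Λ b) ∧ Λ (a * b) = Λ a * Λ b := by
  have ab2 := sq_mul ia.sq ib.sq c
  have mab := mul_mem ha hb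
  have E : ∀ {a b m}, a ∈ EE → b ∈ EE → m ∈ MM → Commute (Λ (m * a * m⁻¹)) (Λ (m * b * m⁻¹)) ∧
      Λ (m * a * m⁻¹ * (m * b * m⁻¹)) = Λ (m * a * m⁻¹) * Λ (m * b * m⁻¹) := fun {a b m} ha hb hm => by
    rw [conj_mul, h.eqv _ (E_le ha) (E_sq ha) m hm, h.eqv _ (E_le hb) (E_sq hb) m hm,
      h.eqv _ (E_le (mul_mem ha hb)) (E_sq (mul_mem ha hb)) m hm, h.add a ha b hb, conj_mul]
    exact ⟨comm_cj (h.jf.ab.mul_comm (h.mJ a ha) (h.mJ b hb)) _, rfl⟩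
  have F : ∀ {a b m}, m ∈ MM → b ∈ MM → Iv b → a = m * pZ * m⁻¹ → Commute a b → m⁻¹ * b * m ∉ EE →
      (σ m)⁻¹ * (Λ a * Λ b * (Λ a)⁻¹ * (Λ b)⁻¹) * σ m ∈ J ∧ (σ m)⁻¹ * (Λ a * Λ b * Λ (a * b)) * σ m ∈ J :=
    fun {a b m} hm hb ib e c n => by
      have m1 := mul_mem (mul_mem (inv_mem hm) hb) hm
      have c1 : Commute (m⁻¹ * b * m) pZ := by simpa [e, mul_assoc] using comm_cj' c.symm m
      obtain ⟨k1, k2⟩ := h.njz m1 (ib.conj' m) c1 n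
      have e1 : b = m * (m⁻¹ * b * m) * m⁻¹ := by group
      have i1 := (ib.conj' m).sq
      generalize m⁻¹ * b * m = b' at *
      subst e e1
      rw [conj_mul, h.eqv _ pZ_MM pZ_iv.sq m hm, h.eqv _ m1 i1 m hm,
        h.eqv _ (mul_mem pZ_MM m1) (sq_mul pZ_iv.sq i1 c1.symm) m hm]
      exact ⟨by simpa [mul_assoc] using k1, by simpa [mul_assoc] using k2⟩
  obtain ⟨k, hk, ek⟩ := clsM ha ia
  obtain ⟨l, hl, el⟩ := clsM hb ib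
  by_cases n1 : k⁻¹ * b * k ∈ EE
  · simpa [ek, mul_assoc] using E mem_E.1 n1 hk
  by_cases n2 : l⁻¹ * a * l ∈ EE
  · simpa [el, mul_assoc] using E n2 mem_E.1 hl
  obtain ⟨f1, f2⟩ := F hk hb ib ek.symm c n1
  obtain ⟨g1, g2⟩ := F hl ha ia el.symm c.symm n2
  have T : ∀ x, Commute x s → (σ k)⁻¹ * x * σ k ∈ J → (σ l)⁻¹ * x * σ l ∈ J → x = 1 := fun x cx j1 j2 => by
    obtain ⟨u, hu, eu⟩ := (h.mW _).1 (h.jf.cf j1 (((h.cs hk).inv_left.mul_left cx).mul_left (h.cs hk)))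
    have w2 := h.jf.cf j2 (((h.cs hl).inv_left.mul_left cx).mul_left (h.cs hl))
    by_contra x1
    have m := mul_mem (inv_mem hl) hk
    have e : (σ l)⁻¹ * x * σ l = σ (l⁻¹ * k * u * (l⁻¹ * k)⁻¹) := by
      rw [h.hs.conj m (E_le hu), eu, h.hs _ (inv_mem hl) _ hk, h.hs.inv hl]; group
    have := E_ti m hu (fun e => x1 (cj_eq_one' (by rw [← eu, e, h.hs.one])))
      (h.WE (MM_cj (MM_le m) (E_le hu)) (e ▸ w2))
    exact n2 (by simpa [← ek, mul_assoc] using conj_mem_of_norm this mem_E.1)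
  have sa := h.del a ha ia.sq
  have sb := h.del b hb ib.sq
  have a1 := h.cen ha ia.sq ha (Commute.refl _)
  have a2 := h.cen hb ib.sq ha c
  have a3 := h.cen mab ab2 ha ((Commute.refl a).mul_right c)
  have b1 := h.cen ha ia.sq hb c.symm
  have b2 := h.cen hb ib.sq hb (Commute.refl _)
  have b3 := h.cen mab ab2 hb (c.symm.mul_right (Commute.refl b))
  have cab := hom_comm h.hs ha hb c
  have si := inv_sq h.s2
  have C : Commute (Λ a) (Λ b) := comm_iff_c.2 (T _ (by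
    refine (comm_iff_cj.2 ?_).symm
    have e : s * (Λ a * Λ b * (Λ a)⁻¹ * (Λ b)⁻¹) * s⁻¹ =
        s * Λ a * s⁻¹ * (s * Λ b * s⁻¹) * (s * Λ a * s⁻¹)⁻¹ * (s * Λ b * s⁻¹)⁻¹ := by group
    rw [e, si, sa, sb]
    have k1 : Λ a * σ a * (Λ b * σ b) * (Λ a * σ a)⁻¹ = Λ a * (Λ b * σ b) * (Λ a)⁻¹ := by
      rw [mul_assoc (Λ a), (a2.mul_right cab).eq]; group
    rw [k1, ← mul_assoc (Λ a), mul_assoc _ (σ b), b1.inv_right.eq]; group) f1 (by simpa [mul_assoc] using inv_mem g1))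
  refine ⟨C, ?_⟩
  have := T (Λ a * Λ b * Λ (a * b)) (by
    refine (comm_iff_cj.2 ?_).symm
    rw [← conj_mul, ← conj_mul, si, sa, sb, h.del _ mab ab2, a2.mul_mul_mul_comm, (a3.mul_left b3).mul_mul_mul_comm,
      ← h.hs a ha b hb, hom_sq h.hs mab ab2, mul_one]) f2 (by rwa [C.eq, c.eq])
  rw [← inv_sq (h.sq _ mab ab2), ← eq_inv_of_mul_eq_one_left this]

theorem base : Commute (Λ v1 * σ v1) (Λ e35) := by
  obtain ⟨z, u, v, w⟩ := mem_E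
  have T : ∀ p ∈ MM, Iv p → ∀ x ∈ EE, x ≠ 1 → Commute p x → e13 * p * e13⁻¹ = p * x →
      σ e13 * Λ p * (σ e13)⁻¹ = Λ p * Λ x := fun p hp ip x hx n c e => by
    rw [← h.eqv p hp ip.sq _ m13, e, (h.ad hp (E_le hx) ip ⟨n, E_sq hx⟩ c).2]
  have c21 : Commute v2 v1 := weq [17, 15] [15, 17]
  have y := mul_mem v (mul_mem z u)
  have t1 := T v1 mv1 iv1 e34 u i34.ne (weq [15, 9] [9, 15]) (weq [13, 15, 14] [15, 9])
  have t2 := T v2 mv2 iv2 e35 v i35.ne (weq [17, 11] [11, 17]) (weq [13, 17, 14] [17, 11])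
  have t3 := T _ (mul_mem mv2 mv1) ⟨wne [17, 15] [], sq_mul iv2.sq iv1.sq c21⟩ _ y (wne [11, 7, 9] [])
    (weq [17, 15, 11, 7, 9] [11, 7, 9, 17, 15]) (weq [13, 17, 15, 14] [17, 15, 11, 7, 9])
  rw [(h.ad mv2 mv1 iv2 iv1 c21).2, ← conj_mul, t1, t2, h.add _ v _ (mul_mem z u), h.add _ z _ u, ← mul_assoc (Λ e35),
    ← h.add _ v _ z, show e35 * pZ = v1 * e35 * v1⁻¹ from weq [11, 7] [15, 11, 16], h.eqv _ m35 i35.sq _ mv1] at t3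
  have c := (h.cen mv1 iv1.sq mv1 (Commute.refl _)).eq
  rw [Commute, SemiconjBy]
  calc Λ v1 * σ v1 * Λ e35 = (Λ v2)⁻¹ * (Λ v2 * Λ v1 * (σ v1 * Λ e35 * (σ v1)⁻¹ * Λ e34)) * (Λ e34)⁻¹ * σ v1 := by group
    _ = _ := by rw [← t3]; group

theorem fin : ∃ N θ', QT N θ' ∧ BG.cj s N ≤ 𝐂 N := by
  have q := h.toQT
  have si := inv_sq h.s2
  obtain ⟨l, l1, l2, l3⟩ := gen (R := fun a b => a ∈ MM ∧ b ∈ MM ∧ a * a = 1 ∧ b * b = 1 ∧ Commute (Λ a * σ a) (Λ b))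
    (fun a b m hm ⟨ha, hb, a2, b2, c⟩ => ⟨MM_cj (MM_le hm) ha, MM_cj (MM_le hm) hb, sq_cj a2 m, sq_cj b2 m, by
      rw [h.eqv a ha a2 m hm, h.eqv b hb b2 m hm, h.hs.conj hm ha, conj_mul]; exact comm_cj c _⟩)
    (fun a b ⟨ha, hb, a2, b2, c⟩ => ⟨hb, ha, b2, a2, by
      have := comm_cj c s
      rw [← h.del a ha a2, si, h.del b hb b2, show s * (s * Λ a * s) * s = s * s * Λ a * (s * s) by group, h.s2,
        one_mul, mul_one] at this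
      exact this.symm⟩)
    (fun a ha b hb ia ib c => ⟨ha, hb, ia.sq, ib.sq, (h.ad ha hb ia ib c).1.mul_left (h.cen hb ib.sq ha c)⟩)
    ⟨mv1, m35, iv1.sq, i35.sq, h.base⟩
    (fun a b c ⟨ha, hb, a2, b2, k1⟩ ⟨_, hc, _, c2, k2⟩ ⟨_, _, _, _, k3⟩ => by
      have e : b * c * b = b * c * b⁻¹ := by rw [inv_sq b2]
      refine ⟨ha, mul_mem (mul_mem hb hc) hb, a2, e ▸ sq_cj c2 b, ?_⟩
      rw [e, h.eqv c hc c2 b hb, show σ b * Λ c * (σ b)⁻¹ = (Λ b)⁻¹ * (Λ b * σ b * Λ c * (Λ b * σ b)⁻¹) * Λ b by group,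
        comm_iff_cj.1 k3]
      exact (k1.inv_right.mul_right k2).mul_right k1)
  let N0 : Subgroup G := closure (Λ '' {a | a ∈ l})
  have cc : BG.cj s N0 ≤ 𝐂 N0 := by
    rw [cj_le_iff]
    refine (closure_le _).2 fun _ ⟨a, ha, e⟩ => e ▸ mem_cj_inv.2 (cen_of (fun x hx => ?_))
    refine clo_le_cen (s := Λ '' {a | a ∈ l}) (fun _ ⟨b, hb, e⟩ => e ▸ ?_) x hx
    rw [si, h.del a (l1 a ha).1 (l1 a ha).2.sq]
    exact (l3 a ha b hb).2.2.2.2.symm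
  have cm : ∀ x ∈ N0, ∀ y ∈ N0, Commute y (s * x * s⁻¹) := fun x hx y hy => cen_comm (cc (conj_mem_cj.2 hx)) hy
  have hd : HomOn N0 fun x => x * (s * x * s⁻¹) := fun a ha b hb => by
    simp only
    rw [← (cm a ha b hb).mul_mul_mul_comm]; group
  have dl : ∀ a ∈ l, Λ a * (s * Λ a * s⁻¹) = σ a := fun a ha => by
    rw [si, h.del a (l1 a ha).1 (l1 a ha).2.sq, ← mul_assoc, h.sq a (l1 a ha).1 (l1 a ha).2.sq, one_mul]
  have mL : ∀ x ∈ N0, x * (s * x * s⁻¹) ∈ OL s := fun x hx =>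
    (clo_pre hd (s := Λ '' {a | a ∈ l}) (T := OL s) (fun _ ⟨a, ha, e⟩ => e ▸ ⟨subset_closure ⟨a, ha, rfl⟩, by
      rw [dl a ha]; exact h.mL a (l1 a ha).1⟩) x hx).2
  have hp := hom_comp hd q.hl mL
  have kr : ∀ x ∈ N0, θ (x * (s * x * s⁻¹)) = 1 → x ∈ 𝐂 N0 := fun x hx e => by
    have := h.st _ (mL x hx)
    rw [e, h.hs.one] at this
    exact eq_inv_of_mul_eq_one_left this.symm ▸ inv_mem (cc (conj_mem_cj.2 hx))
  have im : hp.im N0 le_rfl = MM := le_antisymm (fun a ha => by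
      obtain ⟨x, hx, rfl⟩ := hp.mem_im.1 ha; exact q.im _ (mL x hx))
    (l2.trans ((closure_le _).2 fun a ha => hp.mem_im.2 ⟨Λ a, subset_closure ⟨a, ha, rfl⟩, by
      rw [dl a ha, h.ts a (l1 a ha).1]⟩))
  have le := der_le N0
  have sur : ∀ m ∈ MM, ∃ x ∈ ⁅N0, N0⁆, θ (x * (s * x * s⁻¹)) = m := fun m hm =>
    hp.mem_im.1 (by rw [im_comm hp le_rfl le_rfl le, im]; exact MM_pf hm)
  have dec : ∀ x ∈ N0, ∃ y ∈ ⁅N0, N0⁆, ∃ c ∈ 𝐂 N0, x = y * c := fun x hx => by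
    obtain ⟨y, hy, e⟩ := sur _ (q.im _ (mL x hx))
    exact ⟨y, hy, _, kr _ (mul_mem (inv_mem (le hy)) hx) (hom_div hp (le hy) hx e), by group⟩
  obtain ⟨θ', k, -⟩ := QT.of (hp.mono le) (fun x hx => q.im _ (mL x (le hx))) sur
    (fun x hx e => cent_anti le (kr x (le hx) e)) (commutator_le.2 fun x hx y hy => by
      obtain ⟨a, ha, c, hc, rfl⟩ := dec x hx
      obtain ⟨b, hb, d, hd, rfl⟩ := dec y hy
      have h1 : a * c * (b * d) * (a * c)⁻¹ = a * (b * d) * a⁻¹ := by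
        rw [mul_assoc a c, ← mem_cent.1 hc _ hy]; group
      have h2 : a * (b * d) * a⁻¹ * (b * d)⁻¹ = a * b * a⁻¹ * b⁻¹ := by
        rw [← mul_assoc a b d, mul_assoc (a * b) d, ← mem_cent.1 hd _ (inv_mem (le ha))]; group
      rw [commutatorElement_def, h1, h2]
      exact commutator_mem_commutator ha hb)
  exact ⟨_, θ', k, cent_mono cc (cj_mono s le) le⟩
end B2

theorem B1.fin (h : B1 s θ W J lam) : ∃ N θ', QT N θ' ∧ cj s N ≤ 𝐂 N := by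
  obtain ⟨σ, Λ, k⟩ := h.b2
  exact k.fin

end CF.Tr
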