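import Cfsg.Agent.Tr.F1

/-! The calculus of perfect central extensions of `MM`. -/

set_option autoImplicit false
set_option maxRecDepth 1000000
set_option linter.unusedSectionVars false

namespace CF.Tr
open Cfsg Subgroup CF.BG CF.Bender CF.J4 CF.Comp CF.Dce CF.Comp.Mat CF.Dce.J4
open scoped commutatorElement

theorem Q1.aut (α : MulAut MM) : ∃ a ∈ S2, ∀ m : MM, (α m : Pm) = a * m * a⁻¹ := by
  let ψ : S2 →* MulAut MM := MM.normalizerMonoidHom.comp (inclusion S2_norm)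
  have h2 : Function.Injective ψ := (injective_iff_map_eq_one _).2 fun g e => Subtype.ext (S2_cent g.2
    (cen_of fun x hx => (comm_iff_cj.2 (congrArg (fun β : MulAut MM => ((β ⟨x, hx⟩ : MM) : Pm)) e)).symm))
  obtain ⟨a, rfl⟩ := (h2.bijective_of_nat_card_le (by rw [card_aut22, card_S2])).2 α
  exact ⟨a, a.2, fun m => rfl⟩

theorem Q1.uq {a b : Pm} (ha : a ∈ S2) (hb : b ∈ S2) (e : ∀ m ∈ MM, a * m * a⁻¹ = b * m * b⁻¹) : a = b :=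
  (inv_mul_eq_one.1 (S2_cent (mul_mem (inv_mem hb) ha) (cen_of fun m hm => (comm_iff_cj.2 (by
    rw [show b⁻¹ * a * m * (b⁻¹ * a)⁻¹ = b⁻¹ * (a * m * a⁻¹) * b by group, e m hm]; group)).symm))).symm

variable {G : Type*} [Group G] [Finite G] {L L' H K O : Subgroup G} {θ θ' : G → Pm} {f g b x y : G}

theorem QT.of {π : G → Pm} (hom : HomOn L π) (im : ∀ g ∈ L, π g ∈ MM) (sur : ∀ m ∈ MM, ∃ g ∈ L, π g = m)
    (ker : ∀ g ∈ L, π g = 1 → g ∈ 𝐂 L) (pf : L ≤ ⁅L, L⁆) : ∃ θ, QT L θ ∧ ∀ g ∈ L, θ g = π g := by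
  have k1 : ∀ x ∈ L, x ∈ 𝐂 L → π x = 1 := fun x hx c => S2_cent (MM_le (im x hx)) (cen_of fun m hm => by
    obtain ⟨y, hy, rfl⟩ := sur m hm
    exact hom_comm hom hy hx (cen_comm c hy))
  have ex : ∀ g ∈ 𝐍 L, ∃ a ∈ S2, ∀ x ∈ L, π (g * x * g⁻¹) = a * π x * a⁻¹ := fun g hg => by
    choose σ s1 s2 using fun m : MM => sur m m.2
    have cj : ∀ x ∈ L, g * x * g⁻¹ ∈ L := fun x => conj_mem_of_norm hg
    have wd : ∀ x ∈ L, ∀ y ∈ L, π x = π y → π (g * x * g⁻¹) = π (g * y * g⁻¹) := fun x hx y hy e => by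
      have := k1 _ (cj _ (mul_mem (inv_mem hx) hy)) (cen_cj hg (ker _ (mul_mem (inv_mem hx) hy) (hom_div hom hx hy e)))
      rw [show g * (x⁻¹ * y) * g⁻¹ = (g * x * g⁻¹)⁻¹ * (g * y * g⁻¹) by group, hom _ (inv_mem (cj x hx)) _ (cj y hy),
        hom.inv (cj x hx)] at this
      exact inv_mul_eq_one.1 this
    let β : MM →* MM := MonoidHom.mk' (fun m => ⟨π (g * σ m * g⁻¹), im _ (cj _ (s1 m))⟩) fun a b => Subtype.ext (by
      show π _ = π _ * π _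
      rw [← hom _ (cj _ (s1 a)) _ (cj _ (s1 b)), wd _ (s1 _) _ (mul_mem (s1 a) (s1 b))
        (by rw [hom _ (s1 a) _ (s1 b), s2, s2, s2]; rfl)]
      congr 1; group)
    have inj : Function.Injective β := (injective_iff_map_eq_one _).2 fun m e => Subtype.ext (by
      have := cen_cj (inv_mem hg) (ker _ (cj _ (s1 m)) (congrArg Subtype.val e))
      rw [← s2, k1 _ (s1 m) (by simpa [mul_assoc] using this)]; rfl)
    obtain ⟨a, ha, e⟩ := Q1.aut (MulEquiv.ofBijective β (Finite.injective_iff_bijective.1 inj))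
    exact ⟨a, ha, fun x hx => (wd _ hx _ (s1 ⟨_, im x hx⟩) (s2 ⟨_, im x hx⟩).symm).trans (e ⟨_, im x hx⟩)⟩
  choose! θ t1 t2 using ex
  have uq : ∀ g ∈ 𝐍 L, ∀ a ∈ S2, (∀ x ∈ L, π (g * x * g⁻¹) = a * π x * a⁻¹) → θ g = a := fun g hg a ha e =>
    Q1.uq (t1 g hg) ha fun m hm => by
      obtain ⟨y, hy, rfl⟩ := sur m hm
      rw [← t2 g hg y hy, e y hy]
  have eq : ∀ g ∈ L, θ g = π g := fun g hg =>
    uq g (le_norm_self L hg) _ (MM_le (im g hg)) fun x hx => hom.conj hg hx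
  refine ⟨θ, ⟨fun a ha b hb => uq _ (mul_mem ha hb) _ (mul_mem (t1 a ha) (t1 b hb)) fun x hx => ?_, t1,
    fun g hg => ⟨fun e => cc_sol pf (center_abel L).sol inf_le_right fun x hx => ?_, fun c => uq g hg 1 (one_mem _)
      fun x hx => by rw [comm_iff_cj.1 (cen_comm c hx).symm]; simp⟩, fun g hg => eq g hg ▸ im g hg,
    fun m hm => (sur m hm).imp fun g k => ⟨k.1, (eq g k.1).trans k.2⟩, pf⟩, eq⟩
  · rw [show a * b * x * (a * b)⁻¹ = a * (b * x * b⁻¹) * a⁻¹ by group, t2 a ha _ (conj_mem_of_norm hb hx), t2 b hb x hx]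
    group
  · have m := conj_mem_of_norm hg (inv_mem hx)
    have m' : x * g * x⁻¹ * g⁻¹ ∈ L := by simpa only [mul_assoc] using mul_mem hx m
    refine ⟨m', ker _ m' ?_⟩
    rw [show x * g * x⁻¹ * g⁻¹ = x * (g * x⁻¹ * g⁻¹) by group, hom _ hx _ m, t2 g hg _ (inv_mem hx), e, hom.inv hx]
    simp

theorem QT.ln (_ : QT L θ) (hx : x ∈ L) : x ∈ 𝐍 L := le_norm_self L hx

theorem QT.hl (h : QT L θ) : HomOn L θ := h.hom.mono (le_norm_self L)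

theorem QT.k1 (h : QT L θ) (c : x ∈ 𝐂 L) : θ x = 1 := (h.ker x (cent_le_norm L c)).2 c

theorem QT.k2 (h : QT L θ) (hx : x ∈ 𝐍 L) (e : θ x = 1) : x ∈ 𝐂 L := (h.ker x hx).1 e

theorem QT.div (h : QT L θ) (hx : x ∈ 𝐍 L) (hy : y ∈ 𝐍 L) (e : θ x = θ y) : x⁻¹ * y ∈ 𝐂 L :=
  h.k2 (mul_mem (inv_mem hx) hy) (hom_div h.hom hx hy e)

theorem QT.div' (h : QT L θ) (hx : x ∈ 𝐍 L) (hy : y ∈ 𝐍 L) (e : θ x = θ y) : x * y⁻¹ ∈ 𝐂 L :=
  h.k2 (mul_mem hx (inv_mem hy)) (hom_div' h.hom hx hy e)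

theorem QT.mulc (h : QT L θ) (hx : x ∈ 𝐍 L) (c : y ∈ 𝐂 L) : θ (x * y) = θ x := by
  rw [h.hom _ hx _ (cent_le_norm L c), h.k1 c, mul_one]

theorem QT.cmul (h : QT L θ) (hx : x ∈ 𝐍 L) (c : y ∈ 𝐂 L) : θ (y * x) = θ x := by
  rw [h.hom _ (cent_le_norm L c) _ hx, h.k1 c, one_mul]

theorem QT.cen (h : QT L θ) (hy : y ∈ 𝐍 L) (e : ∀ m ∈ MM, Commute m (θ y)) : y ∈ 𝐂 L :=
  h.k2 hy (S2_cent (h.mem y hy) (cen_of e))

theorem QT.uniq (h : QT L θ) (hg : g ∈ 𝐍 L) {a : Pm} (ha : a ∈ S2)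
    (e : ∀ x ∈ L, θ (g * x * g⁻¹) = a * θ x * a⁻¹) : θ g = a :=
  Q1.uq (h.mem g hg) ha fun m hm => by
    obtain ⟨y, hy, rfl⟩ := h.sur m hm
    rw [← e y hy, h.hom.conj hg (h.ln hy)]

theorem mem_norm_cj : x ∈ 𝐍 (cj g L) ↔ g⁻¹ * x * g ∈ 𝐍 L := by rw [← cj_norm, mem_cj]

theorem mem_cen_cj : x ∈ 𝐂 (cj g L) ↔ g⁻¹ * x * g ∈ 𝐂 L := by rw [← cj_cent, mem_cj]

theorem QT.cj (h : QT L θ) (g : G) : QT (cj g L) fun x => θ (g⁻¹ * x * g) :=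
  ⟨fun a ha b hb => by
      rw [← h.hom _ (mem_norm_cj.1 ha) _ (mem_norm_cj.1 hb)]; congr 1; group,
    fun a ha => h.mem _ (mem_norm_cj.1 ha), fun a ha => (h.ker _ (mem_norm_cj.1 ha)).trans mem_cen_cj.symm,
    fun a ha => h.im _ (mem_cj.1 ha), fun m hm => (h.sur m hm).elim fun x k =>
      ⟨g * x * g⁻¹, conj_mem_cj.2 k.1, by simpa [mul_assoc] using k.2⟩, cj_comm g L L ▸ cj_mono g h.pf⟩

theorem QZ.cj (h : QZ L θ) (g : G) : QZ (cj g L) fun x => θ (g⁻¹ * x * g) :=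
  ⟨h.toQT.cj g, fun a ha b hb c d n m => by
    simpa using h.z2 _ (mem_cj.1 ha) _ (mem_cj.1 hb) (mem_cen_cj.1 c) (mem_cen_cj.1 d)
      (fun e => n (cj_eq_one' e)) fun e => m (cj_eq_one' e)⟩

theorem mem_OL (c : Commute y f) (o : Odd (orderOf y)) : y ∈ OL f := subset_closure ⟨c1_of c, o⟩

theorem OL_ind (h : ∀ y, Commute y f → Odd (orderOf y) → y ∈ K) : OL f ≤ K :=
  (closure_le _).2 fun y hy => h y (c1_comm hy.1) hy.2

theorem OL_cj (f g : G) : OL (g * f * g⁻¹) = cj g (OL f) :=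
  le_antisymm (OL_ind fun y c o => mem_cj.2 (mem_OL (by simpa [mul_assoc] using comm_cj' c g) (odd_cj' o g)))
    (cj_le_iff.2 (OL_ind fun y c o => mem_cj_inv.2 (mem_OL (comm_cj c g) (odd_cj o g))))

theorem HI.cj (h : HI f θ) (g : G) : HI (g * f * g⁻¹) fun x => θ (g⁻¹ * x * g) :=
  ⟨OL_cj f g ▸ h.toQZ.cj g, h.iv.conj g⟩

theorem H0.cj (h : H0 f) (g : G) : H0 (g * f * g⁻¹) := fun k c => by
  rw [OL_cj, mem_cen_cj]
  simpa [mul_assoc] using h (g⁻¹ * k * g) (by simpa [mul_assoc] using comm_cj' c g)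

theorem OL_le (f : G) : OL f ≤ 𝐂₁ f := OL_ind fun _ c _ => c1_of c

theorem OL_comm (hx : x ∈ OL f) : Commute x f := c1_comm (OL_le f hx)

theorem OL_cen (f : G) : f ∈ 𝐂 (OL f) := cen_of fun _ => OL_comm

theorem OL_nor (f : G) : 𝐂₁ f ≤ 𝐍 (OL f) := fun g hg => by
  rw [← cj_eq_self, ← OL_cj, comm_iff_cj.1 (c1_comm hg)]

theorem OL_nr (c : Commute g f) : g ∈ 𝐍 (OL f) := OL_nor f (c1_of c)

theorem QT.of_cent {π : G → Pm} (hom : HomOn (𝐂₁ f) π) (mem : ∀ g ∈ 𝐂₁ f, π g ∈ S2)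
    (sur : ∀ m ∈ MM, ∃ g ∈ 𝐂₁ f, π g = m) (ker : ∀ g ∈ 𝐂₁ f, π g = 1 → g * g = 1 ∧ g ∈ 𝐂 (OL f)) :
    ∃ θ, QT (OL f) θ ∧ ∀ g ∈ 𝐂₁ f, θ g = π g := by
  have l := OL_le f
  have im : ∀ x ∈ OL f, π x ∈ MM := fun x hx =>
    (clo_pre hom (fun y hy => ⟨hy.1, odd_MM (mem y hy.1) (hom_odd hom hy.1 hy.2)⟩) x hx).2
  have su : ∀ m ∈ MM, ∃ x ∈ OL f, π x = m := fun m hm => clo_im (hom.mono l) (fun ρ hρ => by
    obtain ⟨g, hg, rfl⟩ := sur ρ hρ.1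
    obtain ⟨x, h1, h2, h3⟩ := odd_lift hom hg hρ.2
    exact ⟨x, mem_OL (c1_comm (zpowers_le.2 hg h1)) h2, h3⟩) m (MM_odd hm)
  have pf : OL f ≤ ⁅OL f, OL f⁆ := OL_ind fun y c o => by
    have hy := mem_OL c o
    have l' : MM ≤ hom.im _ l := fun m hm => hom.mem_im.2 (su m hm)
    obtain ⟨x, hx, e⟩ := hom.mem_im.1 ((im_comm hom l l ((der_le _).trans l)).ge (der_mono l' (MM_pf (im y hy))))
    have hx' := der_le _ hx
    obtain ⟨k1, k2⟩ := ker _ (l (mul_mem (inv_mem hx') hy)) (hom_div hom (l hx') (l hy) e)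
    refine mem_of_sq o ?_
    have : y * y = x * x := calc
      y * y = x * (x⁻¹ * y * x) * (x⁻¹ * y) := by group
      _ = x * x * (x⁻¹ * y * (x⁻¹ * y)) := by rw [← (cen_comm k2 hx').eq]; group
      _ = _ := by rw [k1, mul_one]
    exact this ▸ mul_mem hx hx
  obtain ⟨θ, q, e⟩ := QT.of (hom.mono l) im su (fun g hg k => (ker g (l hg) k).2) pf
  exact ⟨θ, q, fun g hg => q.uniq (OL_nor f hg) (mem g hg) fun x hx => by
    rw [e _ (conj_mem_of_norm (OL_nor f hg) hx), e x hx, hom.conj hg (l hx)]⟩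

theorem Q1.alg {Z : Type*} [CommGroup Z] {A k k' a b c d e f : Z} (h1 : A * (a * a) = A * (A * (b * b)) * k)
    (h2 : A * (c * c) = A * (A * (d * d)) * k') (h3 : A * (e * e) = A * (A * (f * f)) * (k * k')) :
    ∃ w, A * (w * w) = 1 := by
  refine ⟨b * d * e * (a * c * f)⁻¹, ?_⟩
  have e1 : k = a * a * (A * (b * b))⁻¹ := by
    rw [mul_assoc, mul_right_inj] at h1; rw [h1, mul_comm, inv_mul_cancel_left]
  have e2 : k' = c * c * (A * (d * d))⁻¹ := by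
    rw [mul_assoc, mul_right_inj] at h2; rw [h2, mul_comm, inv_mul_cancel_left]
  rw [mul_assoc, mul_right_inj, e1, e2] at h3
  apply Additive.ofMul.injective
  have h4 := congrArg Additive.ofMul h3
  simp only [ofMul_mul, ofMul_inv, ofMul_one] at h4 ⊢
  rw [← sub_eq_zero] at h4
  refine Eq.trans ?_ h4; abel

theorem QT.li' (h : QT L θ) (hx : x ∈ L) (e : θ x * θ x = 1) : ∃ c ∈ L, c ∈ 𝐂 L ∧ x * c * (x * c) = 1 := by
  by_cases x1 : θ x = 1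
  · exact ⟨x⁻¹, inv_mem hx, inv_mem (h.k2 (h.ln hx) x1), by simp⟩
  obtain ⟨a, ha, ea⟩ := h.sur _ pZ_MM
  have sq : ∀ {u}, u ∈ L → θ u * θ u = 1 → u * u ∈ 𝐙 L := fun hu e =>
    ⟨mul_mem hu hu, h.k2 (h.ln (mul_mem hu hu)) (by rw [h.hl _ hu _ hu, e])⟩
  have hA := sq ha (ea ▸ pZ_iv.sq)
  have k : ∀ {u}, u ∈ L → Iv (θ u) → ∃ c ∈ 𝐙 L, u * u = a * a * (c * c) := fun {u} hu i => by
    obtain ⟨m, hm, e⟩ := clsM (h.im u hu) i
    obtain ⟨l, hl, rfl⟩ := h.sur m hm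
    have m1 := mul_mem (mul_mem hl ha) (inv_mem hl)
    have m2 := h.div (h.ln m1) (h.ln hu) (by rw [h.hl.conj hl ha, ea, e])
    refine ⟨_, mem_inf.2 ⟨mul_mem (inv_mem m1) hu, m2⟩, ?_⟩
    calc u * u = l * a * l⁻¹ * ((l * a * l⁻¹)⁻¹ * u * (l * a * l⁻¹)) * ((l * a * l⁻¹)⁻¹ * u) := by group
      _ = l * (a * a) * l⁻¹ * ((l * a * l⁻¹)⁻¹ * u * ((l * a * l⁻¹)⁻¹ * u)) := by rw [← (cen_comm m2 m1).eq]; group
      _ = _ := by rw [comm_iff_cj.1 (cen_comm hA.2 hl)]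
  suffices ∃ w ∈ 𝐙 L, a * a * (w * w) = 1 by
    obtain ⟨w, hw, e1⟩ := this
    obtain ⟨c, hc, e2⟩ := k hx ⟨x1, e⟩
    have m := mul_mem (inv_mem hc) hw
    refine ⟨_, m.1, m.2, ?_⟩
    calc x * (c⁻¹ * w) * (x * (c⁻¹ * w)) = x * (c⁻¹ * w * x) * c⁻¹ * w := by group
      _ = x * x * c⁻¹ * (w * c⁻¹) * w := by rw [← (cen_comm m.2 hx).eq]; group
      _ = _ := by rw [← (cen_comm hw.2 (inv_mem hc.1)).eq, e2, ← e1]; group
  have k2 : ∀ {u}, u ∈ L → Commute pZ (θ u) → (a * u)⁻¹ * (u * a) ∈ 𝐙 L := fun {u} hu c =>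
    mem_inf.2 ⟨mul_mem (inv_mem (mul_mem ha hu)) (mul_mem hu ha), h.div (h.ln (mul_mem ha hu)) (h.ln (mul_mem hu ha))
      (by rw [h.hl _ ha _ hu, h.hl _ hu _ ha, ea, c.eq])⟩
  have k3 : ∀ {u}, (hu : u ∈ L) → (c : Commute pZ (θ u)) → Iv (θ u) → Iv (pZ * θ u) → ∃ c ∈ 𝐙 L, ∃ d ∈ 𝐙 L,
      a * a * (c * c) = a * a * (a * a * (d * d)) * ((a * u)⁻¹ * (u * a)) := fun {u} hu c i j => by
    obtain ⟨c1, h1, e1⟩ := k (mul_mem ha hu) (by rwa [h.hl _ ha _ hu, ea])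
    obtain ⟨d, h2, e2⟩ := k hu i
    refine ⟨c1, h1, d, h2, ?_⟩
    rw [← e1, ← e2]
    calc a * u * (a * u) = a * a * u * ((a * u)⁻¹ * (u * a) * u) := by group
      _ = _ := by rw [← (cen_comm (k2 hu c).2 hu).eq]; group
  obtain ⟨b, hb, eb⟩ := h.sur _ (φ_MM (i := 4) (by decide))
  obtain ⟨c, hc, ec⟩ := h.sur _ (φ_MM (i := 5) (by decide))
  have iv : ∀ w ∈ [[9], [11], [9, 11], [7, 9], [7, 11], [7, 9, 11]], Iv (ev φ w) ∧ Commute pZ (ev φ w) := fun w hw => by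
    obtain ⟨h1, h2, h3⟩ := (by decide +kernel : ∀ w ∈ [[9], [11], [9, 11], [7, 9], [7, 11], [7, 9, 11]],
      Bt.difW nN 24 5 w [] = true ∧ sameW nN 24 5 (w ++ w) [] = true ∧ sameW nN 24 5 (7 :: w) (w ++ [7]) = true) w hw
    exact ⟨⟨by simpa using neN h1, by simpa [ev_append] using eqN h2⟩,
      by simpa [ev_append, evL, Commute, SemiconjBy] using eqN h3⟩
  simp only [List.forall_mem_cons, ev_cons, ev_nil, evL, mul_one] at iv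
  norm_num at iv
  obtain ⟨i1, i2, i3, i4, i5, i6⟩ := iv
  have ebc : θ (b * c) = e34 * e35 := by rw [h.hl _ hb _ hc, eb, ec]
  obtain ⟨c1, m1, d1, n1, e1⟩ := k3 hb (eb ▸ i1.2) (eb ▸ i1.1) (eb ▸ i4.1)
  obtain ⟨c2, m2, d2, n2, e2⟩ := k3 hc (ec ▸ i2.2) (ec ▸ i2.1) (ec ▸ i5.1)
  obtain ⟨c3, m3, d3, n3, e3⟩ := k3 (mul_mem hb hc) (ebc ▸ i3.2) (ebc ▸ i3.1) (ebc ▸ i6.1)
  have p1 := k2 hb (eb ▸ i1.2)
  have p2 := k2 hc (ec ▸ i2.2)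
  have e4 : (a * (b * c))⁻¹ * (b * c * a) = (a * b)⁻¹ * (b * a) * ((a * c)⁻¹ * (c * a)) := calc
    _ = c⁻¹ * ((a * b)⁻¹ * (b * a)) * (c * ((a * c)⁻¹ * (c * a))) := by group
    _ = _ := by rw [(cen_comm p1.2 (inv_mem hc)).eq]; group
  rw [e4] at e3
  letI : CommGroup ↥(𝐙 L) := { (inferInstance : Group ↥(𝐙 L)) with
    mul_comm := fun x y => Subtype.ext (cen_comm y.2.2 x.2.1).eq }
  obtain ⟨w, e⟩ := Q1.alg (Z := ↥(𝐙 L)) (A := ⟨_, hA⟩) (k := ⟨_, p1⟩) (k' := ⟨_, p2⟩) (a := ⟨_, m1⟩) (b := ⟨_, n1⟩)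
    (c := ⟨_, m2⟩) (d := ⟨_, n2⟩) (e := ⟨_, m3⟩) (f := ⟨_, n3⟩) (Subtype.ext e1) (Subtype.ext e2) (Subtype.ext e3)
  exact ⟨w, w.2, congrArg Subtype.val e⟩

theorem QZ.sq (h : QZ L θ) (hx : x ∈ L) (c : x ∈ 𝐂 L) : x * x = 1 := by_contra fun n => by
  have x1 : x ≠ 1 := fun e => n (by simp [e])
  exact x1 (by simpa using h.z2 _ (mul_mem hx hx) x hx (mul_mem c c) c n x1)

theorem QZ.li (h : QZ L θ) (hx : x ∈ L) (e : θ x * θ x = 1) : x * x = 1 := by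
  obtain ⟨c, h1, h2, h3⟩ := h.toQT.li' hx e
  rwa [mul_assoc, ← mul_assoc c, ← (cen_comm h2 hx).eq, mul_assoc, h.sq h1 h2, mul_one] at h3

/-- lifts of commuting involutions commute -/
theorem QZ.lc (h : QZ L θ) (hx : x ∈ L) (hy : y ∈ L) (e : θ x * θ x = 1) (e' : θ y * θ y = 1)
    (c : Commute (θ x) (θ y)) : Commute x y :=
  comm_of_sqs (h.li hx e) (h.li hy e') (h.li (mul_mem hx hy) (by rw [h.hl _ hx _ hy]; exact sq_mul e e' c))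

theorem QT.odx (h : QT L θ) {ρ : Pm} (hρ : ρ ∈ MM) (o : Odd (orderOf ρ)) :
    ∃ x ∈ L, Odd (orderOf x) ∧ θ x = ρ := by
  obtain ⟨g, hg, rfl⟩ := h.sur ρ hρ
  obtain ⟨x, h1, h2⟩ := odd_lift h.hl hg o
  exact ⟨x, zpowers_le.2 hg h1, h2⟩

theorem QT.cm (h : QT L θ) (hx : x ∈ L) (hy : y ∈ 𝐍 L) (e : θ x = θ y) : Commute x y := by
  simpa using (Commute.refl x).mul_right (cen_comm (h.div (h.ln hx) hy e) hx)

theorem QT.odl (h : QT L θ) (hb : b ∈ 𝐍 L) (b2 : b * b = 1) {ρ : Pm} (hρ : ρ ∈ MM) (o : Odd (orderOf ρ))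
    (c : Commute ρ (θ b)) : ∃ x ∈ L, Odd (orderOf x) ∧ θ x = ρ ∧ Commute x b := by
  obtain ⟨x, hx, ox, rfl⟩ := h.odx hρ o
  have m := conj_mem_of_norm hb hx
  have e : θ (b * x * b⁻¹) = θ x := by rw [h.hom.conj hb (h.ln hx), comm_iff_cj.1 c.symm]
  have c' := h.cm hx (h.ln m) e.symm
  obtain ⟨k, e'⟩ := odd_sqrt o
  refine ⟨(x * (b * x * b⁻¹)) ^ k, pow_mem (mul_mem hx m) k, odd_pow (odd_mul ox (odd_cj ox b) c') k,
    by rw [h.hl.pow (mul_mem hx m), h.hl _ hx _ m, e, e'], Commute.pow_left (comm_iff_cj.2 ?_).symm k⟩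
  rw [c'.eq, show b * (b * x * b⁻¹ * x) * b⁻¹ = b * b * x * (b * b)⁻¹ * (b * x * b⁻¹) by group, b2, ← c'.eq]; simp

theorem QZ.odu (h : QZ L θ) (hx : x ∈ L) (hy : y ∈ L) (o : Odd (orderOf x)) (o' : Odd (orderOf y))
    (e : θ x = θ y) : x = y :=
  inv_mul_eq_one.1 (odd_sq1 (odd_mul (odd_inv o) o' (h.cm hx (h.ln hy) e).inv_left)
    (h.sq (mul_mem (inv_mem hx) hy) (h.div (h.ln hx) (h.ln hy) e)))

theorem QZ.odc (h : QZ L θ) (hb : b ∈ 𝐍 L) (hx : x ∈ L) (o : Odd (orderOf x)) (c : Commute (θ x) (θ b)) :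
    Commute x b :=
  (comm_iff_cj.2 (h.odu (conj_mem_of_norm hb hx) hx (odd_cj o b) o
    (by rw [h.hom.conj hb (h.ln hx), comm_iff_cj.1 c.symm]))).symm

theorem QT.le_of (h : QT L θ) (s : ∀ m ∈ MM, ∃ g ∈ K, g ∈ L ∧ θ g = m) : L ≤ K :=
  (pf_le (K := K ⊓ L) h.pf fun x hx => by
    obtain ⟨a, h1, h2, e⟩ := s _ (h.im x hx)
    have := h.div (h.ln h2) (h.ln hx) e
    exact ⟨a, ⟨h1, h2⟩, _, by simp, this, cent_anti inf_le_right this⟩).trans inf_le_left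

theorem QT.odg (h : QT L θ) : L ≤ closure {o | o ∈ L ∧ Odd (orderOf o)} := h.le_of fun m hm => by
  have l : closure {o | o ∈ L ∧ Odd (orderOf o)} ≤ L := (closure_le _).2 fun _ k => k.1
  obtain ⟨x, hx, e⟩ := clo_im (h.hl.mono l) (fun ρ hρ => by
    obtain ⟨x, k1, k2, k3⟩ := h.odx hρ.1 hρ.2
    exact ⟨x, subset_closure ⟨k1, k2⟩, k3⟩) m (MM_odd hm)
  exact ⟨x, hx, l hx, e⟩

theorem QT.cen_odd (h : QT L θ) (e : ∀ o ∈ L, Odd (orderOf o) → Commute o y) : y ∈ 𝐂 L :=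
  cen_of fun x hx => clo_le_cen (fun o k => e o k.1 k.2) x (h.odg hx)

theorem QT.cc (h : QT L θ) (_ : y ∈ 𝐍 L) (e : ∀ x ∈ L, x * y * x⁻¹ * y⁻¹ ∈ 𝐂 L) : y ∈ 𝐂 L :=
  h.cen ‹_› fun m hm => by
    obtain ⟨x, hx, rfl⟩ := h.sur m hm
    rw [comm_iff_c, ← hom_c h.hom (h.ln hx) ‹_›, h.k1 (e x hx)]

theorem QT.nc (h : QT L θ) : ∃ x ∈ L, x * x = 1 ∧ x ∉ 𝐂 L := by
  obtain ⟨a, ha, e⟩ := h.sur _ pZ_MM
  obtain ⟨c, h1, h2, h3⟩ := h.li' ha (e ▸ pZ_iv.sq)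
  exact ⟨_, mul_mem ha h1, h3, fun k => pZ_iv.ne (by rw [← e, ← h.mulc (h.ln ha) h2, h.k1 k])⟩

/-- lifts of involutions to involutions -/
theorem QT.lz (h : QT L θ) {t : Pm} (ht : t ∈ MM) (e : t * t = 1) : ∃ x ∈ L, x * x = 1 ∧ θ x = t := by
  obtain ⟨a, ha, rfl⟩ := h.sur _ ht
  obtain ⟨c, h1, h2, h3⟩ := h.li' ha e
  exact ⟨_, mul_mem ha h1, h3, h.mulc (h.ln ha) h2⟩

theorem QT.nrm (h : QT L θ) (h1 : H ≤ 𝐍 L) (h2 : L ≤ 𝐍 H) : H ≤ 𝐂 L ∨ ∀ m ∈ MM, ∃ g ∈ H, θ g = m := by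
  by_cases e : h.hom.im H h1 = ⊥
  · exact .inl fun x hx => h.k2 (h1 hx) (eq_one_of_mem_bot e (h.hom.mem_im.2 ⟨x, hx, rfl⟩))
  refine .inr fun m hm => h.hom.mem_im.1 (nrmA (fun a ha => ?_) (fun a ha => ?_) e hm)
  · obtain ⟨x, hx, rfl⟩ := h.hom.mem_im.1 ha
    exact h.mem x (h1 hx)
  · obtain ⟨x, hx, rfl⟩ := h.sur a ha
    exact im_norm h.hom h1 (h.ln hx) (h2 hx)

theorem QT.nn (h : QT L θ) (h1 : H ≤ 𝐍 L) (h2 : L ≤ 𝐍 H) : L ≤ H ∨ H ≤ 𝐂 L := by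
  rcases h.nrm (inf_le_left.trans h1) (norm_inf h2 (le_norm_self L)) with e | e
  · exact .inr fun y hy => h.cc (h1 hy) fun x hx => e (mem_inf.2 ⟨mul_mem (conj_mem_of_norm (h2 hx) hy) (inv_mem hy),
      by simpa only [mul_assoc] using mul_mem hx (conj_mem_of_norm (h1 hy) (inv_mem hx))⟩)
  · exact .inl (h.le_of fun m hm => (e m hm).elim fun g k => ⟨g, k.1.1, k.1.2, k.2⟩)

theorem QT.pf_im (h : QT L θ) (n : H ≤ 𝐍 L) (pf : H ≤ ⁅H, H⁆) (hx : x ∈ H) : θ x ∈ MM :=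
  (h.hom.mem_pre.1 ((commutator_le (H₃ := h.hom.pre MM)).2 (fun a ha b hb => h.hom.mem_pre.2
    ⟨n (der_le H (commutator_mem_commutator ha hb)), by
      rw [commutatorElement_def, hom_c h.hom (n ha) (n hb)]
      exact S2_der (h.mem a (n ha)) (h.mem b (n hb))⟩) (pf hx))).2

theorem QT.card (h : QT L θ) : ♯L = ♯MM * ♯(𝐙 L) := by
  rw [h.hl.card_eq le_rfl (Z := 𝐙 L) fun g => ⟨fun k => ⟨k.1, h.k1 k.2⟩, fun k => ⟨k.1, h.k2 (h.ln k.1) k.2⟩⟩]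
  congr 2
  exact congrArg _ (le_antisymm (fun m hm => by obtain ⟨x, hx, rfl⟩ := h.hl.mem_im.1 hm; exact h.im x hx)
    fun m hm => h.hl.mem_im.2 (h.sur m hm))

theorem QT.im2 (h : QT L θ) (h' : QT L' θ') (n : L' ≤ 𝐍 L) : L' ≤ 𝐂 L ∨ ∀ m ∈ MM, ∃ g ∈ L', θ g = m := by
  rcases h'.nn (H := L' ⊓ 𝐂 L) (norm_of_le inf_le_left) (norm_inf (le_norm_self _) (norm_cent n)) with e | e
  · exact .inl (e.trans inf_le_right)
  have l : h.hom.im L' n ≤ MM := fun m hm => by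
    obtain ⟨x, hx, rfl⟩ := h.hom.mem_im.1 hm; exact h.pf_im n h'.pf hx
  refine .inr fun m hm => h.hom.mem_im.1 ((eq_of_card_le l ?_).ge hm)
  have c := h.hom.card_eq n (Z := L' ⊓ 𝐂 L) fun g => ⟨fun k => ⟨k.1, h.k1 k.2⟩, fun k => ⟨k.1, h.k2 (n k.1) k.2⟩⟩
  rw [h'.card] at c
  exact Nat.le_of_mul_le_mul_right (c.le.trans (Nat.mul_le_mul_left _ (card_le (le_inf inf_le_left e)))) (card_pos' _)

theorem nc_B : ¬ Commute e13 pB ∧ ¬ Commute e13 (pB * pZ) ∧ ¬ Commute (e13 * pZ) pB ∧ ¬ Commute (e13 * pZ) (pB * pZ) :=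
  ⟨by simpa [evL, Commute, SemiconjBy] using neN (u := [13, 21]) (w := [21, 13]) (by decide +kernel),
    by simpa [evL, Commute, SemiconjBy, mul_assoc] using neN (u := [13, 21, 7]) (w := [21, 7, 13]) (by decide +kernel),
    by simpa [evL, Commute, SemiconjBy, mul_assoc] using neN (u := [13, 7, 21]) (w := [21, 13, 7]) (by decide +kernel),
    by simpa only [ev_cons, ev_nil, evl, Commute, SemiconjBy, mul_assoc, mul_one] using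
      neN (u := [13, 7, 21, 7]) (w := [21, 7, 13, 7]) (by decide +kernel)⟩

theorem e13_iv : Iv e13 := φ_iv (by decide)

theorem e13_z : Commute e13 pZ := by
  simpa [evL, Commute, SemiconjBy] using eqN (u := [13, 7]) (w := [7, 13]) (by decide +kernel)

theorem QZ.c1 (h : QZ L θ) (hb : b ∈ 𝐍 L) (i : Iv (θ b)) (hg : g ∈ 𝐍 L)
    (e : ∀ x ∈ L, Commute x b → Commute (θ x) (θ g)) : θ g = 1 ∨ θ g = θ b := by
  have k : ∀ o ∈ MM, Odd (orderOf o) → Commute o (θ b) → Commute o (θ g) := fun o ho oo c => by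
    obtain ⟨x, hx, ox, rfl⟩ := h.odx ho oo
    exact e x hx (h.odc hb hx ox c)
  by_cases n : θ b ∈ MM
  swap
  · exact c1o (h.mem b hb) i n (h.mem g hg) k
  obtain ⟨m, hm, e1⟩ := clsM n i
  obtain ⟨y, hy, ey⟩ := h.sur _ (MM_cj (MM_le hm) (φ_MM (i := 6) (by decide)))
  obtain ⟨z, hz, ez⟩ := h.sur _ n
  have c1 : Commute y z := h.lc hy hz (ey ▸ sq_cj e13_iv.sq m) (ez ▸ i.sq) (by rw [ey, ez, ← e1]; exact comm_cj e13_z m)
  have c2 := comm_cj' (ey ▸ e y hy (by simpa using c1.mul_right (cen_comm (h.div (h.ln hz) hb ez) hy))) m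
  simp only [mul_assoc, inv_mul_cancel, inv_mul_cancel_left, mul_one] at c2
  rw [← mul_assoc] at c2
  rcases c3 (a := m⁻¹ * θ g * m) (mul_mem (mul_mem (inv_mem (MM_le hm)) (h.mem g hg)) (MM_le hm)) (fun o ho oo c => by
    simpa [mul_assoc] using comm_cj' (k _ (MM_cj (MM_le hm) ho) (odd_cj oo m) (e1 ▸ comm_cj c m)) m) with a | a | a | a
  · exact .inl (cj_eq_one' a)
  · exact .inr (by rw [← e1, ← a]; group)
  · exact absurd (a ▸ c2) nc_B.1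
  · exact absurd (a ▸ c2) nc_B.2.1

theorem HI.odd1 (h : HI f θ) (c : Commute y f) (k : y ∈ 𝐂 (OL f)) (o : Odd (orderOf y)) : y = 1 :=
  odd_sq1 o (h.sq (mem_OL c o) k)

theorem HI.vg (h : HI f θ) : PiGrp {2} (𝐂₁ f ⊓ 𝐂 (OL f)) := piGrp_of_forall_elt fun x hx =>
  (constt_eq_one.1 (h.odd1 (c1_comm (constt_mem_of_mem _ hx).1) (constt_mem_of_mem _ hx).2
    (odd_elt.1 (constt_pi _ x)))).of_compl_compl

theorem HI.eq_of (_ : HI f θ) (c : g * f * g⁻¹ ∈ 𝐂 (OL f)) : OL (g * f * g⁻¹) = OL f :=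
  (eq_of_card_le (OL_ind fun y k o => mem_OL (cen_comm c (mem_OL k o)) o)
    (by rw [OL_cj, cj_def, card_map (conj_inj g)])).symm

/-- an odd group normalised by `L` and normalising `L` centralises it -/
theorem QT.odd_cen (h : QT L θ) (o : Odd (♯O)) (h1 : O ≤ 𝐍 L) (h2 : L ≤ 𝐍 O) : O ≤ 𝐂 L :=
  (h.nrm h1 h2).resolve_right fun e => by
    obtain ⟨x, hx, e⟩ := e _ pZ_MM
    exact pZ_iv.ne (odd_sq1 (e ▸ hom_odd h.hom (h1 hx) (odd_mem o hx)) pZ_iv.sq)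

theorem HI.inv (h : HI f θ) (o : Odd (♯O)) (h1 : f ∈ 𝐍 O) (h2 : OL f ≤ 𝐍 O) : ∀ y ∈ O, f * y * f = y⁻¹ :=
  inv_of_fpf h.iv.sq o h1 fun y hy c => h.odd1 c (h.odd_cen (O := O ⊓ OL f) (o.of_dvd_nat (card_dvd inf_le_left))
    (norm_of_le inf_le_right) (norm_inf h2 (le_norm_self _)) ⟨hy, mem_OL c (odd_mem o hy)⟩)
    (odd_mem o hy)

end CF.Tr
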