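import Cfsg.Agent.Tr.Q1
import Cfsg.Agent.Tr.F2
import Cfsg.Agent.S1241
import Cfsg.Agent.Transfer.Tate

/-! Images of central extensions, transfer. -/

set_option autoImplicit false
set_option maxRecDepth 1000000
set_option linter.unusedSectionVars false

namespace CF.Tr
open Cfsg Subgroup CF.BG CF.Bender CF.J4 CF.Comp CF.Dce CF.Comp.Mat CF.Dce.J4
open scoped commutatorElement

universe u

theorem exists_qm {G : Type u} [Group G] [Finite G] {H O : Subgroup G} (n : O ⊴ H) :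
    ∃ (Q : Type u) (_ : Group Q) (_ : Finite Q) (ψ : G → Q), Qm H O ψ := by
  classical
  have := n.normal
  let ψ : G → H ⧸ O.subgroupOf H := fun g => if h : g ∈ H then QuotientGroup.mk ⟨g, h⟩ else 1
  have e : ∀ g (h : g ∈ H), ψ g = QuotientGroup.mk ⟨g, h⟩ := fun g h => dif_pos h
  refine ⟨_, inferInstance, inferInstance, ψ, n.le, fun a ha b hb => by rw [e _ (mul_mem ha hb), e a ha, e b hb]; rfl,
    fun q => ?_, fun g hg => by rw [e g hg, QuotientGroup.eq_one_iff]; rfl⟩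
  obtain ⟨x, rfl⟩ := QuotientGroup.mk_surjective q
  exact ⟨x, x.2, e x x.2⟩

variable {G : Type*} [Group G] [Finite G] {L' H K O : Subgroup G} {θ θ' : G → Pm} {f x y : G}

section Img
variable {Q : Type*} [Group Q] {ψ : G → Q}

theorem Qm.top (q : Qm H O ψ) : q.hom.im H le_rfl = ⊤ := eq_top_iff.2 fun y _ => q.hom.mem_im.2 (q.sur y)

theorem Qm.card (q : Qm H O ψ) : ♯H = Nat.card Q * ♯O := by
  rw [q.hom.card_eq le_rfl (Z := O) fun g => ⟨fun k => ⟨q.le k, (q.ker g (q.le k)).2 k⟩, fun k => (q.ker g k.1).1 k.2⟩,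
    q.top, card_top]

theorem Qm.k1 (q : Qm H O ψ) (h : x ∈ O) : ψ x = 1 := (q.ker x (q.le h)).2 h

theorem Qm.nor (q : Qm H O ψ) : H ≤ 𝐍 O := le_norm_iff.2 fun g hg x hx =>
  (q.ker _ (mul_mem (mul_mem hg (q.le hx)) (inv_mem hg))).1 (by rw [q.hom.conj hg (q.le hx), q.k1 hx]; simp)

theorem Qm.div (q : Qm H O ψ) (hx : x ∈ H) (hy : y ∈ H) : ψ x = ψ y ↔ x⁻¹ * y ∈ O := by
  rw [← q.ker _ (mul_mem (inv_mem hx) hy), q.hom _ (inv_mem hx) _ hy, q.hom.inv hx, inv_mul_eq_one]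

theorem Qm.div' (q : Qm H O ψ) (hx : x ∈ H) (hy : y ∈ H) : ψ x = ψ y ↔ x * y⁻¹ ∈ O := by
  rw [← q.ker _ (mul_mem hx (inv_mem hy)), q.hom _ hx _ (inv_mem hy), q.hom.inv hy, mul_inv_eq_one]

theorem Qm.comm (q : Qm H O ψ) (hx : x ∈ H) (hy : y ∈ H) : Commute (ψ x) (ψ y) ↔ x * y * x⁻¹ * y⁻¹ ∈ O := by
  rw [comm_iff_c, ← hom_c q.hom hx hy, q.ker _ (mul_mem (mul_mem (mul_mem hx hy) (inv_mem hx)) (inv_mem hy))]

theorem im_cen (h : HomOn K ψ) (a : H ≤ K) (hx : x ∈ K) (c : x ∈ 𝐂 H) : ψ x ∈ 𝐂 (h.im H a) := cen_of fun q hq => by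
  obtain ⟨y, hy, rfl⟩ := h.mem_im.1 hq
  exact hom_comm h (a hy) hx (cen_comm c hy)

variable [Finite Q]

theorem QT.map (h : QT L' θ) (hom : HomOn K ψ) (LK : L' ≤ K) (ker : ∀ x ∈ L', ψ x = 1 → x ∈ 𝐂 L') :
    ∃ θ', QT (hom.im L' LK) θ' ∧ ∀ x ∈ K, x ∈ 𝐍 L' → θ' (ψ x) = θ x := by
  choose! σ s1 s2 using fun y (hy : y ∈ hom.im L' LK) => hom.mem_im.1 hy
  have m : ∀ x ∈ L', ψ x ∈ hom.im L' LK := fun x hx => hom.mem_im.2 ⟨x, hx, rfl⟩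
  have e : ∀ x ∈ L', θ (σ (ψ x)) = θ x := fun x hx => by
    have k := s1 _ (m x hx)
    rw [← h.mulc (h.ln k) (ker _ (mul_mem (inv_mem k) hx) (hom_div hom (LK k) (LK hx) (s2 _ (m x hx)))),
      mul_inv_cancel_left]
  obtain ⟨θ', q, e'⟩ := QT.of (L := hom.im L' LK) (π := fun y => θ (σ y)) (fun a ha b hb => by
      obtain ⟨x, hx, rfl⟩ := hom.mem_im.1 ha
      obtain ⟨y, hy, rfl⟩ := hom.mem_im.1 hb
      simp only [← hom x (LK hx) y (LK hy), e x hx, e y hy, e _ (mul_mem hx hy), h.hl x hx y hy])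
    (fun y hy => h.im _ (s1 y hy)) (fun a ha => (h.sur a ha).elim fun x k => ⟨_, m x k.1, (e x k.1).trans k.2⟩)
    (fun y hy k => s2 y hy ▸ im_cen hom LK (LK (s1 y hy)) (h.k2 (h.ln (s1 y hy)) k))
    (fun y hy => by
      obtain ⟨x, hx, rfl⟩ := hom.mem_im.1 hy
      exact im_comm hom LK LK ((der_le _).trans LK) ▸ hom.mem_im.2 ⟨x, h.pf hx, rfl⟩)
  refine ⟨θ', q, fun x hx n => q.uniq (im_norm hom LK hx n) (h.mem x n) fun a ha => ?_⟩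
  obtain ⟨y, hy, rfl⟩ := hom.mem_im.1 ha
  have k := conj_mem_of_norm n hy
  rw [← hom.conj hx (LK hy), e' _ (m _ k), e' _ ha, e _ k, e y hy, h.hom.conj n (h.ln hy)]

theorem QZ.map (h : QZ L' θ) (hom : HomOn K ψ) (LK : L' ≤ K) (ker : ∀ x ∈ L', ψ x = 1 → x ∈ 𝐂 L') :
    ∃ θ', QZ (hom.im L' LK) θ' ∧ ∀ x ∈ K, x ∈ 𝐍 L' → θ' (ψ x) = θ x := by
  obtain ⟨θ', q, e⟩ := h.toQT.map hom LK ker
  refine ⟨θ', ⟨q, fun a ha b hb c d n m => ?_⟩, e⟩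
  obtain ⟨x, hx, rfl⟩ := hom.mem_im.1 ha
  obtain ⟨y, hy, rfl⟩ := hom.mem_im.1 hb
  rw [h.z2 x hx y hy (h.k2 (h.ln hx) (e x (LK hx) (h.ln hx) ▸ q.k1 c)) (h.k2 (h.ln hy) (e y (LK hy) (h.ln hy) ▸ q.k1 d))
    (fun k => n (k ▸ hom.one)) fun k => m (k ▸ hom.one)]

theorem im_OL (hom : HomOn K ψ) (fK : f ∈ K) (LK : OL f ≤ K) (hx : x ∈ OL f) : ψ x ∈ OL (ψ f) :=
  (clo_pre hom (fun y hy => have k := LK (subset_closure hy)
    ⟨k, mem_OL (hom_comm hom k fK (c1_comm hy.1)) (hom_odd hom k hy.2)⟩) x hx).2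

theorem HI.map (h : HI f θ) (hom : HomOn K ψ) (fK : f ∈ K)
    (LK : OL f ≤ K) (f1 : ψ f ≠ 1) (ker : ∀ x ∈ OL f, ψ x = 1 → x ∈ 𝐂 (OL f))
    (lift : ∀ y : Q, Commute y (ψ f) → Odd (orderOf y) → ∃ x ∈ OL f, ψ x = y) :
    ∃ θ', HI (ψ f) θ' ∧ OL (ψ f) = hom.im (OL f) LK ∧ ∀ x ∈ K, x ∈ 𝐍 (OL f) → θ' (ψ x) = θ x := by
  obtain ⟨θ', q, e⟩ := h.toQZ.map hom LK ker
  have k : OL (ψ f) = hom.im (OL f) LK := le_antisymm (OL_ind fun y c o => hom.mem_im.2 (lift y c o)) fun y hy => by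
    obtain ⟨x, hx, rfl⟩ := hom.mem_im.1 hy
    exact im_OL hom fK LK hx
  exact ⟨θ', ⟨k ▸ q, f1, hom_sq hom fK h.iv.sq⟩, k, e⟩

theorem Qm.lift (q : Qm H O ψ) (o : Odd (♯O)) (hf : f * f = 1) (fH : f ∈ H) {y : Q} (c : Commute y (ψ f)) :
    ∃ x ∈ H, Commute x f ∧ ψ x = y := by
  obtain ⟨x, hx, rfl⟩ := q.sur y
  have m := mul_mem (mul_mem hx fH) (inv_mem hx)
  have k : f * (x * f * x⁻¹) ∈ O := by
    rw [← q.ker _ (mul_mem fH m), q.hom _ fH _ m, q.hom.conj hx fH, comm_iff_cj.1 c, hom_sq q.hom fH hf]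
  obtain ⟨a, ha, e⟩ := dih_odd hf (sq_cj hf x) (odd_mem o k)
  have a1 := zpowers_le.2 k ha
  exact ⟨a * x, mul_mem (q.le a1) hx, comm_iff_cj.2 (Eq.trans (by group) e),
    by rw [q.hom _ (q.le a1) _ hx, q.k1 a1, one_mul]⟩

theorem Qm.hi (q : Qm H O ψ) (o : Odd (♯O)) (h : HI f θ) (fH : f ∈ H)
    (LH : OL f ≤ H) : ∃ θ', HI (ψ f) θ' ∧ OL (ψ f) = q.hom.im (OL f) LH ∧
      ∀ x ∈ H, x ∈ 𝐍 (OL f) → θ' (ψ x) = θ x :=
  h.map q.hom fH LH (fun e => h.iv.not_mem o ((q.ker f fH).1 e))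
    (fun x hx e => h.odd_cen (O := O ⊓ OL f) (o.of_dvd_nat (card_dvd inf_le_left)) (norm_of_le inf_le_right)
      (norm_inf (LH.trans q.nor) (le_norm_self _)) ⟨(q.ker x (LH hx)).1 e, hx⟩) fun y c oy => by
    obtain ⟨x, hx, c', rfl⟩ := q.lift o h.iv.sq fH c
    obtain ⟨z, h1, h2, h3⟩ := odd_lift q.hom hx oy
    exact ⟨z, mem_OL (c1_comm (zpowers_le.2 (c1_of c') h1)) h2, h3⟩

theorem Qm.h0 (q : Qm H O ψ) (o : Odd (♯O)) (h : HI f θ) (h0 : H0 f)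
    (fH : f ∈ H) (LH : OL f ≤ H) : H0 (ψ f) := fun y c => by
  obtain ⟨g, hg, rfl⟩ := q.sur y
  obtain ⟨θ', -, e, -⟩ := q.hi o h fH LH
  have m := mul_mem (mul_mem hg fH) (inv_mem hg)
  have m' := mul_mem fH m
  rw [← q.hom.conj hg fH] at c ⊢
  have k : f * (g * f * g⁻¹) * (f * (g * f * g⁻¹)) ∈ O := by
    rw [← q.ker _ (mul_mem m' m'), q.hom _ m' _ m', q.hom _ fH _ m]
    exact sq_mul (hom_sq q.hom fH h.iv.sq) (hom_sq q.hom m (sq_cj h.iv.sq g)) c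
  obtain ⟨a, ha, c'⟩ := dih_sq h.iv.sq (sq_cj h.iv.sq g) (odd_mem o k)
  have a1 := zpowers_le.2 k ha
  have e1 : a * (g * f * g⁻¹) * a⁻¹ = a * g * f * (a * g)⁻¹ := by group
  have := im_cen q.hom LH (mul_mem (mul_mem (q.le a1) m) (inv_mem (q.le a1))) (e1 ▸ h0 _ (e1 ▸ c'))
  rw [q.hom.conj (q.le a1) m, q.k1 a1] at this
  simpa [e] using this
end Img

theorem HI.nl (h : HI f θ) (h0 : H0 f) (q : QZ L' θ') (n : f ∈ 𝐍 L') : f ∈ 𝐂 L' := by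
  refine q.k2 n (by_contra fun n1 => ?_)
  have i : Iv (θ' f) := ⟨n1, hom_sq q.hom n h.iv.sq⟩
  obtain ⟨ρ, h1, h2, h3, h4⟩ := o0 (q.mem f n) i.sq
  obtain ⟨k, a, -, l, hl, -, -, e1, e2, e3⟩ := o2 (q.mem f n) i h1 h3 h2 h4
  obtain ⟨l, hl', rfl⟩ := q.sur l hl
  obtain ⟨o, ho, oo, rfl⟩ := q.odx h1 h3
  have m : f * (l * f * l⁻¹) ∈ L' := by
    simpa only [mul_assoc, h.iv.inv] using mul_mem (conj_mem_of_norm n hl') (inv_mem hl')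
  have e : θ' (f * (l * f * l⁻¹)) = ⁅⁅a, θ' o ^ k⁆, θ' o ^ k⁆ := by
    rw [q.hom _ n _ (mul_mem (mul_mem (q.ln hl') n) (inv_mem (q.ln hl'))), q.hom.conj (q.ln hl') n, ← e2, ← mul_assoc,
      i.sq, one_mul]
  have c := h0 l (comm_of_sqs h.iv.sq (sq_cj h.iv.sq l) (q.li m (e ▸ e1)))
  exact e3 (e ▸ hom_comm q.hl m ho (cen_comm (mul_mem (OL_cen f) c) (mem_OL (q.odc n ho oo h4) oo)).symm)

theorem HI.pp (h : HI f θ) (h0 : H0 f) (q : QT L' θ') (c : BG.cj f L' ≤ 𝐂 L') : False := by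
  obtain ⟨x, hx, x2, n⟩ := q.nc
  have cc : ∀ a ∈ L', ∀ b ∈ L', Commute b (f * a * f⁻¹) := fun a ha b hb => cen_comm (c (conj_mem_cj.2 ha)) hb
  have e : f * (x * f * x⁻¹) = f * x * f⁻¹ * x := by rw [h.iv.inv, inv_sq x2]; group
  have c1 := mul_mem (OL_cen f) (h0 x (comm_of_sqs h.iv.sq (sq_cj h.iv.sq x)
    (by rw [e]; exact sq_mul (sq_cj x2 f) x2 (cc x hx x hx).symm)))
  rw [e] at c1
  refine n (q.k2 (q.ln hx) (S2_odd (q.mem x (q.ln hx)) fun ρ hρ oρ => ?_))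
  obtain ⟨o, ho, oo, rfl⟩ := q.odx hρ oρ
  have c2 := cen_comm c1 (mem_OL (y := o * (f * o * f⁻¹)) (comm_iff_cj.2 (by
    rw [(cc o ho o ho).eq, show f * (f * o * f⁻¹ * o) * f⁻¹ = f * f * o * (f * f)⁻¹ * (f * o * f⁻¹) by group, h.iv.sq,
      ← (cc o ho o ho).eq]; simp)).symm (odd_mul oo (odd_cj oo f) (cc o ho o ho)))
  have c3 : (x * o)⁻¹ * (o * x) = f * (x * o * (o * x)⁻¹) * f⁻¹ := by
    have a1 := (cc _ (mul_mem ho hx) x hx).eq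
    have a2 := (cc x hx _ (mul_mem hx ho)).eq
    calc (x * o)⁻¹ * (o * x) = (x * o)⁻¹ * o * (x * (f * (o * x) * f⁻¹)) * (f * (o * x) * f⁻¹)⁻¹ := by group
      _ = (x * o)⁻¹ * (o * (f * o * f⁻¹) * (f * x * f⁻¹ * x)) * (f * (o * x) * f⁻¹)⁻¹ := by rw [a1]; group
      _ = (x * o)⁻¹ * (f * x * f⁻¹ * (x * o)) * (f * o * f⁻¹) * (f * (o * x) * f⁻¹)⁻¹ := by rw [c2.eq]; group
      _ = _ := by rw [← a2]; group
  have := q.k1 (c3 ▸ c (conj_mem_cj.2 (mul_mem (mul_mem hx ho) (inv_mem (mul_mem ho hx)))))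
  rw [q.hl _ (inv_mem (mul_mem hx ho)) _ (mul_mem ho hx), q.hl.inv (mul_mem hx ho), inv_mul_eq_one, q.hl _ hx _ ho,
    q.hl _ ho _ hx] at this
  exact this.symm

theorem ft (hf : Iv f) (fH : f ∈ H) (fK : f ∉ K) (n : K ⊴ H) (ab : ∀ x ∈ H, ∀ y ∈ H, x * y * x⁻¹ * y⁻¹ ∈ K)
    (fus : ∀ g : G, g * f * g⁻¹ ∈ H → g ∈ H) : f ∉ commutator G := by
  have : Fact (Nat.Prime 2) := ⟨Nat.prime_two⟩
  obtain ⟨T, hT, l⟩ := exists_syl_le (zpowers_le.2 fH) (ZD.iv_pi hf)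
  have s := hT.syl_of_norm_le (fun g hg => fus g (hT.le (conj_mem_of_norm hg (l (mem_zpowers f))))) le_top
  refine Cfsg.Agent.S1241.result (p := 2) H K n.le n.normal ab ?_ f fH fK ⟨1, hf.orderOf⟩ fun m a ha => ?_
  · exact relIndex_top_right H ▸ ((piNat_compl_single_iff_coprime Nat.prime_two).1 (s.idx_of_le hT.le)).symm
  · rcases sq_zp hf.sq (zpow_mem (mem_zpowers f) m) with e | e <;> rw [e] at ha ⊢
    · simpa using one_mem K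
    · exact ab a (fus a ha) f fH

theorem zt {C Q : Subgroup G} (l : Q ≤ C) (h1 : x ∈ Q) (h2 : x ∈ ⁅C, C⁆) (h3 : x ∈ 𝐂 C) :
    x ^ Q.relIndex C ∈ ⁅Q, Q⁆ := by
  have k : (⟨x, l h1⟩ : C) ∈ commutator C := by
    rw [← map_subtype_commutator] at h2
    obtain ⟨y, hy, e⟩ := h2
    rwa [← (Subtype.ext e : y = ⟨x, l h1⟩)]
  have := mem_map_of_mem C.subtype (CF.Transfer.pow_index_mem_commutator_of_center (H := Q.subgroupOf C)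
    (x := ⟨x, l h1⟩) h1 (mem_center_iff.2 fun g => Subtype.ext (cen_comm h3 g.2).eq) k)
  rwa [map_commutator, map_subgroupOf l] at this

theorem QT.pre_card (h : QT L' θ) {T : Subgroup Pm} (l : T ≤ MM) : ♯(h.hl.pre T) = ♯T * ♯(𝐙 L') := by
  rw [h.hl.card_eq (pre_le h.hl T) (Z := 𝐙 L') fun g => ⟨fun k => ⟨h.hl.mem_pre.2 ⟨k.1, h.k1 k.2 ▸ one_mem T⟩, h.k1 k.2⟩,
    fun k => ⟨pre_le h.hl T k.1, h.k2 (h.ln (pre_le h.hl T k.1)) k.2⟩⟩]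
  congr 2
  refine congrArg _ (le_antisymm (fun m hm => ?_) fun m hm => ?_)
  · obtain ⟨x, hx, rfl⟩ := h.hl.mem_im.1 hm; exact (h.hl.mem_pre.1 hx).2
  · obtain ⟨x, hx, rfl⟩ := h.sur m (l hm); exact h.hl.mem_im.2 ⟨x, h.hl.mem_pre.2 ⟨hx, hm⟩, rfl⟩

theorem E_TM : EE ≤ TM := closure_mono (by simp [Set.subset_def])

theorem TM_le : TM ≤ MM := (closure_le _).2 (by
  simp only [Set.insert_subset_iff, Set.singleton_subset_iff, SetLike.mem_coe]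
  exact ⟨φ_MM (by decide), φ_MM (by decide), φ_MM (by decide), φ_MM (by decide), φ_MM (by decide), φ_MM (by decide)⟩)

theorem card_zp_le {n : ℕ} (h : x ^ n = 1) (hn : 0 < n) : ♯(zpowers x) ≤ n := by
  rw [Nat.card_zpowers]; exact orderOf_le_of_pow_eq_one hn h

theorem card_sup_le (h : H ≤ 𝐍 K ∨ K ≤ 𝐍 H) : ♯(H ⊔ K) ≤ ♯H * ♯K :=
  Nat.le_of_dvd (Nat.mul_pos (card_pos' _) (card_pos' _)) (card_sup_dvd h)

theorem QZ.ns0 (h : QZ L' θ) (le : H ≤ L') (inj : ∀ x ∈ H, θ x = 1 → x = 1) (im : ∀ x ∈ H, θ x ∈ EE)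
    (sur : ∀ a ∈ EE, ∃ x ∈ H, θ x = a) {p q : G} (hp : p ∈ L') (hq : q ∈ L') (ep : θ p = v2) (eq : θ q = t3)
    (np : p ∈ 𝐍 H) (nq : q ∈ 𝐍 H) : ∀ c ∈ L', c ∈ 𝐂 L' → c = 1 := fun c hc cc => by
  have p2 : p * p = 1 := h.li hp (ep ▸ (φ_iv (by decide)).sq)
  have q2 : q * q = 1 := h.li hq (eq ▸ (φ_iv (by decide)).sq)
  have m := mul_mem hp hq
  have r4 : (p * q) ^ 4 = 1 := by
    rw [show (p * q) ^ 4 = p * q * (p * q) * (p * q * (p * q)) by simp only [pow_succ]; group]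
    refine h.li (mul_mem m m) ?_
    rw [h.hl _ m _ m, h.hl _ hp _ hq, ep, eq]
    exact weq [17, 19, 17, 19, 17, 19, 17, 19] []
  let D := zpowers (p * q) ⊔ zpowers p
  have n1 : zpowers p ≤ 𝐍 (zpowers (p * q)) := zpowers_le.2 (mem_norm_of_cj_le fun x hx => by
    obtain ⟨y, hy, rfl⟩ := mem_cj_iff.1 hx
    rw [inv_sq p2, (dih_inv p2 q2 hy).1]; exact inv_mem hy)
  have c1 : ♯D ≤ 8 := (card_sup_le (.inr n1)).trans
    (Nat.mul_le_mul (card_zp_le r4 (by norm_num)) (card_zp_le (n := 2) (by rwa [pow_two]) (by norm_num)))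
  have n2 : D ≤ 𝐍 H := sup_le (zpowers_le.2 (mul_mem np nq)) (zpowers_le.2 np)
  have l : H ⊔ D ≤ L' := sup_le le (sup_le (zpowers_le.2 m) (zpowers_le.2 hp))
  have c2 : ♯H ≤ 16 := by
    rw [h.hl.card_eq le (Z := ⊥) fun g => ⟨fun k => mem_bot.1 k ▸ ⟨one_mem _, h.hl.one⟩, fun k => inj g k.1 k.2⟩, card_bot,
      mul_one, ← E_card]
    exact card_le fun a ha => by obtain ⟨x, hx, rfl⟩ := h.hl.mem_im.1 ha; exact im x hx
  have pD : p ∈ H ⊔ D := mem_sup_right (mem_sup_right (mem_zpowers p))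
  have qD : q ∈ H ⊔ D := by
    simpa [← mul_assoc, p2] using mul_mem pD (mem_sup_right (mem_sup_left (mem_zpowers (p * q))) : _ ∈ H ⊔ D)
  have su : TM ≤ h.hl.im _ l := (closure_le _).2 (by
    have k : ∀ a ∈ ({pZ, e34, e35, e13} : Set Pm), a ∈ h.hl.im _ l := fun a ha =>
      (sur a (subset_closure ha)).elim fun x k => h.hl.mem_im.2 ⟨x, mem_sup_left k.1, k.2⟩
    simp only [Set.insert_subset_iff, Set.singleton_subset_iff, SetLike.mem_coe]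
    exact ⟨k _ (by simp), k _ (by simp), k _ (by simp), k _ (by simp), h.hl.mem_im.2 ⟨p, pD, ep⟩,
      h.hl.mem_im.2 ⟨q, qD, eq⟩⟩)
  have c3 : ♯((H ⊔ D) ⊓ 𝐂 L') ≤ 1 := by
    have := h.hl.card_eq l (Z := (H ⊔ D) ⊓ 𝐂 L') fun g => ⟨fun k => ⟨k.1, h.k1 k.2⟩, fun k => ⟨k.1, h.k2 (h.ln (l k.1)) k.2⟩⟩
    have a := card_le su
    rw [TM_card] at a
    have b := (card_sup_le (.inr n2)).trans (Nat.mul_le_mul c2 c1)
    nlinarith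
  have i : (h.hl.pre TM).relIndex L' = 3465 := by
    have := card_mul_relIndex (pre_le h.hl TM)
    rw [h.pre_card TM_le, h.card, TM_card, card_M22] at this
    have := card_pos' (𝐙 L')
    nlinarith
  have k := zt (pre_le h.hl TM) (h.hl.mem_pre.2 ⟨hc, h.k1 cc ▸ one_mem _⟩) (h.pf hc) cc
  rw [i, show 3465 = 2 * 1732 + 1 from rfl, pow_succ, pow_mul, pow_two, h.sq hc cc, one_pow, one_mul] at k
  refine eq_one_of_mem_bot (card_eq_one'.1 (le_antisymm c3 (card_pos' _))) ⟨(commutator_le.2 fun a ha b hb => ?_ :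
    _ ≤ H ⊔ D) k, cc⟩
  obtain ⟨a1, a2⟩ := h.hl.mem_pre.1 ha
  obtain ⟨b1, b2⟩ := h.hl.mem_pre.1 hb
  obtain ⟨x, hx, ex⟩ := h.hl.mem_im.1 (su a2)
  obtain ⟨y, hy, ey⟩ := h.hl.mem_im.1 (su b2)
  have k1 := (cen_comm (h.div (h.ln (l hx)) (h.ln a1) ex) b1).eq
  have k2 := (cen_comm (h.div (h.ln (l hy)) (h.ln b1) ey) (inv_mem (l hx))).eq
  have : ⁅a, b⁆ = ⁅x, y⁆ := calc
    ⁅a, b⁆ = x * (x⁻¹ * a * b) * a⁻¹ * b⁻¹ := by rw [commutatorElement_def]; group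
    _ = x * y * (y⁻¹ * b * x⁻¹) * b⁻¹ := by rw [← k1]; group
    _ = _ := by rw [← k2, commutatorElement_def]; group
  exact this ▸ der_le _ (commutator_mem_commutator hx hy)

theorem mem_E : pZ ∈ EE ∧ e34 ∈ EE ∧ e35 ∈ EE ∧ e13 ∈ EE :=
  ⟨subset_closure (by simp), subset_closure (by simp), subset_closure (by simp), subset_closure (by simp)⟩

theorem ta_odd : Odd (orderOf ta) := Odd.of_dvd_nat (n := 3) (by decide) (orderOf_dvd_of_pow_eq_one (weq [27, 27, 27] []))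

theorem E_ta : ∀ a ∈ EE, a * (ta * a * ta⁻¹) * (ta * (ta * a * ta⁻¹) * ta⁻¹) = 1 := E_all fun w hw => by
  have := eqN ((by decide +kernel : ∀ w ∈ [[], [7], [9], [7, 9], [11], [7, 11], [9, 11], [7, 9, 11], [13], [7, 13],
    [9, 13], [7, 9, 13], [11, 13], [7, 11, 13], [9, 11, 13], [7, 9, 11, 13]],
      sameW nN 24 5 (w ++ 27 :: (w ++ 28 :: 27 :: 27 :: (w ++ [28, 28]))) [] = true) w hw)
  simpa only [ev_append, ev_cons, ev_nil, evl, mul_one, mul_assoc] using this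

theorem QZ.nsk (h : QZ L' θ) {a₁ a₂ b₁ b₂ : G} (m1 : a₁ ∈ L') (m2 : a₂ ∈ L') (m3 : b₁ ∈ L') (m4 : b₂ ∈ L')
    (e1 : θ a₁ = e13) (e2 : θ a₂ = e35) (e3 : θ b₁ = t3) (e4 : θ b₂ = v1)
    (k1 : a₂ * b₁ * a₂ * b₁ * (a₁ * b₂ * a₁ * b₂) = 1)
    (k2 : a₂ * b₂ * a₂ * b₂ * (a₁ * b₁ * a₁ * b₁) * (a₁ * b₂ * a₁ * b₂) = 1) : ∀ c ∈ L', c ∈ 𝐂 L' → c = 1 := by
  obtain ⟨τ, hτ, oτ, eτ⟩ := h.odx (φ_MM (i := 13) (by decide)) ta_odd
  have τ3 : τ * τ * τ = 1 := h.odu (mul_mem (mul_mem hτ hτ) hτ) (one_mem _)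
    (by simpa [pow_succ] using odd_pow oτ 3) (by simp) (by
      rw [h.hl _ (mul_mem hτ hτ) _ hτ, h.hl _ hτ _ hτ, h.hl.one, eτ]; exact weq [27, 27, 27] [])
  let E := h.hl.pre EE
  have lE : E ≤ L' := pre_le _ _
  have mE : ∀ {u}, u ∈ L' → θ u ∈ EE → u ∈ E := fun a b => h.hl.mem_pre.2 ⟨a, b⟩
  have sq : ∀ u ∈ E, u * u = 1 := fun u hu => h.li (lE hu) (E_sq (h.hl.mem_pre.1 hu).2)
  have ab := abel_of_sq sq
  have nE : ∀ {g}, g ∈ L' → ∀ i ∈ [3, 4, 5, 6, 7, 8, 9, 10, 11, 12, 13, 14], θ g = φ i → ∀ u ∈ E, g * u * g⁻¹ ∈ E :=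
    fun hg i hi e u => conj_mem_of_norm (pre_norm h.hl hg (e ▸ E_N hi))
  have nτ := nE hτ 13 (by decide) eτ
  let lam : G → G := fun u => u * (τ * u * τ⁻¹) * (τ * (τ * u * τ⁻¹) * τ⁻¹)
  have lm : ∀ u ∈ E, lam u ∈ E := fun u hu => mul_mem (mul_mem hu (nτ u hu)) (nτ _ (nτ u hu))
  have hl : HomOn E lam := hom_mul ab (hom_mul ab (hom_id E) (hom_cjf E τ) (fun _ k => k) nτ)
    (hom_comp (hom_cjf E τ) (hom_cjf E τ) nτ) (fun u hu => mul_mem hu (nτ u hu)) fun u hu => nτ _ (nτ u hu)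
  have lz : ∀ u ∈ E, lam u ∈ 𝐂 L' := fun u hu => h.k2 (h.ln (lE (lm u hu))) (by
    rw [h.hl _ (lE (mul_mem hu (nτ u hu))) _ (lE (nτ _ (nτ u hu))), h.hl _ (lE hu) _ (lE (nτ u hu)),
      h.hl.conj hτ (lE (nτ u hu)), h.hl.conj hτ (lE hu), eτ]
    exact E_ta _ (h.hl.mem_pre.1 hu).2)
  have zE : ∀ {c}, c ∈ L' → c ∈ 𝐂 L' → c ∈ E := fun hc cc => mE hc (h.k1 cc ▸ one_mem _)
  have lc : ∀ c ∈ L', c ∈ 𝐂 L' → lam c = c := fun c hc cc => by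
    simp only [lam, comm_iff_cj.1 (cen_comm cc hτ), h.sq hc cc, one_mul]
  have t3' : ∀ u, τ * (τ * (τ * u * τ⁻¹) * τ⁻¹) * τ⁻¹ = u := fun u => by
    rw [show τ * (τ * (τ * u * τ⁻¹) * τ⁻¹) * τ⁻¹ = τ * τ * τ * u * (τ * τ * τ)⁻¹ by group, τ3]; simp
  have lτ : ∀ u ∈ E, lam (τ * u * τ⁻¹) = lam u := fun u hu => by
    simp only [lam, t3']
    rw [ab.mul_comm (mul_mem (nτ u hu) (nτ _ (nτ u hu))) hu, mul_assoc u (τ * u * τ⁻¹)]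
  -- the form
  let mu : G → G → G := fun b u => lam (u * (b * u * b⁻¹))
  have hm : ∀ {b}, (∀ u ∈ E, b * u * b⁻¹ ∈ E) → HomOn E (mu b) := fun {b} n =>
    hom_comp (hom_mul ab (hom_id E) (hom_cjf E b) (fun _ k => k) n) hl fun u hu => mul_mem hu (n u hu)
  have m0 : ∀ {b u}, u ∈ E → Commute b u → mu b u = 1 := fun {b u} hu c => by
    simp only [mu, comm_iff_cj.1 c, sq u hu, hl.one]
  have n1 := nE m3 9 (by decide) e3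
  have n2 := nE m4 7 (by decide) e4
  have wd : ∀ {b u v}, b ∈ L' → (∀ u ∈ E, b * u * b⁻¹ ∈ E) → u ∈ E → v ∈ E → θ u = θ v → mu b u = mu b v :=
    fun {b u v} hb n hu hv e => by
      have k := h.div (h.ln (lE hu)) (h.ln (lE hv)) e
      rw [← mul_inv_cancel_left u v, hm n _ hu _ (mul_mem (inv_mem hu) hv), m0 (mul_mem (inv_mem hu) hv) (cen_comm k hb),
        mul_one]
  have tr : ∀ u ∈ E, mu b₂ (τ * u * τ⁻¹) = mu b₁ u := fun u hu => by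
    have m5 := mul_mem (mul_mem hτ m3) (inv_mem hτ)
    have k := (cen_comm (h.div (h.ln m5) (h.ln m4) (by rw [h.hl.conj hτ m3, eτ, e3, e4]; exact weq [27, 19, 28] [15]))
      (lE (nτ u hu))).eq
    simp only [mu]
    rw [← lτ _ (mul_mem hu (n1 u hu))]
    congr 1
    calc _ = τ * u * τ⁻¹ * (τ * b₁ * τ⁻¹) * ((τ * b₁ * τ⁻¹)⁻¹ * b₂ * (τ * u * τ⁻¹)) * b₂⁻¹ := by group
      _ = _ := by rw [← k]; group
  have E1 := mE m1 (e1 ▸ mem_E.2.2.2)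
  have E2 := mE m2 (e2 ▸ mem_E.2.2.1)
  have f1 : mu b₂ a₂ = mu b₁ a₁ := by
    rw [← tr _ E1]; exact wd m4 n2 E2 (nτ _ E1) (by rw [h.hl.conj hτ m1, eτ, e1, e2]; exact weq [11] [27, 13, 28])
  have f2 : mu b₂ a₁ * mu b₂ a₂ = mu b₁ a₂ := by
    rw [← tr _ E2, ← hm n2 _ E1 _ E2]
    exact wd m4 n2 (mul_mem E1 E2) (nτ _ E2) (by
      rw [h.hl.conj hτ m2, h.hl _ m1 _ m2, eτ, e1, e2]; exact weq [13, 11] [27, 11, 28])
  have b1 : b₁⁻¹ = b₁ := inv_sq (h.li m3 (e3 ▸ (φ_iv (by decide)).sq))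
  have b2 : b₂⁻¹ = b₂ := inv_sq (h.li m4 (e4 ▸ (φ_iv (by decide)).sq))
  have g1 : mu b₁ a₂ * mu b₂ a₁ = 1 := by
    simp only [mu]
    rw [← hl _ (mul_mem E2 (n1 _ E2)) _ (mul_mem E1 (n2 _ E1)), b1, b2, ← hl.one, ← k1]; congr 1; group
  have g2 : mu b₂ a₂ * mu b₁ a₁ * mu b₂ a₁ = 1 := by
    simp only [mu]
    rw [← hl _ (mul_mem E2 (n2 _ E2)) _ (mul_mem E1 (n1 _ E1)), ← hl _ (mul_mem (mul_mem E2 (n2 _ E2))
      (mul_mem E1 (n1 _ E1))) _ (mul_mem E1 (n2 _ E1)), b1, b2, ← hl.one, ← k2]; congr 1; group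
  have s1 : mu b₁ a₁ * mu b₁ a₁ = 1 := sq _ (lm _ (mul_mem E1 (n1 _ E1)))
  rw [f1, s1, one_mul] at g2
  rw [g2, mul_one] at g1
  rw [g2, g1, one_mul, f1] at f2
  have all : ∀ u ∈ E, mu b₁ u = 1 := fun u hu => by
    obtain ⟨x, hx, e⟩ := clo_im (h.hl.mono ((pre_le (hm n1) ⊥).trans lE)) (s := {pZ, e34, e35, e13}) (fun a ha => by
      have k : ∀ a ∈ EE, a * a = 1 → Commute t3 a → ∃ x ∈ (hm n1).pre ⊥, θ x = a := fun a ha a2 c => by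
        obtain ⟨x, hx, rfl⟩ := h.sur a (E_le ha)
        exact ⟨x, (mem_ker _).2 ⟨mE hx ha, m0 (mE hx ha) (h.lc m3 hx (e3 ▸ (φ_iv (by decide)).sq) a2 (e3 ▸ c))⟩, rfl⟩
      rcases ha with rfl | rfl | rfl | rfl
      · exact k _ mem_E.1 pZ_iv.sq (weq [19, 7] [7, 19])
      · exact k _ mem_E.2.1 (E_sq mem_E.2.1) (weq [19, 9] [9, 19])
      · exact ⟨a₂, (mem_ker _).2 ⟨E2, g1⟩, e2⟩
      · exact ⟨a₁, (mem_ker _).2 ⟨E1, f2⟩, e1⟩) _ (h.hl.mem_pre.1 hu).2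
    rw [← wd m3 n1 ((mem_ker _).1 hx).1 hu e, ((mem_ker _).1 hx).2]
  obtain ⟨p, hp, ep⟩ := h.sur _ (φ_MM (i := 8) (by decide))
  have n3 := nE hp 8 (by decide) ep
  have ip : p⁻¹ * τ * p = τ⁻¹ := h.odu (mul_mem (mul_mem (inv_mem hp) hτ) hp) (inv_mem hτ) (odd_cj' oτ p) (odd_inv oτ)
    (by rw [h.hl.conj' hp hτ, h.hl.inv hτ, ep, eτ]; exact weq [18, 27, 17] [28])
  refine h.ns0 (H := hl.pre ⊥) ((pre_le _ _).trans lE) (fun x hx e => ?_)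
    (fun x hx => (h.hl.mem_pre.1 ((mem_ker _).1 hx).1).2) (fun a ha => ?_) hp m3 ep e3
    (mem_norm_of_cj_le fun x hx => ?_) (mem_norm_of_cj_le fun x hx => ?_)
  · obtain ⟨k1, k2⟩ := (mem_ker _).1 hx
    rw [← lc x (lE k1) (h.k2 (h.ln (lE k1)) e), k2]
  · obtain ⟨x, hx, rfl⟩ := h.sur a (E_le ha)
    have k := mE hx ha
    exact ⟨x * lam x, (mem_ker _).2 ⟨mul_mem k (lm x k), by
      rw [hl _ k _ (lm x k), lc _ (lE (lm x k)) (lz x k), sq _ (lm x k)]⟩, h.mulc (h.ln hx) (lz x k)⟩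
  · obtain ⟨u, hu, rfl⟩ := mem_cj_iff.1 hx
    obtain ⟨k1, k2⟩ := (mem_ker _).1 hu
    refine (mem_ker _).2 ⟨n3 u k1, ?_⟩
    have a1 : τ⁻¹ * u * τ = τ * (τ * u * τ⁻¹) * τ⁻¹ := by rw [← t3' (τ⁻¹ * u * τ)]; group
    have a2 : τ⁻¹ * (τ⁻¹ * u * τ) * τ = τ * u * τ⁻¹ := by rw [a1]; group
    calc lam (p * u * p⁻¹) = p * (u * ((p⁻¹ * τ * p * u * (p⁻¹ * τ * p)⁻¹) * (p⁻¹ * τ * p * (p⁻¹ * τ * p * u *
        (p⁻¹ * τ * p)⁻¹) * (p⁻¹ * τ * p)⁻¹))) * p⁻¹ := by simp only [lam]; group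
      _ = 1 := by
        rw [ip, inv_inv, a2, a1, ab.mul_comm (nτ _ (nτ u k1)) (nτ u k1), ← mul_assoc u, show u * _ * _ = 1 from k2]; simp
  · obtain ⟨u, hu, rfl⟩ := mem_cj_iff.1 hx
    obtain ⟨k1, k2⟩ := (mem_ker _).1 hu
    refine (mem_ker _).2 ⟨n1 u k1, ?_⟩
    have := all u k1
    simp only [mu] at this
    rwa [hl _ k1 _ (n1 u k1), k2, one_mul] at this

end CF.Tr
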