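import Cfsg.Agent.Tr.B

/-! The orbit of length 276: the normaliser quotient is simple. -/

set_option autoImplicit false
set_option maxRecDepth 1000000
set_option linter.unusedSectionVars false

namespace CF.Tr
open Cfsg Subgroup CF.BG CF.Bender CF.J4 CF.Comp CF.Dce CF.Comp.Mat CF.Dce.J4
open scoped commutatorElement

variable {G : Type*} [Group G] [Finite G]
variable {t : ℕ} {V P K : Subgroup G} {ν : G → ℕ} {f τ y : G} {g : ℕ → G} {θ : G → Pm}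

namespace R

theorem p23 : Nat.Prime 23 := by norm_num

theorem fpf (cV : ♯V = 2 ^ 11) (cP : ♯P = 23) (n : P ≤ 𝐍 V) (cen : 𝐂 V ≤ V) : V ⊓ 𝐂 P = ⊥ := by
  have d : 23 ∣ ((V : Set G) \ (V ⊓ 𝐂 P : Subgroup G)).ncard := ZD.dvd_ncard_cj (P := P)
    (S := (V : Set G) \ (V ⊓ 𝐂 P : Subgroup G)) (fun a ha x hx => ⟨conj_mem_of_norm (n ha) hx.1, fun k => hx.2 (mem_inf.2 ⟨hx.1, by
      simpa [mul_assoc] using conj_mem_of_norm' (norm_le_norm_cent P (le_norm_self P ha)) k.2⟩)⟩) fun x hx => by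
    have e := card_inf_mul_relIndex (𝐂₁ x) P
    rcases eq_bot_or_eq_of_prime (cP ▸ p23) (inf_le_right : 𝐂₁ x ⊓ P ≤ P) with k | k
    · rw [k, card_bot, one_mul, cP] at e; exact e ▸ dvd_rfl
    · exact absurd ⟨hx.1, le_cent1_iff.1 (k.ge.trans inf_le_left)⟩ hx.2
  rw [Set.ncard_diff (show ((V ⊓ 𝐂 P : Subgroup G) : Set G) ⊆ V from inf_le_left (a := V) (b := 𝐂 P)),
    ZD.ncard_coe, ZD.ncard_coe, cV] at d
  obtain ⟨k, hk, e⟩ := (Nat.dvd_prime_pow Nat.prime_two).1 (cV ▸ card_dvd (inf_le_left : V ⊓ 𝐂 P ≤ V))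
  rw [e] at d
  rcases (by decide : ∀ k ≤ 11, 23 ∣ 2 ^ 11 - 2 ^ k → k = 0 ∨ k = 11) k hk d with rfl | rfl
  · exact card_eq_one'.1 e
  · have := card_dvd ((cent_symm ((eq_of_card_eq inf_le_left (e.trans cV.symm)).ge.trans inf_le_right)).trans cen)
    rw [cP, cV] at this
    exact absurd this (by decide)

theorem half (sq : ∀ a ∈ V, a * a = 1) (n : τ ∈ 𝐍 V) (t2 : τ * τ = 1) : ♯V ≤ ♯(V ⊓ 𝐂₁ τ) * ♯(V ⊓ 𝐂₁ τ) := by
  have ab := abel_of_sq sq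
  have hh := hom_mul ab (hom_id V) (hom_cjf V τ) (fun _ h => h) fun _ h => conj_mem_of_norm n h
  rw [hh.card_eq (Z := V ⊓ 𝐂₁ τ) le_rfl fun a => and_congr_right fun ha => ⟨fun k => by
      simp only [(comm_iff_cj.1 (c1_comm k).symm), sq a ha], fun k => c1_of (comm_iff_cj.2
        ((eq_inv_of_mul_eq_one_right k).trans (inv_sq (sq a ha)))).symm⟩]
  refine Nat.mul_le_mul_right _ (card_le fun x hx => ?_)
  obtain ⟨a, ha, rfl⟩ := hh.mem_im.1 hx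
  refine ⟨mul_mem ha (conj_mem_of_norm n ha), c1_of (comm_iff_cj.2 ?_).symm⟩
  rw [← conj_mul, show τ * (τ * a * τ⁻¹) * τ⁻¹ = τ * τ * a * (τ * τ)⁻¹ by group, t2, one_mul, inv_one, mul_one]
  exact ab.mul_comm (conj_mem_of_norm n ha) ha

theorem tau (sq : ∀ a ∈ V, a * a = 1) (cV : ♯V = 2 ^ 11) (cP : ♯P = 23) (n : P ≤ 𝐍 V) (cen : 𝐂 V ≤ V)
    (h1 : τ ∈ 𝐍 V) (h2 : τ ∈ 𝐍 P) (h3 : τ * τ ∈ V) : τ ∈ V := by
  have fp := fpf cV cP n cen
  have i : V ⊓ P = ⊥ := BG.inf_eq_bot_of_coprime (by rw [cV, cP]; norm_num)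
  have t2 : τ * τ = 1 := eq_one_of_mem_bot fp ⟨h3, cen_of fun a ha => comm_iff_c.2 (eq_one_of_mem_bot i
    (mem_inf.2 ⟨mul_mem (conj_mem_of_norm (n ha) h3) (inv_mem h3), by
      simpa [mul_assoc] using mul_mem ha (conj_mem_of_norm (mul_mem h2 h2) (inv_mem ha))⟩))⟩
  have hf := half sq h1 t2
  obtain ⟨k, hk, e⟩ := (Nat.dvd_prime_pow Nat.prime_two).1 (cV ▸ card_dvd (inf_le_left : V ⊓ 𝐂₁ τ ≤ V))
  have gen : ∀ r ∈ P, r ≠ 1 → ∀ v ∈ V, Commute v r → v = 1 := fun r hr r1 v hv c =>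
    eq_one_of_mem_bot fp ⟨hv, by rw [← zpowers_eq_of_prime (cP ▸ p23) hr r1, cent_zpowers]; exact c1_of c⟩
  rw [cV, e] at hf
  by_cases c : P ≤ 𝐂₁ τ
  · have := Coprime.SemiReg.card_modEq (R := P) (K := V ⊓ 𝐂₁ τ)
      (fun r hr r1 => eq_bot_of_forall fun v hv => gen r hr r1 v hv.1.1 (c1_comm hv.2))
      (norm_inf n (cent_zpowers τ ▸ norm_cent (norm_of_cent (cent_zpowers τ ▸ c))))
    rw [e, cP] at this
    obtain rfl := (by decide : ∀ k ≤ 11, 2 ^ 11 ≤ 2 ^ k * 2 ^ k → 2 ^ k ≡ 1 [MOD 23] → k = 11) k hk hf this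
    exact cen (le_cent1_iff.1 ((eq_of_card_eq inf_le_left (e.trans cV.symm)).ge.trans inf_le_right))
  · obtain ⟨s, hs, ns⟩ := SetLike.not_le_iff_exists.1 c
    have b : (V ⊓ 𝐂₁ τ) ⊓ cj s (V ⊓ 𝐂₁ τ) = ⊥ := eq_bot_of_forall fun v hv => by
      have m := hv.2
      rw [cj_inf, cj_cent1] at m
      exact gen (s * τ * s⁻¹ * τ⁻¹) (by simpa [mul_assoc] using mul_mem hs (conj_mem_of_norm h2 (inv_mem hs)))
        (fun k => ns (c1_of (comm_iff_c.2 k))) v hv.1.1 ((c1_comm m.2).mul_right (c1_comm hv.1.2).inv_right)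
    have l : cj s (V ⊓ 𝐂₁ τ) ≤ V := cj_le_of_norm (n hs) inf_le_left
    have := card_le (sup_le (inf_le_left : V ⊓ 𝐂₁ τ ≤ V) l)
    rw [card_sup_of_inf_bot (.inl (norm_of_cent ((abel_of_sq sq).cent inf_le_left l))) b, card_cj, e, cV] at this
    exact absurd (hf.antisymm this) ((by decide : ∀ k ≤ 11, 2 ^ 11 ≠ 2 ^ k * 2 ^ k) k hk)

theorem last (p : PiElt {2} y) (n : y ∉ V) : ∃ τ ∈ zpowers y, τ ∉ V ∧ τ * τ ∈ V := by
  classical
  obtain ⟨k, e⟩ := PiNat.exists_pow p (orderOf_pos y).ne'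
  have ex : ∃ i, y ^ 2 ^ i ∈ V := ⟨k, by rw [← e, pow_orderOf_eq_one]; exact one_mem _⟩
  obtain ⟨i, hi⟩ := Nat.exists_eq_succ_of_ne_zero fun k : Nat.find ex = 0 => n (by simpa [k] using Nat.find_spec ex)
  refine ⟨y ^ 2 ^ i, npow_mem_zpowers _ _, Nat.find_min ex (by omega), ?_⟩
  have := Nat.find_spec ex
  rwa [hi, pow_succ, pow_mul, sq] at this
end R

theorem Hy.cardC' (h : Hy V f θ) : ♯(𝐂₁ f) = 887040 * 2 ^ 11 := by
  rw [h.hom.card_eq (Z := V) le_rfl fun g => ⟨fun k => ⟨h.le k, (h.ker g (h.le k)).2 k⟩, fun k => (h.ker g k.1).1 k.2⟩,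
    h.card, show h.hom.im _ le_rfl = S2 from Subgroup.ext fun a =>
      h.hom.mem_im.trans ⟨fun ⟨g, a, b⟩ => b ▸ h.mem g a, h.sur a⟩, card_S2]

theorem Hy.cardN (h : Hy V f θ) (k : C276 V f) : ♯(𝐍 V) = 244823040 * 2 ^ 11 := by
  rw [← card_mul_relIndex h.nor, ← ZD.ncard_cl, h.cardC']
  exact (congrArg _ k.card).trans (by norm_num)

open R in
theorem Hy.simp (h : Hy V f θ) (cen : 𝐂 V ≤ V) (k : C276 V f) (l : V ≤ K) (n : K ⊴ 𝐍 V) : K = V ∨ K = 𝐍 V := by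
  by_contra c
  obtain ⟨c1, c2⟩ := not_or.1 c
  have e : K ⊔ 𝐂₁ f = 𝐍 V := (k.mx _ le_sup_right (sup_le n.le h.nor)).resolve_left fun e => c1 (le_antisymm
    (fun x hx => cen (cen_of fun v hv => clo_le_cen (s := Dl V f) (fun d ⟨m, hm, e'⟩ => by
      have := comm_cj (c1_comm (e.le (mem_sup_left (n.conj_mem' hm hx)))).symm m
      rwa [e', show m * (m⁻¹ * x * m) * m⁻¹ = x by group] at this) v (k.gen hv))) l)
  have d : 23 ∣ ♯K := by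
    have := card_sup_mul_card_inf (H := K) (K := 𝐂₁ f) (.inr (h.nor.trans n.norm))
    rw [e, h.cardN k, h.cardC'] at this
    exact ⟨12 * ♯(K ⊓ 𝐂₁ f), by omega⟩
  obtain ⟨P, lP, cP⟩ := exists_card_eq_prime p23 d
  have sy : Syl 23 P K := syl_mk p23 lP (piGrp_of_card_prime p23 cP) fun ⟨m, hm⟩ => by
    have := card_dvd n.le
    rw [← card_mul_relIndex lP, cP, hm, h.cardN k, ← mul_assoc] at this
    exact absurd (Dvd.dvd.trans (Dvd.intro _ rfl) this) (by decide)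
  obtain ⟨c, hc, nc, c2'⟩ : ∃ c ∈ 𝐂₁ f, c ∉ K ∧ c * c ∈ K := by
    have l0 : K ⊓ 𝐂₁ f ≤ 𝐂₁ f := inf_le_right
    by_cases b : h.hom.im _ l0 = ⊥
    · obtain ⟨c, hc, ec⟩ := h.sur pZ (φ_mem 3)
      exact ⟨c, hc, fun m => pZ_iv.ne (eq_one_of_mem_bot b (h.hom.mem_im.2 ⟨c, ⟨m, hc⟩, ec⟩)),
        l ((h.ker _ (mul_mem hc hc)).1 (by rw [h.hom c hc c hc, ec, pZ_iv.sq]))⟩
    have m := nrmA (fun a ha => by obtain ⟨x, hx, rfl⟩ := h.hom.mem_im.1 ha; exact h.mem x hx.2) (fun a ha => by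
      obtain ⟨x, hx, rfl⟩ := h.sur a (MM_le ha)
      exact im_norm h.hom l0 hx (norm_inf (h.nor.trans n.norm) (le_norm_self _) hx)) b
    obtain ⟨c, hc, nc⟩ := SetLike.not_le_iff_exists.1 fun q : 𝐂₁ f ≤ K => c2 (by rw [← e, sup_eq_left.2 q])
    obtain ⟨x, hx, ex⟩ := h.hom.mem_im.1 (m (S2_sq (h.mem c hc)))
    refine ⟨c, hc, nc, ?_⟩
    have := l ((h.ker _ (mul_mem (inv_mem (l0 hx)) (mul_mem hc hc))).1
      (hom_div h.hom (l0 hx) (mul_mem hc hc) (ex.trans (h.hom c hc c hc).symm)))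
    simpa using mul_mem hx.1 this
  obtain ⟨a, ha, b, hb, rfl⟩ := sy.syl_frattini n (h.nor hc)
  have b2 : b * b ∈ K := by
    simpa [mul_assoc] using mul_mem (inv_mem (n.conj_mem hb.1 ha)) (mul_mem (inv_mem ha) c2')
  obtain ⟨y, w, hy, hw, py, pw, e'⟩ := exists_piPart {2} b
  have wK : w ∈ K := mem_of_sq (odd_elt.1 pw) (by
    obtain ⟨j, rfl⟩ := hw
    simpa only [← (Commute.refl b).mul_zpow] using zpow_mem b2 j)
  obtain ⟨τ, hτ, n1, n2⟩ := last (V := V) py fun m => nc (mul_mem ha (e' ▸ mul_mem (l m) wK))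
  have m := zpowers_le.2 (zpowers_le.2 hb hy) hτ
  exact n1 (tau h.sq h.card cP (lP.trans n.le) cen m.1 m.2 n2)

theorem Hy.simple (h : Hy V f θ) (cen : 𝐂 V ≤ V) (k : C276 V f) :
    IsSimpleGroup (↥(𝐍 V) ⧸ V.subgroupOf (𝐍 V)) ∧ Nat.card (↥(𝐍 V) ⧸ V.subgroupOf (𝐍 V)) = 244823040 := by
  have c : Nat.card (↥(𝐍 V) ⧸ V.subgroupOf (𝐍 V)) = 244823040 := by
    have := card_mul_relIndex (le_norm_self V)
    rw [h.card, h.cardN k, mul_comm] at this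
    exact Nat.eq_of_mul_eq_mul_right (by norm_num) this
  haveI : Nontrivial (↥(𝐍 V) ⧸ V.subgroupOf (𝐍 V)) := Finite.one_lt_card_iff_nontrivial.1 (by rw [c]; norm_num)
  refine ⟨⟨fun H hH => ?_⟩, c⟩
  let π := QuotientGroup.mk' (V.subgroupOf (𝐍 V))
  have sj : Function.Surjective π := QuotientGroup.mk'_surjective _
  refine (h.simp cen k (K := (H.comap π).map (𝐍 V).subtype) (fun v hv => ⟨⟨v, le_norm_self V hv⟩, ?_, rfl⟩)
    (normal_iff_map_subtype.1 (hH.comap π))).imp (fun e => eq_bot_iff.2 fun q hq => ?_) fun e => eq_top_iff.2 fun q _ => ?_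
  · have : π ⟨v, le_norm_self V hv⟩ = 1 := (QuotientGroup.eq_one_iff _).2 hv
    exact mem_comap.2 (this ▸ one_mem _)
  · obtain ⟨x, rfl⟩ := sj q
    exact mem_bot.2 ((QuotientGroup.eq_one_iff x).2 (e.le ⟨x, hq, rfl⟩))
  · obtain ⟨x, rfl⟩ := sj q
    obtain ⟨y, hy, e'⟩ := e.ge x.2
    exact (Subtype.ext e' : y = x) ▸ hy

end CF.Tr
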