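import Cfsg.Agent.Tr.B

/-! Pairs of matrices and linear certificates. -/

set_option autoImplicit false
set_option maxRecDepth 1000000

namespace CF.Tr.SC
open CF.J4 CF.Comp CF.Dce

/-- the product of block triangular matrices -/
noncomputable def pm (x y : ℕ) : ℕ := force x fun x => force y fun y =>
  Nat.xor (mr 11 22 x y) (Nat.shiftLeft (mm 11 x (tr 11 y)) (Nat.mul 11 11))

/-- the value of a word -/
noncomputable def pw (E : ℕ → ℕ) (w : List ℕ) : ℕ :=
  List.rec (motive := fun _ => ℕ) (mo 11) (fun i _ r => pm (E i) r) w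

/-- the first ten rows -/
noncomputable def prj (z : ℕ) : ℕ := mr 11 10 (mo 11) z

/-- folding -/
noncomputable def fo (x k : ℕ) : ℕ :=
  Nat.rec (motive := fun _ => ℕ) x (fun k r => force r fun r => Nat.xor r (Nat.shiftRight r (Nat.pow 2 k))) k

/-- parity -/
noncomputable def pr (x : ℕ) : ℕ := Nat.land (fo x 7) 1

/-- the sum of the masked blocks -/
noncomputable def fs (L : List (ℕ × List ℕ)) (E : ℕ → ℕ) : ℕ :=
  List.rec (motive := fun _ => ℕ) 0 (fun p _ r => Nat.xor (Nat.land p.1 (prj (tr 11 (pw E p.2)))) r) L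

/-- the four letters -/
noncomputable def ix (j : ℕ) : ℕ := nth 0 [11, 13, 15, 19] j

/-- the matrices of the letters -/
noncomputable def eg (t G j : ℕ) : ℕ :=
  Nat.xor (ln 11 (nth (mo 11) (LN t) (ix j))) (Nat.shiftLeft (fld 121 G j) (Nat.mul 11 11))

/-- the check on a basis -/
noncomputable def ch (t : ℕ) (L : List (ℕ × List ℕ)) (a : ℕ) : Bool :=
  allFrom (fun b => force (Nat.pow 2 b) fun G => Nat.beq (pr (fs L (eg t G))) 0) (Nat.mul 22 a) 22

/-- all blocks pass -/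
def chk (t : ℕ) (L : List (ℕ × List ℕ)) : Prop := ∀ a < 22, ch t L a = true

theorem pm_eq (x y : ℕ) : pm x y = mr 11 22 x y ^^^ mm 11 x (tr 11 y) <<< (11 * 11) := by
  rw [pm, force_eq, force_eq]; rfl

theorem vm_pm (c x y : ℕ) : vm 11 c (pm x y) = vm 11 (vm 11 c x) y := by
  rw [pm_eq, vm_add_tl, vm_mr (by norm_num) (by norm_num)]

theorem fld_tr' (x k : ℕ) : fld 11 (tr 11 x) k = fld 11 x (11 + k) := by
  rw [tr_eq, fld, fld, ← Nat.shiftRight_add, mul_add]

theorem vm_tr_pm (c x y : ℕ) :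
    vm 11 c (tr 11 (pm x y)) = vm 11 (vm 11 c (tr 11 x)) y ^^^ vm 11 (vm 11 c x) (tr 11 y) := by
  rw [pm_eq, tr_xor, tr_shl, vm_xor', vm_mm (by norm_num), ← vm_mm (by norm_num) c (tr 11 x)]
  congr 1
  exact vm_congr (fun _ _ => rfl) fun k hk => by
    rw [fld_tr', fld_mr (by norm_num) (by omega), fld_mm (by norm_num) hk, fld_tr']

theorem fld_prj (z : ℕ) {k : ℕ} (h : k < 10) : fld 11 (prj z) k = vm 11 (2 ^ k) z := by
  rw [prj, fld_mr (by norm_num) h, (by decide +kernel : ∀ k < 10, fld 11 (mo 11) k = 2 ^ k) k h]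

theorem prj_lt (z : ℕ) : prj z < 2 ^ (11 * 10) := mr_lt (by norm_num) _ _ _

theorem prj_ext {x y : ℕ} (h : ∀ c < 1024, vm 11 c x = vm 11 c y) : prj x = prj y :=
  eq_of_fld (by norm_num) (prj_lt x) (prj_lt y) fun k hk => by
    rw [fld_prj _ hk, fld_prj _ hk, h _ (Nat.pow_lt_pow_right (by norm_num) hk : 2 ^ k < 2 ^ 10)]

theorem prj_xor (x y : ℕ) : prj (x ^^^ y) = prj x ^^^ prj y :=
  eq_of_fld (by norm_num) (prj_lt _) (Nat.xor_lt_two_pow (prj_lt x) (prj_lt y)) fun k hk => by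
    rw [fld_xor, fld_prj _ hk, fld_prj _ hk, fld_prj _ hk, vm_xor']

theorem fo_xor (x y k : ℕ) : fo (x ^^^ y) k = fo x k ^^^ fo y k := by
  induction k with
  | zero => rfl
  | succ k ih =>
    have e : ∀ z, fo z (k + 1) = fo z k ^^^ fo z k >>> 2 ^ k := fun z =>
      force_eq (fo z k) fun r => Nat.xor r (Nat.shiftRight r (Nat.pow 2 k))
    rw [e, e, e, ih, Nat.shiftRight_xor_distrib, xor4]

theorem pr_xor (x y : ℕ) : pr (x ^^^ y) = pr x ^^^ pr y := by
  rw [pr, fo_xor]; exact Nat.and_xor_distrib_right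

/-- equal diagonal blocks, corners adding up -/
def Ad (x y z : ℕ) : Prop :=
  ∀ c, vm 11 c x = vm 11 c z ∧ vm 11 c y = vm 11 c z ∧ vm 11 c (tr 11 z) = vm 11 c (tr 11 x) ^^^ vm 11 c (tr 11 y)

theorem ad_pw {E E' F : ℕ → ℕ} (h : ∀ j, Ad (E j) (E' j) (F j)) (w : List ℕ) : Ad (pw E w) (pw E' w) (pw F w) := by
  induction w with
  | nil => exact fun c => ⟨rfl, rfl, by
      show vm 11 c (tr 11 (mo 11)) = vm 11 c (tr 11 (mo 11)) ^^^ vm 11 c (tr 11 (mo 11))
      rw [tr_of_lt (mo_lt (by norm_num)), vm_zero']; rfl⟩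
  | cons i w ih =>
    intro c
    show vm 11 c (pm _ (pw E w)) = vm 11 c (pm _ (pw F w)) ∧ vm 11 c (pm _ (pw E' w)) = vm 11 c (pm _ (pw F w)) ∧
      vm 11 c (tr 11 (pm _ (pw F w))) = vm 11 c (tr 11 (pm _ (pw E w))) ^^^ vm 11 c (tr 11 (pm _ (pw E' w)))
    simp only [vm_pm, vm_tr_pm, (h i c).1, (h i c).2.1, (h i c).2.2, (ih _).1, (ih _).2.1, (ih _).2.2, vm_xor, xor4,
      true_and]

theorem fs_cons (p : ℕ × List ℕ) (L : List (ℕ × List ℕ)) (E : ℕ → ℕ) :
    fs (p :: L) E = (p.1 &&& prj (tr 11 (pw E p.2))) ^^^ fs L E := rfl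

theorem fs_xor {E E' F : ℕ → ℕ} (h : ∀ j, Ad (E j) (E' j) (F j)) (L : List (ℕ × List ℕ)) :
    fs L F = fs L E ^^^ fs L E' := by
  induction L with
  | nil => exact (Nat.xor_self 0).symm
  | cons p L ih =>
    rw [fs_cons, fs_cons, fs_cons, ih, xor4, ← Nat.and_xor_distrib_left, ← prj_xor,
      prj_ext fun c _ => ((ad_pw h p.2 c).2.2.trans (vm_xor' _ _ _ _).symm)]

theorem fs_zero {E : ℕ → ℕ} {L : List (ℕ × List ℕ)} (h : ∀ p ∈ L, ∀ c < 1024, vm 11 c (tr 11 (pw E p.2)) = 0) :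
    fs L E = 0 := by
  induction L with
  | nil => rfl
  | cons p L ih =>
    rw [fs_cons, ih fun q hq => h q (List.mem_cons_of_mem _ hq),
      prj_ext (y := 0) fun c hc => (h p List.mem_cons_self c hc).trans (vm_zero' _ _).symm,
      (by decide +kernel : prj 0 = 0), Nat.and_zero]
    rfl

theorem vm_eg (t G j c : ℕ) : vm 11 c (eg t G j) = vm 11 c (nth (mo 11) (LN t) (ix j)) :=
  (vm_add_tl 11 c _ _).trans (vm_ln _ _ _)

theorem tr_eg (t G j : ℕ) : tr 11 (eg t G j) = fld 121 G j :=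
  (tr_xor 11 _ _).trans (by rw [tr_of_lt (ln_lt _ _), Nat.zero_xor]; exact tr_shl 11 _)

theorem chk_spec {t : ℕ} {L : List (ℕ × List ℕ)} (h : chk t L) : ∀ G < 2 ^ 484, pr (fs L (eg t G)) = 0 := by
  have ad : ∀ a b, pr (fs L (eg t (a ^^^ b))) = pr (fs L (eg t a)) ^^^ pr (fs L (eg t b)) := fun a b => by
    rw [← pr_xor, ← fs_xor (F := eg t (a ^^^ b)) fun j c => ⟨(vm_eg ..).trans (vm_eg ..).symm,
      (vm_eg ..).trans (vm_eg ..).symm, by rw [tr_eg, tr_eg, tr_eg, fld_xor, vm_xor']⟩]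
  refine xor_ind ((ad 0 0).trans (Nat.xor_self _)) (fun i hi => ?_) fun a _ b _ ha hb => by rw [ad, ha, hb]; rfl
  have := allFrom_iff.1 (h (i / 22) (by omega)) (i % 22) (by omega)
  rw [force_eq, show Nat.mul 22 (i / 22) + i % 22 = i from Nat.div_add_mod i 22] at this
  exact Nat.eq_of_beq_eq_true this

/-- the relators with their masks -/
def rl (a b c d e : ℕ) : List (ℕ × List ℕ) := [(a, [1, 1]), (b, [2, 2]), (c, [3, 3]), (d, [1, 0, 1, 0]), (e, [3, 2, 3, 2])]

theorem c11 : chk 1 ((0x19e0182e43cc8528e2e46fd00200, [0, 3, 0, 3, 1, 2, 1, 2]) :: rl 0x1689556fc3c00000000000000000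
    0x27b300001400000000000000000 0x132da000608603a800000000000 0xc02006f4cbc000000003c000000
    0x1ab1dd2e65840030064000000000) := fun a ha => by
  interval_cases a <;> decide +kernel

theorem c12 : chk 1 ((0x95ae618af7ce01cc09a68502242, [0, 2, 0, 2, 1, 3, 1, 3, 1, 2, 1, 2]) :: rl 0xa03b82800000000000000000
    0xf01400009c00000000000000000 0xc692d000b412000000000000000 0x441205ac0000000024000000000
    0xec1a13049440013000000000000) := fun a ha => by
  interval_cases a <;> decide +kernel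

theorem c21 : chk 2 ((0x2b08c1e00f52b8381e023500000, [0, 3, 0, 3, 1, 2, 1, 2]) :: rl 0x1d70004440000000000000000000
    0x1403407006010020000000000000 0x8e3300a0e81c01a000000000050 0x1113271108880000000000000000
    0x14e9c0100879e584000000000088) := fun a ha => by
  interval_cases a <;> decide +kernel

theorem c22 : chk 2 ((0x1118011105c00097075c00482000, [0, 2, 0, 2, 1, 3, 1, 3, 1, 2, 1, 2]) :: rl
    0x1930000000000000000000000000 0x600007802018000000000000000 0x77b76692e804000000000000000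
    0x1930881100000000000000000000 0x194800780ed9e780000000000000) := fun a ha => by
  interval_cases a <;> decide +kernel

theorem nok {t G : ℕ} (t0 : t ≠ 0) (t3 : t < 3) (hG : G < 2 ^ 484)
    (h : ∀ w ∈ [[1, 1], [2, 2], [3, 3], [1, 0, 1, 0], [3, 2, 3, 2]], ∀ c < 1024, vm 11 c (tr 11 (pw (eg t G) w)) = 0) :
    ∀ k ∈ [[0, 3, 0, 3, 1, 2, 1, 2], [0, 2, 0, 2, 1, 3, 1, 3, 1, 2, 1, 2]],
      ¬ ∀ c < 1024, vm 11 c (tr 11 (pw (eg t G) k)) = c := by
  have key : ∀ {P a b c d e : ℕ} {k : List ℕ}, chk t ((P, k) :: rl a b c d e) → pr (P &&& prj (mo 11)) = 1 →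
      ¬ ∀ c < 1024, vm 11 c (tr 11 (pw (eg t G) k)) = c := fun {P a b c d e k} h1 h2 h3 => by
    have := chk_spec h1 G hG
    rw [fs_cons, fs_zero (fun p hp => h p.2 (List.mem_map_of_mem (f := Prod.snd) (l := rl a b c d e) hp)), Nat.xor_zero,
      prj_ext (y := mo 11) fun c hc => (h3 c hc).trans (vm_mo (by norm_num) (by omega)).symm, h2] at this
    exact absurd this one_ne_zero
  simp only [List.forall_mem_cons, List.not_mem_nil, false_imp_iff, implies_true, and_true]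
  obtain rfl | rfl : t = 1 ∨ t = 2 := by omega
  · exact ⟨key c11 (by decide +kernel), key c12 (by decide +kernel)⟩
  · exact ⟨key c21 (by decide +kernel), key c22 (by decide +kernel)⟩

end CF.Tr.SC
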