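import Cfsg.Agent.Tr.T0

/-! The identification of the module: matrices. -/

set_option autoImplicit false
set_option maxRecDepth 1000000
set_option linter.unusedSectionVars false

namespace CF.Tr.T
open Cfsg Subgroup CF.BG CF.Bender CF.J4 CF.Comp CF.Dce CF.Comp.Mat CF.Dce.J4 CF.JP
open CF.RF (pkc pkc_eq gx n11 x11 v11 fe det sv sv_succ sv1 sv2 tw_pow bn bn_iff lm lm_iff)

/-- the rows `u * A ^ i` -/
noncomputable def circ (A u : ℕ) : ℕ := pkc 11 11 fun i => vm 11 u (pw (mm 11) (mo 11) A i)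

theorem circ_lt (A u : ℕ) : circ A u < 2 ^ (11 * 11) := by
  rw [circ, pkc_eq]; exact pk_lt n11 fun _ _ => v11 _ _

theorem circ_pow (A u : ℕ) {i : ℕ} (hi : i < 11) : vm 11 (2 ^ i) (circ A u) = vm 11 u (pw (mm 11) (mo 11) A i) := by
  rw [vm_pow hi, circ, pkc_eq, fld_pk n11 (fun _ _ => v11 _ _) hi]

theorem circ_all (A u : ℕ) : vm 11 2047 (circ A u) = sv A u 11 := by
  have : ∀ k ≤ 11, vm 11 (2 ^ k - 1) (circ A u) = sv A u k := fun k hk => by
    induction k with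
    | zero => exact vm_zero _ _
    | succ k ih =>
      rw [(by decide +kernel : ∀ k < 11, 2 ^ (k + 1) - 1 = (2 ^ k - 1) ^^^ 2 ^ k) k hk, vm_xor, ih (by omega),
        circ_pow A u hk, sv_succ]
  exact this 11 le_rfl

theorem chk_B : allBin (fun a => Bool.rec (Nat.beq (vm 11 (gx 11 TB a) (circ mX a)) 3) true (lm a [0, 2047]))
    2048 11 0 = true := by decide +kernel

theorem cyc {A u : ℕ} (h11 : pw (mm 11) (mo 11) A 11 = mo 11) (hu : u < 2048) (h0 : sv A u 11 ≠ 0)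
    (h1 : vm 11 u A ≠ u) : ∃ P P', mm 11 P P' = mo 11 ∧ mm 11 P' P = mo 11 ∧ vm 11 1 P = u ∧
      vm 11 2047 P = sv A u 11 ∧ mm 11 P (mm 11 A P') = mX := by
  have p0 : vm 11 1 (circ A u) = u := (circ_pow A u (i := 0) n11).trans (by rw [pw_zero, vm_mo n11 hu])
  have e : ∀ c < 2 ^ 11, vm 11 (vm 11 c mX) (circ A u) = vm 11 (vm 11 c (circ A u)) A :=
    xor_ind (by rw [vm_zero, vm_zero, vm_zero]) (fun i hi => by
      rw [circ_pow A u hi, ← vm_mm n11 u, ← pw_succ (mm 11)]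
      rcases (by decide +kernel : ∀ i < 11, i + 1 < 11 ∧ vm 11 (2 ^ i) mX = 2 ^ (i + 1) ∨
        i = 10 ∧ vm 11 (2 ^ i) mX = 1) i hi with ⟨a, b⟩ | ⟨rfl, b⟩
      · rw [b, circ_pow A u a]
      · rw [b, p0, h11, vm_mo n11 hu])
    fun a _ b _ p q => by rw [vm_xor, vm_xor, vm_xor, vm_xor, p, q]
  obtain ⟨P', a, b⟩ := exists_inv n11 (circ_lt A u) fun c hc e0 => by_contra fun c0 => by
    have k : ∀ i, vm 11 (vm 11 c (pw (mm 11) (mo 11) mX i)) (circ A u) = 0 := fun i => by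
      induction i with
      | zero => rw [pw_zero, vm_mo n11 hc, e0]
      | succ i ih => rw [pw_succ, vm_mm n11, e _ (v11 _ _), ih, vm_zero]
    have k2 : ∀ b < 2 ^ 11, vm 11 (vm 11 b (circ mX c)) (circ A u) = 0 :=
      xor_ind (by rw [vm_zero, vm_zero]) (fun i hi => by rw [circ_pow mX c hi, k])
        fun a _ b _ p q => by rw [vm_xor, vm_xor, p, q]; rfl
    rcases brec_or.1 (allBin_spec chk_B le_rfl c hc) with q | q
    · obtain rfl : c = 2047 := (List.mem_pair.1 (lm_iff.1 q)).resolve_left c0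
      exact h0 (circ_all A u ▸ e0)
    · have := k2 _ (RF.gx_eq 11 TB c ▸ fld_lt _ _ _ : gx 11 TB c < 2 ^ 11)
      rw [beq_iff.1 q, show 3 = 1 ^^^ 2 ^ 1 from rfl, vm_xor, p0, circ_pow A u (by norm_num), pw_succ, pw_zero,
        vm_mm n11, vm_mo n11 hu] at this
      exact h1 (Nat.eq_of_xor_eq_zero this).symm
  refine ⟨_, P', a, b, p0, circ_all A u, mat_ext n11 (mm_lt n11 _ _) (by decide +kernel) fun c hc => ?_⟩
  rw [vm_mm n11, vm_mm n11, ← e c hc, ← vm_mm n11, a, vm_mo n11 (v11 _ _)]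

theorem sv_fix {A u : ℕ} (hu : u < 2048) (e : vm 11 u A = u) : sv A u 11 = u := by
  have k : ∀ i, vm 11 u (pw (mm 11) (mo 11) A i) = u := fun i => by
    induction i with
    | zero => rw [pw_zero, vm_mo n11 hu]
    | succ i ih => rw [pw_succ, vm_mm n11, ih, e]
  simp only [sv_succ, k, Nat.xor_assoc, Nat.xor_self, Nat.xor_zero]
  exact Nat.zero_xor u

theorem sv_xor (A u v k : ℕ) : sv A (u ^^^ v) k = sv A u k ^^^ sv A v k := by
  induction k with
  | zero => exact (Nat.xor_self 0).symm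
  | succ k ih => rw [sv_succ, sv_succ, sv_succ, ih, vm_xor, xor4]

/-- the candidate for the second matrix -/
noncomputable def cS (w : ℕ) : ℕ := mm 11 (mo 11) (circ (mm 11 mX mX) w)

theorem cS_eq {B : ℕ} (l : B < 2 ^ (11 * 11)) (e : mm 11 mX B = mm 11 B (mm 11 mX mX)) : B = cS (vm 11 1 B) :=
  det n11 l e (fun _ => 1) (fun i => i) (by decide +kernel) (mm_mo n11 (mo_lt n11))

theorem chk_V : allBin (fun w => force (cS w) fun B => imp (Nat.beq (vm 11 2047 B) 2047) (Bool.rec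
    (force (gx 11 TV w) fun v => lall (fun b => b) [Nat.beq (vm 11 v B) v, Nat.beq (vm 11 2047 (circ mX v)) 2047,
      bn (Nat.beq (vm 11 v mX) v)]) true (Nat.beq w 2047))) 2048 11 0 = true := by decide +kernel

/-- the candidate for the third matrix -/
noncomputable def cR (a w : ℕ) : ℕ := mm 11 (mo 11) (pkc 11 11 fun i => vm 11 (Bool.rec w a (Nat.beq i 0))
  (pw (mm 11) (mo 11) (pw (mm 11) (mo 11) mS 3) (nth 0 [0, 0, 1, 8, 2, 4, 9, 7, 3, 6, 5] i)))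

theorem cR_eq {R : ℕ} (l : R < 2 ^ (11 * 11)) (e : mm 11 mS R = mm 11 R (pw (mm 11) (mo 11) mS 3)) :
    R = cR (vm 11 1 R) (vm 11 2 R) := by
  refine (det n11 l e (fun i => Bool.rec 2 1 (Nat.beq i 0)) (nth 0 [0, 0, 1, 8, 2, 4, 9, 7, 3, 6, 5])
    (by decide +kernel) (mm_mo n11 (mo_lt n11))).trans ?_
  rw [cR]; congr 2; funext i
  cases Nat.beq i 0 <;> rfl

theorem chk_R : lall (fun a => allBin (fun w => force (cR a w) fun R => imp (Nat.beq (vm 11 2047 R) 2047)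
    (imp (Nat.beq (pw (mm 11) (mo 11) (mm 11 R (mm 11 mX mX)) 6) (mo 11)) (lany (fun t =>
      Nat.beq (mm 11 mGi (mm 11 R mG)) (nth (mo 11) (LX t) 5)) [0, 1, 2]))) 2048 11 0) [0, 1, 2046, 2047] = true := by
  decide +kernel

theorem chk_F : force (pw (mm 11) (mo 11) mS 3) (fun Y =>
    allBin (fun a => imp (Nat.beq (vm 11 a Y) a) (lm a [0, 1, 2046, 2047])) 2048 11 0) = true := by decide +kernel

theorem chk_L : ∀ t < 3, mm 11 mGi (mm 11 mX mG) = nth (mo 11) (LX t) 1 ∧ mm 11 mGi (mm 11 mS mG) = nth (mo 11) (LX t) 3 ∧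
    tabOK (mm 11) (mo 11) (fun _ => true) (LX t) 3 = true ∧
    wtOK (mm 11) (mo 11) (fun _ => true) (nth (mo 11) (LX t)) wN (LN t) = true := by decide +kernel

theorem idR {R : ℕ} (l : R < 2 ^ (11 * 11)) (e : mm 11 mS R = mm 11 R (pw (mm 11) (mo 11) mS 3))
    (e1 : vm 11 2047 R = 2047) (e2 : pw (mm 11) (mo 11) (mm 11 R (mm 11 mX mX)) 6 = mo 11) :
    ∃ t < 3, mm 11 mGi (mm 11 R mG) = nth (mo 11) (LX t) 5 := by
  have a0 := chk_F
  rw [force_eq] at a0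
  have a := lm_iff.1 (imp_iff.1 (allBin_spec a0 le_rfl _ (v11 1 R)) (beq_iff.2 (by
    rw [← vm_mm n11, ← e, vm_mm n11, (by decide +kernel : vm 11 1 mS = 1)])))
  have b := allBin_spec (lall_iff.1 chk_R _ a) le_rfl _ (v11 2 R)
  rw [← cR_eq l e, force_eq] at b
  obtain ⟨t, ht, q⟩ := lany_iff.1 (imp_iff.1 (imp_iff.1 b (beq_iff.2 e1)) (beq_iff.2 e2))
  exact ⟨t, (by decide : ∀ t ∈ [0, 1, 2], t < 3) t ht, beq_iff.1 q⟩

theorem idS {B : ℕ} (l : B < 2 ^ (11 * 11)) (e : mm 11 mX B = mm 11 B (mm 11 mX mX)) (e1 : vm 11 2047 B = 2047)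
    (n : vm 11 1 B ≠ 2047) : ∃ v < 2048, vm 11 v B = v ∧ sv mX v 11 = 2047 ∧ vm 11 v mX ≠ v := by
  have b := allBin_spec chk_V le_rfl _ (v11 1 B)
  rw [← cS_eq l e, force_eq] at b
  have c := fe ((brec_or.1 (imp_iff.1 b (beq_iff.2 e1))).resolve_left (mt beq_iff.1 n))
  simp only [lall_iff, List.forall_mem_cons, beq_iff, bn_iff, circ_all] at c
  exact ⟨_, (RF.gx_eq 11 TV _ ▸ fld_lt _ _ _ : gx 11 TV _ < 2 ^ 11), c.1, c.2.1, c.2.2.1⟩

end CF.Tr.T
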