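import Cfsg.Agent.Tr.T1
import Cfsg.Prelude.Def_JankoFourType

/-! The hypothesis and the coordinates in the faithful case. -/

set_option autoImplicit false
set_option maxRecDepth 1000000
set_option linter.unusedSectionVars false

namespace CF.Tr
open Cfsg Subgroup CF.BG CF.Bender CF.J4 CF.Comp CF.Dce CF.Comp.Mat CF.Dce.J4 CF.JP
open CF.RF (pkc pkc_eq gx n11 x11 v11 fe sv sv1 sv2)

variable {G : Type*} [Group G] [Finite G] {t : ℕ} {V : Subgroup G} {ν : G → ℕ} {f : G} {g : ℕ → G} {θ : G → Pm}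

theorem exists_hy (hf : orderOf f = 2) (hV : IsElementaryAbelian 2 (twoCoreOfCentralizer f))
    (hc : Nat.card (twoCoreOfCentralizer f) = 2 ^ 11)
    (hq : Nonempty (↥(𝐂₁ f) ⧸ pCore 2 ↥(𝐂₁ f) ≃* MulAut ↥Spor.M22)) : ∃ θ, Hy (twoCoreOfCentralizer f) f θ := by
  classical
  obtain ⟨e⟩ := hq
  obtain ⟨ε⟩ := autS2
  have iv : Iv f := ⟨fun e => by simp [e] at hf, by rw [← pow_two, ← hf, pow_orderOf_eq_one]⟩
  let θ : G → Pm := fun g => if hg : g ∈ 𝐂₁ f then ε.symm (e (QuotientGroup.mk ⟨g, hg⟩)) else 1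
  have t : ∀ g (hg : g ∈ 𝐂₁ f), θ g = ε.symm (e (QuotientGroup.mk ⟨g, hg⟩)) := fun g hg => dif_pos hg
  refine ⟨θ, iv, zpowers_le.1 (Loc.le_pCoreOf (p := 2) (L := 𝐂₁ f) (IsPGroup.of_card (n := 1) iv.card)
    (zpowers_le.2 (self_mem_cent1 f)) (norm_of_cent (cent_zpowers f).ge)), fun a ha => by simpa [pow_two] using hV.2 a ha,
    hc, Loc.le_normalizer_pCoreOf 2 _, Loc.pCoreOf_le 2 _, fun a ha b hb => ?_, fun g hg => t g hg ▸ Subtype.mem _,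
    fun σ hσ => ?_, fun g hg => ?_⟩
  · rw [t a ha, t b hb, t _ (mul_mem ha hb), ← coe_mul, ← map_mul, ← map_mul, ← QuotientGroup.mk_mul]; rfl
  · obtain ⟨g, hg⟩ := QuotientGroup.mk_surjective (e.symm (ε ⟨σ, hσ⟩))
    exact ⟨g, g.2, by rw [t _ g.2, hg, e.apply_symm_apply, ε.symm_apply_apply]⟩
  · rw [t g hg, OneMemClass.coe_eq_one, ε.symm.map_eq_one_iff, e.map_eq_one_iff, QuotientGroup.eq_one_iff]
    exact Loc.mem_pCore_iff

namespace Hy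
variable (h : Hy V f θ)
include h

theorem vi {a : G} (ha : a ∈ V) : a⁻¹ = a := inv_eq_of_mul_eq_one_right (h.sq a ha)

theorem ab : Abel V := abel_of_forall fun a ha b hb => by
  rw [← h.vi (mul_mem ha hb), mul_inv_rev, h.vi ha, h.vi hb]

theorem div {a b : G} (ha : a ∈ 𝐂₁ f) (hb : b ∈ 𝐂₁ f) (e : θ a = θ b) : a⁻¹ * b ∈ V :=
  (h.ker _ (mul_mem (inv_mem ha) hb)).1 (by rw [h.hom _ (inv_mem ha) _ hb, h.hom.inv ha, e, inv_mul_cancel])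

theorem lift {ρ : Pm} (hρ : ρ ∈ S2) (o : Odd (orderOf ρ)) : ∃ y ∈ 𝐂₁ f, Odd (orderOf y) ∧ θ y = ρ := by
  obtain ⟨a, ha, rfl⟩ := h.sur ρ hρ
  have m := h.sq _ ((h.ker _ (pow_mem ha (orderOf (θ a)))).1 (by rw [h.hom.pow ha, pow_orderOf_eq_one]))
  refine ⟨a ^ (orderOf (θ a) + 1), pow_mem ha _, o.of_dvd_nat (orderOf_dvd_of_pow_eq_one ?_), by
    rw [h.hom.pow ha, pow_succ, pow_orderOf_eq_one, one_mul]⟩
  obtain ⟨k, hk⟩ := o.add_one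
  rw [← pow_mul, mul_comm, pow_mul, hk, pow_add, ← Commute.mul_pow rfl, m, one_pow]

theorem cardC : ♯(𝐂₁ f) = 887040 * 2048 := by
  rw [h.hom.card_eq le_rfl (Z := V) fun a => ⟨fun m => ⟨h.le m, (h.ker a (h.le m)).2 m⟩, fun m => (h.ker a m.1).1 m.2⟩,
    h.card, show h.hom.im _ le_rfl = S2 from Subgroup.ext fun σ => h.hom.mem_im.trans
      ⟨fun ⟨a, ha, e⟩ => e ▸ h.mem a ha, h.sur σ⟩, card_S2]; rfl

end Hy

namespace T

theorem nb (a : G) : a ∈ 𝐍 (⊥ : Subgroup G) := by rw [normalizer_eq_top]; trivial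

/-- the faithful case with coordinates -/
structure Hz (V : Subgroup G) (f : G) (θ : G → Pm) (ν : G → ℕ) : Prop extends Hy V f θ where
  co : Co 11 V ⊥ ν
  cen : 𝐂 V ≤ V

namespace Hz
variable (h : Hz V f θ ν)
include h

theorem ex {a : G} (ha : a ∈ 𝐍 V) : ∃ x < 2 ^ (11 * 11), Ac 11 V ν a x := h.co.ex ha (nb a)

theorem inj {a b : G} (ha : a ∈ V) (hb : b ∈ V) (e : ν a = ν b) : a = b :=
  inv_mul_eq_one.1 (mem_bot.1 ((h.co.eq_iff ha hb).1 e))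

theorem fix_iff {a y : G} {x : ℕ} (p : Ac 11 V ν a x) (hy : y ∈ V) : vm 11 (ν y) x = ν y ↔ y * a = a * y := by
  rw [← p.2 y hy]
  exact ⟨fun e => by rw [← mul_inv_cancel_left a (y * a), ← mul_assoc a⁻¹, h.inj (norm_mem p.1 hy) hy e],
    fun e => by rw [mul_assoc, e, inv_mul_cancel_left]⟩

theorem mo_iff {a : G} : Ac 11 V ν a (mo 11) ↔ a ∈ V :=
  ⟨fun p => h.cen fun y hy => (h.fix_iff p hy).1 (vm_mo n11 (h.co.lt y hy)), h.co.ac_self⟩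

theorem chg {P P' : ℕ} (h1 : mm 11 P P' = mo 11) (h2 : mm 11 P' P = mo 11) : Hz V f θ fun a => vm 11 (ν a) P :=
  ⟨h.toHy, h.co.change h1 h2, h.cen⟩

theorem acv {a b : G} {x : ℕ} (p : Ac 11 V ν a x) (e : a⁻¹ * b ∈ V) : Ac 11 V ν b x := by
  have := h.co.cd.mul' p (h.mo_iff.2 e)
  rw [mul_inv_cancel_left] at this
  exact h.co.congr this fun c _ => by rw [vm_mm n11, vm_mo n11 (v11 _ _)]

theorem rel {a b : G} {x y : ℕ} (ma : a ∈ 𝐂₁ f) (mb : b ∈ 𝐂₁ f) (ha : Ac 11 V ν a x) (hb : Ac 11 V ν b y)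
    (lx : x < 2 ^ (11 * 11)) (ly : y < 2 ^ (11 * 11)) (e : θ a = θ b) : x = y :=
  h.co.uniq' (h.acv ha (h.div ma mb e)) hb lx ly

theorem relp {a : G} {x k : ℕ} (ma : a ∈ 𝐂₁ f) (ha : Ac 11 V ν a x) (e : θ a ^ (k + 1) = 1) :
    pw (mm 11) (mo 11) x (k + 1) = mo 11 :=
  h.rel (pow_mem ma _) (one_mem _) (h.co.cd.pow ha _) h.co.cd.one' (pw_succ _ _ _ k ▸ mm_lt n11 _ _) (mo_lt n11)
    (by rw [h.hom.pow ma, e, h.hom.one])

theorem fixf {a : G} {x : ℕ} (ma : a ∈ 𝐂₁ f) (p : Ac 11 V ν a x) : vm 11 (ν f) x = ν f :=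
  (h.fix_iff p h.fV).2 (mem_cent1.1 ma).symm

theorem nf0 : ν f ≠ 0 := fun e => h.iv.ne (mem_bot.1 ((h.co.ker f h.fV).1 e))

theorem step {a : G} {A u : ℕ} (ma : a ∈ 𝐂₁ f) (p : Ac 11 V ν a A) (e : θ a ^ 11 = 1) (hu : u < 2048)
    (s : sv A u 11 = ν f) (n : vm 11 u A ≠ u) : ∃ ν', Hz V f θ ν' ∧ Ac 11 V ν' a mX ∧ ν' f = 2047 ∧
      ∀ b B, Ac 11 V ν b B → vm 11 u B = u → ∀ B', Ac 11 V ν' b B' → vm 11 1 B' = 1 := by
  obtain ⟨P, P', p1, p2, p3, p4, p5⟩ := cyc (h.relp (k := 10) ma p e) hu (s ▸ h.nf0) n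
  refine ⟨_, h.chg p2 p1, p5 ▸ h.co.ac_change p2 p, by
    rw [← s, ← p4, ← vm_mm n11, p1, vm_mo n11 (by norm_num)], fun b B q k B' q' => ?_⟩
  rw [(h.co.change p2 p1).uniq q' (h.co.ac_change p2 q) (by norm_num), vm_mm n11, vm_mm n11, p3, k, ← p3,
    ← vm_mm n11, p1, vm_mo n11 (by norm_num)]

end Hz

end T

open T

theorem Hy.a0 (h : Hy V f θ) (c : 𝐂 V ≤ V) : ∃ t ν g, Mo t V ν f g θ := by
  classical
  obtain ⟨ν, C⟩ := exists_co' (n := 10) (S := V) bot_le (fun a _ => nb a)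
    (fun a ha => mem_bot.2 (h.sq a ha)) (by rw [h.card, card_bot, mul_one])
  have k : Hz V f θ ν := ⟨h, C, c⟩
  choose! s s1 s2 using h.sur
  let F : ℕ → G := fun i => if i < 3 then s (φ0 i) else 1
  have f1 : ∀ i, 3 ≤ i → F i = 1 := fun i hi => if_neg (not_lt.2 hi)
  have hf : ∀ i, F i ∈ 𝐂₁ f ∧ θ (F i) = φ0 i := fun i => by
    by_cases hi : i < 3
    · rw [show F i = s (φ0 i) from if_pos hi]; exact ⟨s1 _ (φ0_mem i), s2 _ (φ0_mem i)⟩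
    · rw [f1 i (not_lt.1 hi), φ0, evs_ge _ (le_trans (by decide +kernel) (not_lt.1 hi))]; exact ⟨one_mem _, h.hom.one⟩
  have m := fun i => (hf i).1
  have ev0 : ∀ w, θ (ev F w) = ev φ0 w := h.hom.ev' m fun i => (hf i).2
  have x11' : θ (F 0) ^ 11 = 1 := by
    simpa [(hf 0).2, ev_wpow, evL] using eq0 (u := wpow [1] 11) (w := []) (by decide +kernel)
  obtain ⟨A, lA, a⟩ := k.ex (h.nor (m 0))
  obtain ⟨y, ly, ey⟩ : ∃ y < 2048, y ^^^ vm 11 y A ≠ 0 := by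
    by_contra q
    push Not at q
    have := (h.ker _ (m 0)).2 (k.mo_iff.1 (C.congr a fun c hc => by
      rw [vm_mo n11 hc]; exact (Nat.eq_of_xor_eq_zero (q c hc)).symm))
    exact Bt.nev_difW r0 (by norm_num) 5 [1] [] (by decide +kernel) (by simpa [evL, ← (hf 0).2] using this)
  have lf : ν f < 2048 := C.lt f h.fV
  have s0 : sv A (y ^^^ vm 11 y A) 11 = 0 := by
    rw [sv2 lA ly, k.relp (k := 10) (m 0) a x11', vm_mo n11 ly, Nat.xor_self]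
  obtain ⟨ν, k, a, nf, -⟩ := k.step (u := y ^^^ vm 11 y A ^^^ ν f) (m 0) a x11' (x11 (x11 ly (v11 _ _)) lf)
    (by rw [sv_xor, s0, sv_fix lf (k.fixf (m 0) a), Nat.zero_xor]) fun e => ey (by
      rw [vm_xor, k.fixf (m 0) a, Nat.xor_comm, Nat.xor_comm _ (ν f)] at e
      rw [← s0, sv_fix (x11 ly (v11 _ _)) (xor_cancel e)])
  have r1 : ∀ {ν B}, Hz V f θ ν → Ac 11 V ν (F 0) mX → B < 2 ^ (11 * 11) → Ac 11 V ν (F 1) B →
      mm 11 mX B = mm 11 B (mm 11 mX mX) := fun k a _ b =>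
    k.rel (mul_mem (m 0) (m 1)) (mul_mem (m 1) (mul_mem (m 0) (m 0))) (k.co.cd.mul' a b)
      (k.co.cd.mul' b (k.co.cd.mul' a a)) (mm_lt n11 _ _) (mm_lt n11 _ _)
      (by simpa [← ev0, evL] using eq0 (u := [1, 3]) (w := [3, 1, 1]) (by decide +kernel))
  obtain ⟨B, lB, b⟩ := k.ex (h.nor (m 1))
  have b1 := nf ▸ k.fixf (m 1) b
  obtain ⟨v, lv, v1, v2, v3⟩ := idS lB (r1 k a lB b) b1 fun e =>
    absurd (k.co.inj b (nb _) (a := 1) (b := 2047) (by norm_num) (by norm_num) (e.trans b1.symm)) (by norm_num)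
  obtain ⟨ν, k, a, nf, q⟩ := k.step (m 0) a x11' lv (v2.trans nf.symm) v3
  obtain ⟨B', lB, b'⟩ := k.ex (h.nor (m 1))
  obtain rfl : B' = mS := by rw [cS_eq lB (r1 k a lB b'), q _ _ b v1 _ b']; decide +kernel
  obtain ⟨R, lR, r⟩ := k.ex (h.nor (m 2))
  obtain ⟨t, t3, e⟩ := idR lR (k.rel (mul_mem (m 1) (m 2)) (mul_mem (m 2) (pow_mem (m 1) 3)) (k.co.cd.mul' b' r)
      (k.co.cd.mul' r (k.co.cd.pow b' 3)) (mm_lt n11 _ _) (mm_lt n11 _ _)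
      (by simpa [← ev0, ev_lapp, ev_wpow, evL] using eq0 (u := [3, 5]) (w := lapp [5] (wpow [3] 3)) (by decide +kernel)))
    (nf ▸ k.fixf (m 2) r) (k.relp (k := 5) (mul_mem (m 2) (mul_mem (m 0) (m 0))) (k.co.cd.mul' r (k.co.cd.mul' a a)) (by
      rw [← h.hom.pow (mul_mem (m 2) (mul_mem (m 0) (m 0)))]
      simpa [← ev0, ev_wpow, evL, h.hom.one] using eq0 (u := wpow [5, 1, 1] 6) (w := []) (by decide +kernel)))
  obtain ⟨c1, c2, c3⟩ : mm 11 mG mGi = mo 11 ∧ mm 11 mGi mG = mo 11 ∧ vm 11 2047 mG = 1024 := by decide +kernel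
  obtain ⟨d1, d2, d3, d4⟩ := chk_L t t3
  have C := k.co.change c1 c2
  refine ⟨t, _, evs F wN, h, ⟨t3, C, h.fV, by rw [nf, c3], C.cd.tb_evs (C.cd.tb d3 (fun i hi => ?_) f1) d4,
    fun _ => nb _⟩, c, fun _ => ev_mem m _, fun _ => ev0 _⟩
  obtain rfl | rfl | rfl : i = 0 ∨ i = 1 ∨ i = 2 := by omega
  exacts [d1 ▸ k.co.ac_change c1 a, d2 ▸ k.co.ac_change c1 b', e ▸ k.co.ac_change c1 r]

theorem Mo.hz (h : Mo t V ν f g θ) : Hz V f θ ν := ⟨h.toHy, h.co, h.cen⟩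

theorem Mo.gen (h : Mo t V ν f g θ) {K : Subgroup G} (l : V ≤ K) (e : ∀ i < 3, g i ∈ K) : 𝐂₁ f ≤ K := fun a ha => by
  obtain ⟨b, hb, q⟩ := h.hom.mem_im.1 (S2_le0 (K := h.hom.im (K ⊓ 𝐂₁ f) inf_le_right)
    (fun i hi => h.hom.mem_im.2 ⟨g i, ⟨e i hi, h.gC i⟩, h.ph i⟩) (h.mem a ha))
  simpa using mul_mem hb.1 (l (h.div hb.2 ha q))

end CF.Tr
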