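import Cfsg.Agent.Tr.T2
import Cfsg.Agent.Tr.Q1
import Cfsg.Agent.Schur.MatC

/-! The case of a non-faithful module. -/

set_option autoImplicit false
set_option maxRecDepth 1000000
set_option linter.unusedSectionVars false

namespace CF.Tr
open Cfsg Subgroup CF.BG CF.Bender CF.J4 CF.Comp CF.Dce CF.Comp.Mat CF.Dce.J4

variable {G : Type*} [Group G] [Finite G] {V L : Subgroup G} {f : G} {θ : G → Pm}

theorem T.z2 (h : QT L θ) (sq : ∀ a ∈ L, a ∈ 𝐂 L → a * a = 1) : QZ L θ := by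
  classical
  refine ⟨h, fun a ha b hb ca cb a1 b1 => by_contra fun n => ?_⟩
  have k := h.hom.mono (le_norm_self L)
  let σ : L →* MM := k.hom.codRestrict _ fun x => h.im x x.2
  have m : ∀ x : L, x ∈ σ.ker ↔ (x : G) ∈ 𝐂 L := fun x =>
    Subtype.ext_iff.trans (h.ker x (le_norm_self L x.2))
  have st : IsStemExtension σ := ⟨fun ⟨y, hy⟩ => have ⟨x, hx, e⟩ := h.sur y hy; ⟨⟨x, hx⟩, Subtype.ext e⟩,
    fun x hx => mem_center_iff.2 fun y => Subtype.ext ((m x).1 hx y y.2), fun x _ => by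
      have := h.pf x.2
      rw [← map_subtype_commutator] at this
      exact (mem_map_iff_mem L.subtype_injective).1 this⟩
  obtain ⟨φ, hφ⟩ := Schur.HasSchur.exists_surjective Schur.MatC.schurM22 (Schur.stem_cext st)
  have e := MulEquiv.subgroupCongr (Schur.stem_mul st)
  have := isCyclic_of_surjective _ (show Function.Surjective (e.toMonoidHom.comp φ) from e.surjective.comp hφ)
  have := Fintype.ofFinite σ.ker
  have c := IsCyclic.card_pow_eq_one_le (α := σ.ker) (n := 2) two_pos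
  have s : ({1, ⟨⟨a, ha⟩, (m _).2 ca⟩, ⟨⟨b, hb⟩, (m _).2 cb⟩} : Finset σ.ker) ⊆ Finset.univ.filter (· ^ 2 = 1) :=
    fun w _ => Finset.mem_filter.2 ⟨Finset.mem_univ _, Subtype.ext (Subtype.ext (by
      simpa [pow_two] using sq _ w.1.2 ((m _).1 w.2)))⟩
  have := (Finset.card_le_card s).trans c
  rw [Finset.card_eq_three.2 ⟨_, _, _, fun e => a1 (congrArg (·.1.1) e).symm, fun e => b1 (congrArg (·.1.1) e).symm,
    fun e => n (congrArg (·.1.1) e), rfl⟩] at this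
  omega

theorem Hy.hi (h : Hy V f θ) (n : ¬ 𝐂 V ≤ V) : ∃ θ', HI f θ' := by
  have l : 𝐂 V ≤ 𝐂₁ f := cent_le_cent1 h.fV
  have m : MM ≤ h.hom.im _ l := nrmA (fun σ hσ => have ⟨a, ha, e⟩ := h.hom.mem_im.1 hσ; e ▸ h.mem a (l ha))
    (le_norm_iff.2 fun σ hσ τ hτ => by
      obtain ⟨a, ha, rfl⟩ := h.sur σ (M22_le_S2 hσ)
      obtain ⟨b, hb, rfl⟩ := h.hom.mem_im.1 hτ
      exact h.hom.mem_im.2 ⟨_, conj_mem_of_norm (norm_cent h.nor ha) hb, h.hom.conj ha (l hb)⟩)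
    fun e => n fun a ha => (h.ker a (l ha)).1 (mem_bot.1 (e ▸ h.hom.mem_im.2 ⟨a, ha, rfl⟩))
  have c : OL f ≤ 𝐂 V := (closure_le _).2 fun y hy => by
    obtain ⟨a, ha, e⟩ := h.hom.mem_im.1 (m (odd_MM (h.mem y hy.1) (hy.2.of_dvd_nat (orderOf_dvd_of_pow_eq_one (by
      rw [← h.hom.pow hy.1, pow_orderOf_eq_one, h.hom.one])))))
    simpa using mul_mem ha (h.ab (h.div (l ha) hy.1 e))
  obtain ⟨θ', q, e⟩ := QT.of_cent h.hom h.mem (fun σ hσ => h.sur σ (M22_le_S2 hσ)) fun a ha e =>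
    ⟨h.sq a ((h.ker a ha).1 e), cent_symm c ((h.ker a ha).1 e)⟩
  exact ⟨θ', T.z2 q fun a ha ca => h.sq a ((h.ker a (OL_le f ha)).1
    (e a (OL_le f ha) ▸ (q.ker a (le_norm_self _ ha)).2 ca)), h.iv⟩

theorem Hy.ol (h : Hy V f θ) : (∀ x ∈ OL f, θ x ∈ MM) ∧ ∀ m ∈ MM, ∃ x ∈ OL f, θ x = m :=
  ⟨fun x hx => (h.hom.mem_pre.1 ((closure_le (h.hom.pre MM)).2 (fun y hy => h.hom.mem_pre.2 ⟨hy.1,
    odd_MM (h.mem y hy.1) (hy.2.of_dvd_nat (orderOf_dvd_of_pow_eq_one (by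
      rw [← h.hom.pow hy.1, pow_orderOf_eq_one, h.hom.one])))⟩) hx)).2,
    fun m hm => h.hom.mem_im.1 ((closure_le (h.hom.im _ (OL_le f))).2 (fun o ho =>
      have ⟨y, a, b, c⟩ := h.lift (M22_le_S2 ho.1) ho.2
      h.hom.mem_im.2 ⟨y, subset_closure ⟨a, b⟩, c⟩) (MM_odd hm))⟩

end CF.Tr
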