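import Cfsg.Agent.Tr.WD
import Cfsg.Agent.Tr.T2
import Cfsg.Agent.Tr.AB

/-! Unions of orbits on which an overgroup can be transitive. -/

set_option autoImplicit false
set_option maxRecDepth 1000000
set_option linter.unusedSectionVars false

namespace CF.Tr.W
open Finset CF.J4 CF.Comp CF.Dce CF.Comp.Mat CF.Dce.J4 CF.RF CF.JP

/-- a sum by halving -/
noncomputable def smB (f : ℕ → ℕ) (d : ℕ) : ℕ → ℕ :=
  Nat.rec (motive := fun _ => ℕ → ℕ) f (fun _ ih a => force (Nat.mul 2 a) fun b =>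
    force (ih b) fun x => force (ih (Nat.succ b)) (Nat.add x)) d

theorem smB_eq (f : ℕ → ℕ) (d a : ℕ) : smB f d a = ∑ i ∈ range (2 ^ d), f (a * 2 ^ d + i) := by
  induction d generalizing a with
  | zero => simp [smB]
  | succ d ih =>
    have e : smB f (d + 1) a = force (Nat.mul 2 a) fun b => force (smB f d b) fun x =>
      force (smB f d (Nat.succ b)) (Nat.add x) := rfl
    rw [e, force_eq, force_eq, force_eq, ih, ih, pow_succ, mul_two, sum_range_add]
    exact congrArg₂ (· + ·) (sum_congr rfl fun i _ => congrArg f (by simp only [Nat.mul_eq]; ring))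
      (sum_congr rfl fun i _ => congrArg f (by simp only [Nat.mul_eq, Nat.succ_eq_add_one]; ring))

theorem smB_zero (f : ℕ → ℕ) (d : ℕ) : smB f d 0 = ∑ i ∈ range (2 ^ d), f i := by simp [smB_eq]

/-- the table of orbits -/
noncomputable def TB (t : ℕ) : ℕ := nth 0 [TB0, TB1, TB2] t
/-- the orbit of a vector -/
noncomputable def oi (t c : ℕ) : ℕ := gx 3 (TB t) c
/-- representatives -/
noncomputable def rp (t j : ℕ) : ℕ :=
  nth 0 (nth [] [[0, 1, 9, 43, 91, 1024], [0, 1, 9, 91, 1024, 1025, 1033, 1115], [0, 1, 5, 9, 1024, 1025, 1029, 1033]] t) j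
/-- lengths -/
noncomputable def sz (t j : ℕ) : ℕ :=
  nth 0 (nth [] [[1, 1540, 231, 231, 44, 1], [1, 770, 231, 22, 1, 770, 231, 22], [1, 616, 77, 330, 1, 616, 77, 330]] t) j
/-- the matrix of a letter -/
noncomputable abbrev EL (t : ℕ) : ℕ → ℕ := nth (mo 11) (LN t)
/-- the matrix of a word -/
noncomputable abbrev mw (t : ℕ) (w : List ℕ) : ℕ := evW (mm 11) (mo 11) (EL t) w
/-- the three generators -/
noncomputable def Ms (t : ℕ) : List ℕ := [EL t 1, EL t 3, EL t 5]
/-- the possible unions -/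
noncomputable def AL (t : ℕ) : List ℕ := nth [] [[32, 56, 62], [16, 240, 254], [16, 240, 254]] t

theorem oi_lt (t c : ℕ) : oi t c < 8 := by rw [oi, gx_eq]; exact fld_lt 3 _ _

theorem rp_lt : ∀ t < 3, ∀ j < 8, rp t j < 2048 := by decide +kernel

theorem chk_cls : ∀ t < 3, forceL (Ms t) (fun M => forceL (tabl (fun j => bfs 11 M 5000 [rp t j] 0) 8) fun Os =>
    force (TB t) fun T => allBin (fun c => tb (nth 0 Os (gx 3 T c)) c) 2048 11 0) = true := by decide +kernel

theorem chk_inv : ∀ t < 3, forceL (Ms t) (fun M => force (TB t) fun T =>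
    allBin (fun c => lall (fun x => Nat.beq (gx 3 T (vm 11 c x)) (gx 3 T c)) M) 2048 11 0) = true := by decide +kernel

theorem chk_sz : ∀ t < 3, ∀ j < 8, force (TB t) (fun T =>
    smB (fun c => Bool.rec 0 1 (Nat.beq (gx 3 T c) j)) 11 0) = sz t j := by decide +kernel

variable {t : ℕ} (ht : t < 3)
include ht

theorem cls_of {P : ℕ → Prop} (hP : ∀ x ∈ Ms t, ∀ c < 2 ^ 11, P c → P (vm 11 c x)) {c : ℕ} (hc : c < 2048)
    (h : P (rp t (oi t c))) : P c := by
  have k := chk_cls t ht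
  rw [forceL_eq, forceL_eq, force_eq] at k
  have := allBin_spec k (by norm_num) c hc
  rw [← oi, nth_tabl _ _ (oi_lt t c)] at this
  exact bfs_one hP (by simpa using ⟨rp_lt t ht _ (oi_lt t c), h⟩) this

theorem oi_vm {x c : ℕ} (hx : x ∈ Ms t) (hc : c < 2048) : oi t (vm 11 c x) = oi t c := by
  have k := chk_inv t ht
  rw [forceL_eq, force_eq] at k
  exact beq_iff.1 (lall_iff.1 (allBin_spec k (by norm_num) c hc) x hx)

theorem card_cls {j : ℕ} (hj : j < 8) : ((range 2048).filter fun c => oi t c = j).card = sz t j := by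
  rw [← chk_sz t ht j hj, force_eq, smB_zero, card_filter]
  exact sum_congr rfl fun c _ => (brec_beq 0 1 _ _).symm

omit ht

open _root_.Classical in
/-- the number of ways to write a vector as a sum of `k` members of `O` -/
noncomputable def cn (O : ℕ → Prop) : ℕ → ℕ → ℕ
  | 0, v => if v = 0 then 1 else 0
  | k + 1, v => ∑ a ∈ range 2048, if O a then cn O k (v ^^^ a) else 0

/-- an invertible matrix preserving `O` -/
def Au (O : ℕ → Prop) (x : ℕ) : Prop :=
  ∃ y, ∀ a < 2048, vm 11 (vm 11 a x) y = a ∧ vm 11 (vm 11 a y) x = a ∧ (O (vm 11 a x) ↔ O a)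

theorem cn_vm {O : ℕ → Prop} {x : ℕ} (h : Au O x) (k : ℕ) {v : ℕ} (hv : v < 2048) : cn O k (vm 11 v x) = cn O k v := by
  classical
  obtain ⟨y, h⟩ := h
  induction k generalizing v with
  | zero =>
    refine if_congr ⟨fun e => ?_, fun e => by rw [e, vm_zero]⟩ rfl rfl
    rw [← (h v hv).1, e, vm_zero]
  | succ k ih =>
    refine (sum_nbij' (fun a => vm 11 a x) (fun a => vm 11 a y) (fun a _ => mem_range.2 (v11 _ _))
      (fun a _ => mem_range.2 (v11 _ _)) (fun a ha => (h a (mem_range.1 ha)).1) (fun a ha => (h a (mem_range.1 ha)).2.1)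
      fun a ha => ?_).symm
    rw [← vm_xor, ih (x11 hv (mem_range.1 ha))]
    exact if_congr (h a (mem_range.1 ha)).2.2.symm rfl rfl

/-- the structure constants -/
noncomputable def pj (T r : ℕ) : ℕ :=
  smB (fun a => Nat.shiftLeft 1 (Nat.mul 12 (Nat.add (Nat.mul 8 (gx 3 T a)) (gx 3 T (Nat.xor r a))))) 11 0

theorem pj_sum (t r : ℕ) (F : ℕ → ℕ) : ∑ a ∈ range 2048, F (8 * oi t a + oi t (r ^^^ a)) =
    ∑ q ∈ range 64, gx 12 (pj (TB t) r) q * F q := by
  have m : ∀ a ∈ range 2048, 8 * oi t a + oi t (r ^^^ a) ∈ range 64 := fun a _ => mem_range.2 (by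
    have := oi_lt t a; have := oi_lt t (r ^^^ a); omega)
  have k : ∀ F : ℕ → ℕ, ∑ a ∈ range 2048, F (8 * oi t a + oi t (r ^^^ a)) =
      ∑ q ∈ range 64, ((range 2048).filter fun a => 8 * oi t a + oi t (r ^^^ a) = q).card * F q := fun F => by
    rw [← sum_fiberwise_of_maps_to m]
    exact sum_congr rfl fun q _ => by rw [sum_congr rfl fun a ha => by rw [(mem_filter.1 ha).2], sum_const, smul_eq_mul]
  have e : pj (TB t) r = pk 12 64 fun q => ((range 2048).filter fun a => 8 * oi t a + oi t (r ^^^ a) = q).card := by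
    rw [pj, smB_zero, pk, ← k fun q => 2 ^ (12 * q)]
    exact sum_congr rfl fun a _ => Nat.one_shiftLeft _
  rw [k]
  refine sum_congr rfl fun q hq => ?_
  rw [gx_eq, e, fld_pk (by norm_num) (fun q _ => (card_filter_le _ _).trans_lt (by simp)) (mem_range.1 hq)]

/-- one more summand -/
noncomputable def nx (P : List ℕ) (m : ℕ) (C : List ℕ) : List ℕ := tabl (fun j => force (nth 0 P j) fun p =>
  smB (fun q => Bool.rec 0 (Nat.mul (gx 12 p q) (nth 0 C (Nat.mod q 8))) (tb m (Nat.div q 8))) 6 0) 8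

/-- the iteration -/
noncomputable def it (P : List ℕ) (m i0 : ℕ) (A : List ℕ) (k : ℕ) : List ℕ → Bool :=
  Nat.rec (motive := fun _ => List ℕ → Bool) (fun _ => lm m A) (fun _ ih C => forceL (nx P m C) fun C' =>
    imp (allFrom (fun i => imp (tb m i) (Nat.beq (nth 0 C' i) (nth 0 C' i0))) 0 8) (ih C')) k

theorem chk_wl : ∀ t < 3, rp t (oi t 1024) = 1024 ∧ force (TB t) (fun T => forceL (tabl (fun j => pj T (rp t j)) 8) fun P =>
    force (oi t 1024) fun i0 => allBin (fun m => imp (tb m i0) (imp (allFrom (fun i => imp (tb m i)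
      (Nat.ble 1 (rp t i))) 0 8) (it P m i0 (AL t) 5 (tabl (fun j => Bool.rec 0 1 (Nat.beq (rp t j) 0)) 8)))) 256 8 0) =
      true := by decide +kernel

theorem wlc (ht : t < 3) {O : ℕ → Prop} (h0 : ¬ O 0) (h1 : O 1024) (g : ∀ x ∈ Ms t, Au O x)
    (tr : ∀ c < 2048, O c → ∃ x, Au O x ∧ vm 11 1024 x = c) :
    ∃ m ∈ AL t, ∀ c < 2048, (O c ↔ m.testBit (oi t c) = true) := by
  classical
  obtain ⟨m, lm', hm⟩ : ∃ m < 256, ∀ i < 8, (m.testBit i = true ↔ O (rp t i)) :=
    ⟨Nat.ofBits fun i : Fin 8 => decide (O (rp t i)), Nat.ofBits_lt_two_pow _, fun i hi => by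
      rw [Nat.testBit_ofBits_lt _ _ hi, decide_eq_true_iff]⟩
  have hO : ∀ c < 2048, (O c ↔ m.testBit (oi t c) = true) := fun c hc => by
    rw [hm _ (oi_lt t c)]
    exact cls_of ht (P := fun d => O d ↔ O (rp t (oi t c))) (fun x hx d hd p => ((g x hx).choose_spec d hd).2.2.trans p)
      hc Iff.rfl
  have hc : ∀ k, ∀ c < 2048, cn O k c = cn O k (rp t (oi t c)) := fun k c hc =>
    cls_of ht (P := fun d => cn O k d = cn O k (rp t (oi t c))) (fun x hx d hd p => (cn_vm (g x hx) k hd).trans p) hc rfl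
  obtain ⟨e0, k⟩ := chk_wl t ht
  rw [force_eq, forceL_eq, force_eq] at k
  have k := imp_iff.1 (imp_iff.1 (allBin_spec k (by norm_num) m lm') (by rw [tb_eq, ← hO _ (by norm_num)]; exact h1))
    (allFrom_zero.2 fun i hi => imp_iff.2 fun b => ble_iff.2 (Nat.pos_of_ne_zero fun e =>
      h0 (e ▸ (hm i hi).1 (tb_eq _ _ ▸ b))))
  have step : ∀ n l C, (∀ j < 8, nth 0 C j = cn O l (rp t j)) →
      it (tabl (fun j => pj (TB t) (rp t j)) 8) m (oi t 1024) (AL t) n C = true → m ∈ AL t := fun n => by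
    induction n with
    | zero => exact fun _ _ _ k => lm_iff.1 k
    | succ n ih =>
      intro l C hC k
      have e : ∀ j < 8, nth 0 (nx (tabl (fun j => pj (TB t) (rp t j)) 8) m C) j = cn O (l + 1) (rp t j) := fun j hj => by
        rw [nx, nth_tabl _ _ hj, force_eq, nth_tabl _ _ hj, smB_zero, cn]
        refine Eq.trans (sum_congr rfl fun q _ => ?_) ((pj_sum t (rp t j) fun q =>
          if m.testBit (q / 8) = true then nth 0 C (q % 8) else 0).symm.trans (sum_congr rfl fun a ha => ?_))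
        · rw [tb_eq, show Nat.div q 8 = q / 8 from rfl, show Nat.mod q 8 = q % 8 from rfl]
          cases m.testBit (q / 8) <;> simp
        · have := oi_lt t (rp t j ^^^ a)
          simp only [show (8 * oi t a + oi t (rp t j ^^^ a)) / 8 = oi t a by omega,
            show (8 * oi t a + oi t (rp t j ^^^ a)) % 8 = oi t (rp t j ^^^ a) by omega]
          rw [hC _ this, ← hc l _ (x11 (rp_lt t ht j hj) (mem_range.1 ha))]
          exact if_congr (hO a (mem_range.1 ha)).symm rfl rfl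
      replace k : forceL (nx _ m C) (fun C' => imp (allFrom (fun i => imp (tb m i) (Nat.beq (nth 0 C' i)
        (nth 0 C' (oi t 1024)))) 0 8) (it _ m (oi t 1024) (AL t) n C')) = true := k
      rw [forceL_eq] at k
      refine ih (l + 1) _ e (imp_iff.1 k (allFrom_zero.2 fun i hi => imp_iff.2 fun b => ?_))
      obtain ⟨x, a, q⟩ := tr _ (rp_lt t ht i hi) ((hm i hi).1 (tb_eq _ _ ▸ b))
      rw [beq_iff, e i hi, e _ (oi_lt _ _), e0, ← q, cn_vm a _ (by norm_num)]
  exact ⟨m, step 5 0 _ (fun j hj => by rw [nth_tabl _ _ hj, brec_beq]; rfl) k, hO⟩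

theorem chk_AL : ∀ t < 3, force (TB t) (fun T => allBin (fun c => force (gx 3 T c) fun i => decide
    ((Nat.testBit (nth 0 (AL t) 0) i = true ↔ c = 1024) ∧ (Nat.testBit (nth 0 (AL t) 2) i = true ↔ c ≠ 0) ∧
      (t ≠ 0 → (Nat.testBit 240 i = true ↔ 1024 ≤ c)))) 2048 11 0) = true := by decide +kernel

theorem wlc' (ht : t < 3) {O : ℕ → Prop} (h0 : ¬ O 0) (h1 : O 1024) (g : ∀ x ∈ Ms t, Au O x)
    (tr : ∀ c < 2048, O c → ∃ x, Au O x ∧ vm 11 1024 x = c) : (∀ c < 2048, O c → c = 1024) ∨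
      (t = 0 ∧ ∀ c < 2048, (O c ↔ oi t c ∈ [3, 4, 5])) ∨ (t ≠ 0 ∧ ∀ c < 2048, (O c ↔ 1024 ≤ c)) ∨
        ∀ c < 2048, (O c ↔ c ≠ 0) := by
  obtain ⟨m, hm, e⟩ := wlc ht h0 h1 g tr
  have k0 := chk_AL t ht
  rw [force_eq] at k0
  have k := fun c hc => of_decide_eq_true ((force_eq _ _).symm.trans (allBin_spec k0 (by norm_num) c hc))
  rcases (by decide +kernel : ∀ t < 3, ∀ m ∈ AL t, m = nth 0 (AL t) 0 ∨ (t = 0 ∧ m = 56) ∨ (t ≠ 0 ∧ m = 240) ∨
    m = nth 0 (AL t) 2) t ht m hm with rfl | ⟨h, rfl⟩ | ⟨h, rfl⟩ | rfl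
  · exact .inl fun c hc o => (k c hc).1.1 ((e c hc).1 o)
  · exact .inr (.inl ⟨h, fun c hc => (e c hc).trans
      ((by decide : ∀ i < 8, Nat.testBit 56 i = true ↔ i ∈ [3, 4, 5]) _ (oi_lt t c))⟩)
  · exact .inr (.inr (.inl ⟨h, fun c hc => (e c hc).trans ((k c hc).2.2 h)⟩))
  · exact .inr (.inr (.inr fun c hc => (e c hc).trans (k c hc).2.1))

theorem span_l {P : ℕ → Prop} (h0 : P 0) (hx : ∀ a b, P a → P b → P (a ^^^ b)) {l : List ℕ} (h : ∀ a ∈ l, P a) :
    P (l.foldr (· ^^^ ·) 0) := by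
  induction l with
  | nil => exact h0
  | cons a l ih => exact hx _ _ (h a List.mem_cons_self) (ih fun b hb => h b (List.mem_cons_of_mem _ hb))

theorem span_vm {P : ℕ → Prop} (h0 : P 0) (hx : ∀ a b, P a → P b → P (a ^^^ b)) {B : ℕ} (h : ∀ i < 11, P (fld 11 B i)) :
    ∀ c < 2 ^ 11, P (vm 11 c B) :=
  xor_ind (P := fun c => P (vm 11 c B)) (by rwa [vm_zero]) (fun i hi => by rw [vm_pow hi]; exact h i hi)
    fun a _ b _ p q => by rw [vm_xor]; exact hx _ _ p q

theorem three_dvd {α : Type*} {T : Set α} (hT : T.Finite) (r : α → α) (m : ∀ p ∈ T, r p ∈ T)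
    (e : ∀ p ∈ T, r (r (r p)) = p) (n : ∀ p ∈ T, r p ≠ p) : 3 ∣ T.ncard := by
  classical
  have := hT.fintype
  have := Fact.mk Nat.prime_three
  have k := Equiv.Perm.card_fixedPoints_modEq (α := T) (f := fun p => ⟨r p, m _ p.2⟩) (p := 3) (n := 1)
    (funext fun p => Subtype.ext (e _ p.2))
  rw [Fintype.card_eq_zero_iff (α := Function.fixedPoints _).2 ⟨fun p => n _ p.1.2 (congrArg Subtype.val p.2)⟩] at k
  rw [← Nat.card_coe_set_eq, Nat.card_eq_fintype_card]
  exact (Nat.modEq_zero_iff_dvd).1 k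

end CF.Tr.W
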