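import Cfsg.Agent.Tr.W1
import Cfsg.Agent.Tr.U

/-! Orbits of overgroups of the centraliser. -/

set_option autoImplicit false
set_option maxRecDepth 1000000
set_option linter.unusedSectionVars false
set_option synthInstance.maxSize 100000

namespace CF.Tr
open Cfsg Subgroup CF.BG CF.Bender CF.J4 CF.Comp CF.Dce CF.Comp.Mat CF.Dce.J4 CF.RF CF.JP W

variable {G : Type*} [Group G] [Finite G] {t : ℕ} {V S Z N K : Subgroup G} {ν : G → ℕ} {f : G} {g : ℕ → G} {θ : G → Pm}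

namespace W
/-- the codes of the conjugates -/
def Ob (N : Subgroup G) (ν : G → ℕ) (f : G) (c : ℕ) : Prop := ∃ n ∈ N, ν (n * f * n⁻¹) = c

/-- the codes of the members of a set -/
def Pk (X : G → Prop) (S : Subgroup G) (ν : G → ℕ) (c : ℕ) : Prop := ∃ x, X x ∧ x ∈ S ∧ ν x = c

/-- the stabiliser of a coset -/
def st (Z : Subgroup G) (e : G) : Subgroup G where
  carrier := {x | x ∈ 𝐍 Z ∧ x * e * x⁻¹ * e⁻¹ ∈ Z}
  one_mem' := ⟨one_mem _, by simp⟩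
  mul_mem' := fun {x y} a b => ⟨mul_mem a.1 b.1, by simpa [mul_assoc] using mul_mem (conj_mem_of_norm a.1 b.2) a.2⟩
  inv_mem' := fun {x} a => ⟨inv_mem a.1, by simpa [mul_assoc] using inv_mem (conj_mem_of_norm (inv_mem a.1) a.2)⟩

/-- words generating a Sylow subgroup -/
def wT : List (List ℕ) := [[21], [19], [17], [15], [13], [11], [9], [7]]

theorem chk_f : ∀ t < 3, ∀ w ∈ wT, vm 11 1024 (mw t w) = 1024 := by decide +kernel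

theorem chk_T : ∀ t ∈ [1, 2], forceL (lmap (mw t) wT) (fun M => allBin
    (fun c => imp (lall (fun x => Nat.beq (vm 11 c x) c) M) (lm c [0, nth 0 [0, 682, 80] t])) 1024 10 0) = true := by
  decide +kernel

theorem chk_S : ∀ t ∈ [1, 2], ∀ j < 8, rp t j < 1024 → ∃ l ∈ ([[], [42, 43], [9], [9, 17, 67], [454, 455], [5], [33, 40]] :
    List (List ℕ)), l.foldr (· ^^^ ·) 0 = rp t j ∧ ∀ a ∈ l, a < 2048 ∧ oi t a = oi t (nth 0 [0, 682, 80] t) := by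
  decide +kernel

theorem chk_lt : ∀ t ∈ [1, 2], force (TB t) (fun T => allBin (fun c => Nat.ble (rp t (gx 3 T c)) 1023) 1024 10 0) = true := by
  decide +kernel

theorem mem12 (h : t < 3) (t0 : t ≠ 0) : t ∈ [1, 2] := by simp; omega

theorem x10 {a b : ℕ} (ha : a < 2048) (hb : b < 2048) (h1 : 1024 ≤ a) (h2 : 1024 ≤ b) : a ^^^ b < 1024 :=
  Nat.lt_pow_two_of_testBit (n := 10) _ fun i hi => by
    rw [Nat.testBit_xor]
    rcases hi.eq_or_lt with rfl | hi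
    · rw [Nat.testBit_of_two_pow_le_and_two_pow_add_one_gt h1 ha, Nat.testBit_of_two_pow_le_and_two_pow_add_one_gt h2 hb]; rfl
    · have := Nat.pow_le_pow_right two_pos (show 11 ≤ i from hi)
      rw [Nat.testBit_lt_two_pow (ha.trans_le this), Nat.testBit_lt_two_pow (hb.trans_le this)]; rfl

theorem y10 {a : ℕ} (ha : a < 1024) : 1024 ≤ 1024 ^^^ a := not_lt.1 fun h => by
  have := Nat.xor_lt_two_pow (n := 10) h ha
  rw [Nat.xor_assoc, Nat.xor_self, Nat.xor_zero] at this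
  omega
end W

namespace Mz
variable (h : Mz t S Z ν f g)
include h

theorem lt' {e : G} (he : e ∈ S) : ν e < 2048 := h.co.lt e he

theorem aw (w : List ℕ) : Ac 11 S ν (ev g w) (mw t w) := h.co.cd.ev h.tb w

theorem cjeq {n a b : G} (h1 : n ∈ 𝐍 S) (h2 : n ∈ 𝐍 Z) (ha : a ∈ S) (hb : b ∈ S) (e : ν a = ν b) :
    ν (n * a * n⁻¹) = ν (n * b * n⁻¹) := by
  obtain ⟨x, -, k⟩ := h.co.ex (inv_mem h1) (inv_mem h2)
  simpa only [inv_inv] using (k.2 a ha).trans ((congrArg (vm 11 · x) e).trans (k.2 b hb).symm)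

theorem au (nS : N ≤ 𝐍 S) (nZ : N ≤ 𝐍 Z) {n : G} {x : ℕ} (hn : n ∈ N) (a : Ac 11 S ν n x) : Au (Ob N ν f) x := by
  obtain ⟨y, -, b⟩ := h.co.ex (nS (inv_mem hn)) (nZ (inv_mem hn))
  have k : ∀ {n x}, n ∈ N → Ac 11 S ν n x → ∀ c, Ob N ν f c → Ob N ν f (vm 11 c x) := fun {n x} hn a c ⟨m, hm, e⟩ =>
    ⟨n⁻¹ * m, mul_mem (inv_mem hn) hm, by rw [← e, ← a.2 _ (conj_mem_of_norm (nS hm) h.fS)]; congr 1; group⟩
  refine ⟨y, fun c hc => ?_⟩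
  obtain ⟨e, he, rfl⟩ := h.co.surj c hc
  have e1 : vm 11 (vm 11 (ν e) x) y = ν e := by rw [← a.2 e he, ← b.2 _ (norm_mem a.1 he)]; congr 1; group
  exact ⟨e1, by rw [← b.2 e he, ← a.2 _ (norm_mem b.1 he)]; congr 1; group,
    fun o => e1 ▸ k (inv_mem hn) b _ o, k hn a _⟩

theorem ms {x : ℕ} (hx : x ∈ Ms t) : ∃ i < 3, Ac 11 S ν (g i) x := by
  simp only [Ms, List.mem_cons, List.not_mem_nil, or_false] at hx
  rcases hx with rfl | rfl | rfl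
  exacts [⟨0, by decide, h.tb.odd 0⟩, ⟨1, by decide, h.tb.odd 1⟩, ⟨2, by decide, h.tb.odd 2⟩]

theorem wl0 (nS : N ≤ 𝐍 S) (nZ : N ≤ 𝐍 Z) (gN : ∀ i, g i ∈ N) : (∀ n ∈ N, ν (n * f * n⁻¹) = 1024) ∨
    (t = 0 ∧ ∀ c < 2048, (Ob N ν f c ↔ oi t c ∈ [3, 4, 5])) ∨ (t ≠ 0 ∧ ∀ c < 2048, (Ob N ν f c ↔ 1024 ≤ c)) ∨
      ∀ c < 2048, (Ob N ν f c ↔ c ≠ 0) := by
  refine (wlc' (O := Ob N ν f) h.t3 (fun ⟨n, hn, e⟩ => ?_) ⟨1, one_mem _, by simpa using h.nf⟩ (fun x hx => ?_)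
    fun c _ ⟨n, hn, e⟩ => ?_).imp_left fun k n hn => k _ (h.lt' (conj_mem_of_norm (nS hn) h.fS)) ⟨n, hn, rfl⟩
  · have := (h.co.ker f h.fS).2 ((mem_norm.1 (nZ hn) f).2 ((h.co.ker _ (conj_mem_of_norm (nS hn) h.fS)).1 e))
    rw [h.nf] at this; omega
  · obtain ⟨i, -, a⟩ := h.ms hx
    exact h.au nS nZ (gN i) a
  · obtain ⟨x, -, a⟩ := h.co.ex (nS (inv_mem hn)) (nZ (inv_mem hn))
    exact ⟨x, h.au nS nZ (inv_mem hn) a, by rw [← h.nf, ← a.2 f h.fS, inv_inv, e]⟩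

theorem wl (t0 : t ≠ 0) (nS : N ≤ 𝐍 S) (nZ : N ≤ 𝐍 Z) (gN : ∀ i, g i ∈ N) (e : ∀ n ∈ N, 1024 ≤ ν (n * f * n⁻¹)) :
    (∀ n ∈ N, ν (n * f * n⁻¹) = 1024) ∨ ∀ c < 2048, 1024 ≤ c → ∃ n ∈ N, ν (n * f * n⁻¹) = c := by
  rcases h.wl0 nS nZ gN with k | k | k | k
  · exact .inl k
  · exact absurd k.1 t0
  · exact .inr fun c hc l => (k.2 c hc).2 l
  · obtain ⟨n, hn, k⟩ := (k 1 (by norm_num)).2 one_ne_zero
    have := e n hn
    omega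

theorem dz {a b : G} (ha : a ∈ S) (hb : b ∈ S) : a * b⁻¹ ∈ Z ↔ ν a = ν b := by
  rw [← h.co.ker _ (mul_mem ha (inv_mem hb)), h.co.mul a ha _ (inv_mem hb), h.co.inv hb]
  exact ⟨Nat.eq_of_xor_eq_zero, fun e => e ▸ Nat.xor_self _⟩

/-- codes of members of an invariant set -/
theorem spr {X : G → Prop} (nK : ∀ i < 3, ∀ y, X y → X (g i * y * (g i)⁻¹) ∧ X ((g i)⁻¹ * y * g i)) {a b : ℕ}
    (ha : a < 2048) (hb : b < 2048) (e : rp t (oi t a) = rp t (oi t b)) (p : Pk X S ν a) : Pk X S ν b := by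
  have k : ∀ c < 2048, (Pk X S ν c ↔ Pk X S ν (rp t (oi t c))) := fun c hc =>
    cls_of h.t3 (P := fun d => Pk X S ν d ↔ Pk X S ν (rp t (oi t c))) (fun x hx d hd q => Iff.trans ?_ q) hc Iff.rfl
  · exact (k b hb).2 (e ▸ (k a ha).1 p)
  obtain ⟨i, hi, a⟩ := h.ms hx
  refine ⟨fun ⟨y, yK, yS, e⟩ => ⟨_, (nK i hi y yK).1, norm_mem' a.1 yS, h.co.inj a (h.gZ i) (h.lt' (norm_mem' a.1 yS)) hd ?_⟩,
    fun ⟨y, yK, yS, e⟩ => ⟨_, (nK i hi y yK).2, norm_mem a.1 yS, by rw [a.2 y yS, e]⟩⟩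
  rw [← a.2 _ (norm_mem' a.1 yS), ← e]; congr 1; group

theorem spK (nK : ∀ i < 3, g i ∈ 𝐍 K) {a b : ℕ} (ha : a < 2048) (hb : b < 2048) (e : rp t (oi t a) = rp t (oi t b))
    (p : Pk (· ∈ K) S ν a) : Pk (· ∈ K) S ν b :=
  h.spr (fun i hi _ hy => ⟨norm_mem' (nK i hi) hy, norm_mem (nK i hi) hy⟩) ha hb e p

theorem pk0 : Pk (· ∈ K) S ν 0 := ⟨1, one_mem _, one_mem _, h.co.one⟩

theorem pkx (a b : ℕ) : Pk (· ∈ K) S ν a → Pk (· ∈ K) S ν b → Pk (· ∈ K) S ν (a ^^^ b) :=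
  fun ⟨x, xK, xS, e⟩ ⟨y, yK, yS, e'⟩ => ⟨x * y, mul_mem xK yK, mul_mem xS yS, by rw [h.co.mul x xS y yS, e, e']⟩

theorem pkm (l : Z ≤ K) {w : G} (hw : w ∈ S) : Pk (· ∈ K) S ν (ν w) → w ∈ K := fun ⟨x, xK, xS, e⟩ => by
  simpa using mul_mem xK (l ((h.co.eq_iff xS hw).1 e))

theorem fw {w : G} (hw : w ∈ S) : ν (f * w) = 1024 ^^^ ν w := by rw [h.co.mul f h.fS w hw, h.nf]

theorem dec {v : G} (hv : v ∈ S) : v ∈ Wz h ∨ f * v ∈ Wz h := (lt_or_ge (ν v) 1024).imp (fun k => ⟨hv, k⟩)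
  fun k => ⟨mul_mem h.fS hv, h.fw hv ▸ x10 (by norm_num) (h.lt' hv) le_rfl k⟩

theorem fW : f ∉ Wz h := fun k => absurd k.2 (by rw [h.nf]; norm_num)

theorem nW (nS : N ≤ 𝐍 S) (nZ : N ≤ 𝐍 Z) (e : ∀ n ∈ N, 1024 ≤ ν (n * f * n⁻¹))
    (tr : ∀ c < 2048, 1024 ≤ c → ∃ n ∈ N, ν (n * f * n⁻¹) = c) : N ≤ 𝐍 (Wz h) := fun n hn => U.nor_of fun w hw => by
  have m := mul_mem h.fS hw.1
  have a := norm_mem' (nS hn) h.fS
  have b := norm_mem' (nS hn) m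
  obtain ⟨k, hk, q⟩ := tr _ (h.lt' m) (h.fw hw.1 ▸ y10 hw.2)
  refine ⟨norm_mem' (nS hn) hw.1, ?_⟩
  rw [show n * w * n⁻¹ = (n * f * n⁻¹)⁻¹ * (n * (f * w) * n⁻¹) by group, h.co.mul _ (inv_mem a) _ b, h.co.inv a]
  refine x10 (h.lt' a) (h.lt' b) (e n hn) ?_
  rw [← h.cjeq (nS hn) (nZ hn) (norm_mem' (nS hk) h.fS) m q, show n * (k * f * k⁻¹) * n⁻¹ = n * k * f * (n * k)⁻¹ by group]
  exact e _ (mul_mem hn hk)

theorem tl (t0 : t ≠ 0) (SN : S ≤ N) (nS : N ≤ 𝐍 S) (nZ : N ≤ 𝐍 Z) (gN : ∀ i, g i ∈ N)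
    (p : IsPGroup 2 (clo g [[21], [19], [17], [15], [13], [11], [9], [7]]))
    (e : ∀ n ∈ N, 1024 ≤ ν (n * f * n⁻¹)) (tr : ∀ c < 2048, 1024 ≤ c → ∃ n ∈ N, ν (n * f * n⁻¹) = c) :
    ∀ c < 2048, 1024 ≤ c → ∃ n ∈ N, ν (n * f * n⁻¹) = c ∧ ∀ x ∈ S, ν x < 1024 → ν (n * x * n⁻¹) = ν x := fun c hc l => by
  have ht := mem12 h.t3 t0
  have c0 : nth 0 [0, 682, 80] t < 1024 := (by decide : ∀ t ∈ [1, 2], nth 0 [0, 682, 80] t < 1024) t ht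
  obtain ⟨w₀, w0, e0⟩ := h.co.surj _ (c0.trans (by norm_num))
  obtain ⟨w, hw, ew⟩ := h.co.surj _ ((x10 (by norm_num) hc le_rfl l).trans (by norm_num))
  refine (Tr.tl (W := Wz h) (T := clo g wT) (w₀ := w₀)
    (fun z hz => ⟨h.co.le hz, by rw [(h.co.ker z (h.co.le hz)).2 hz]; norm_num⟩) (fun _ k => k.1) SN nS nZ
    (h.nW nS nZ e tr) (fun a ha => (h.co.ker _ (mul_mem ha ha)).1 (by rw [h.co.mul a ha a ha, Nat.xor_self])) h.fS h.fW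
    (fun w hw => ?_) (clo_le.2 fun w _ => ev_mem gN w) p (fun x hx => And.right ((clo_le (H := st Z f)).2 (fun u hu => ?_) hx))
    (fun w hw k => ?_) ⟨w0, e0 ▸ c0⟩ (fun w hw => ?_) (fun v hv => h.dec hv) w
    ⟨hw, ew ▸ x10 (by norm_num) hc le_rfl l⟩).elim fun n ⟨hn, k1, k2⟩ => ?_
  rotate_right
  · refine ⟨n, hn, ?_, fun x hx l => (h.dz (norm_mem' (nS hn) hx) hx).1 (k2 x ⟨hx, l⟩)⟩
    rw [(h.dz (norm_mem' (nS hn) h.fS) (mul_mem h.fS hw)).1 k1, h.fw hw, ew, ← Nat.xor_assoc, Nat.xor_self, Nat.zero_xor]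
  · have m := mul_mem h.fS hw.1
    obtain ⟨k, hk, q⟩ := tr _ (h.lt' m) (h.fw hw.1 ▸ y10 hw.2)
    exact ⟨k, hk, (h.dz (norm_mem' (nS hk) h.fS) m).2 q⟩
  · have a := h.aw u
    refine (inv_mem_iff (H := st Z f)).1 ⟨inv_mem (ev_mem h.gZ u), ?_⟩
    rw [inv_inv, h.dz (norm_mem a.1 h.fS) h.fS, a.2 f h.fS, h.nf, chk_f t h.t3 u hu]
  · have q := chk_T t ht
    rw [forceL_eq] at q
    have := lm_iff.1 (imp_iff.1 (allBin_spec q (by norm_num) _ hw.2) (lall_iff.2 fun x hx => ?_))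
    · simp only [List.mem_cons, List.not_mem_nil, or_false] at this
      exact this.imp (h.co.ker w hw.1).1 fun q => (h.dz hw.1 w0).2 (q.trans e0.symm)
    rw [lmap_eq] at hx
    obtain ⟨u, hu, rfl⟩ := List.mem_map.1 hx
    have a := h.aw u
    have := k _ (inv_mem (ev_mem_clo g hu))
    rw [inv_inv, h.dz (norm_mem a.1 hw.1) hw.1, a.2 w hw.1] at this
    exact beq_iff.2 this
  · have nK : N ≤ 𝐍 (Z ⊔ closure {x | ∃ g ∈ N, x = g * w₀ * g⁻¹} : Subgroup G) := le_norm_of_cj_le fun m hm =>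
      cj_le_iff.2 (sup_le (fun z hz => mem_cj_inv.2 (mem_sup_left (norm_mem' (nZ hm) hz))) ((closure_le _).2
        fun x ⟨k, hk, q⟩ => mem_cj_inv.2 (mem_sup_right (subset_closure ⟨m * k, mul_mem hm hk, by rw [q]; group⟩))))
    have q := chk_lt t ht
    rw [force_eq] at q
    obtain ⟨l, -, e1, e2⟩ := chk_S t ht _ (oi_lt t (ν w)) (Nat.lt_succ_of_le (ble_iff.1 (allBin_spec q (by norm_num) _ hw.2)))
    refine h.pkm le_sup_left hw.1 (cls_of h.t3 (fun x hx c hc p => h.spK (fun i _ => nK (gN i)) hc (v11 _ _)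
      (by rw [oi_vm h.t3 hx hc]) p) (h.lt' hw.1) (e1 ▸ span_l h.pk0 h.pkx fun a ha => ?_))
    exact h.spK (fun i _ => nK (gN i)) (c0.trans (by norm_num)) (e2 a ha).1 (by rw [(e2 a ha).2])
      ⟨w₀, mem_sup_right (subset_closure ⟨1, one_mem _, by simp⟩), w0, e0⟩
end Mz

end CF.Tr
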