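import Cfsg.Agent.Tr.W2
import Cfsg.Agent.Tr.M1
import Cfsg.Agent.ZD.Bad

/-! The orbit of the involution under the normaliser of `V`. -/

set_option autoImplicit false
set_option maxRecDepth 1000000
set_option linter.unusedSectionVars false
set_option synthInstance.maxSize 100000

namespace CF.Tr
open Cfsg Subgroup CF.BG CF.Bender CF.J4 CF.Comp CF.Dce CF.Comp.Mat CF.Dce.J4 CF.RF CF.JP W

variable {G : Type*} [Group G] [Finite G] {t : ℕ} {V W K : Subgroup G} {ν : G → ℕ} {f : G} {g : ℕ → G} {θ : G → Pm}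

namespace W
/-- elements preserving a function on `V` -/
def pv (V : Subgroup G) (F : G → ℕ) : Subgroup G where
  carrier := {x | x ∈ 𝐍 V ∧ ∀ v ∈ V, F (x * v * x⁻¹) = F v}
  one_mem' := ⟨one_mem _, by simp⟩
  mul_mem' := fun {x y} a b => ⟨mul_mem a.1 b.1, fun v hv => by
    rw [← b.2 v hv, ← a.2 _ (norm_mem' b.1 hv)]; congr 1; group⟩
  inv_mem' := fun {x} a => ⟨inv_mem a.1, fun v hv => by rw [← a.2 _ (norm_mem' (inv_mem a.1) hv)]; congr 1; group⟩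

/-- the number of vectors with a property -/
noncomputable def ct (p : ℕ → Bool) : ℕ := smB (fun c => Bool.rec 0 1 (p c)) 11 0

theorem ct_eq (p : ℕ → Bool) : ((Finset.range 2048).filter fun c => p c = true).card = ct p := by
  rw [ct, smB_zero, Finset.card_filter]
  exact Finset.sum_congr rfl fun c _ => by cases p c <;> rfl

theorem chk_276 : force (TB 0) (fun T => ct fun c => lm (gx 3 T c) [3, 4, 5]) = 276 := by decide +kernel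

theorem chk_G : ∀ j < 8, ∃ l ∈ ([[], [43, 285, 311], [43, 276, 310], [43], [91], [1024]] : List (List ℕ)),
    l.foldr (· ^^^ ·) 0 = rp 0 j ∧ ∀ a ∈ l, a < 2048 ∧ oi 0 a ∈ [3, 4, 5] := by decide +kernel

theorem chk_big : force (TB 0) (fun T => allBin (fun c => force (gx 3 T c) fun i =>
    decide (c = 0 ∨ i ∈ [3, 4, 5] ∨ 231 ≤ sz 0 i)) 2048 11 0) = true := by decide +kernel

theorem chk_3 : ∀ t < 3, ¬ 3 ∣ 2047 * force (TB t) fun T => ct fun c => Nat.beq (sz t (gx 3 T c)) (nth 0 [44, 22, 77] t) := by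
  decide +kernel

theorem chk_3' : ∀ t < 3, ∀ c ∈ [0, 1024], sz t (oi t c) ≠ nth 0 [44, 22, 77] t := by decide +kernel

/-- common fixed vectors -/
noncomputable def fx (M l : List ℕ) : Bool := forceL M fun M =>
  allBin (fun c => imp (lall (fun x => Nat.beq (vm 11 c x) c) M) (lm c l)) 1024 10 0

theorem fx_spec {α : Type} {F : α → ℕ} {d : List α} {a c : ℕ} (k : fx (lmap F d) [0, a] = true) (hc : c < 1024)
    (e : ∀ u ∈ d, vm 11 c (F u) = c) : c = 0 ∨ c = a := by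
  rw [fx, forceL_eq, lmap_eq] at k
  simpa using lm_iff.1 (imp_iff.1 (allBin_spec k (by norm_num) _ hc) (lall_iff.2 fun x hx => by
    obtain ⟨u, hu, rfl⟩ := List.mem_map.1 hx
    exact beq_iff.2 (e u hu)))

/-- the data for the affine lemma -/
def JC (t a b B : ℕ) (c2 co : List ℕ) (d1 d2 d3 : List (List ℕ)) : Prop :=
  a < 1024 ∧ a ≠ 0 ∧ b < 1024 ∧ b ≠ a ∧ vm 11 a (mw t c2) = b ∧ (∀ u ∈ d1, vm 11 a (mw t u) = a) ∧
  fx (lmap (fun u => mm 11 (mw t u) (mw t u)) d1) [0, a] = true ∧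
  (∀ u ∈ d2, vm 11 a (mw t u) = a ∧ vm 11 b (mw t u) = b ∨ vm 11 a (mw t u) = b ∧ vm 11 b (mw t u) = a) ∧
  fx (lmap (mw t) d2) [0, a ^^^ b] = true ∧
  (∀ i < 11, fld 11 B i = 0 ∨ fld 11 B i = a ∨ ∃ u ∈ d3, vm 11 a (mw t u) = a ∧ vm 11 b (mw t u) = fld 11 B i) ∧
  ∀ i < 10, ∃ c ∈ co, c < 2 ^ 11 ∧ vm 11 c B = 2 ^ i

theorem jc1 : JC 1 91 109 0x1e496c3683696c13d6d09e83685b [13] [1004, 448, 168, 209, 802, 585, 478, 941, 750, 416]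
    [[34, 1], [7, 2]] [[13], [27, 17], [25, 21], [29, 25], [2, 17, 1]]
    [[], [21], [34, 1], [7, 2], [15, 2], [17, 2], [9, 5], [19, 5], [31, 6]] := by unfold JC; decide +kernel

theorem jc2 : JC 2 5 20 0x1f7a1011e7cdc38667a42d80a005 [1, 1] [653, 368, 652, 460, 654, 331, 679, 61, 738, 910]
    [[6, 4], [23, 1, 1]] [[13, 9, 7], [33, 17, 34], [28, 15, 3, 1]]
    [[], [6, 4], [3, 5], [13, 11], [29, 26], [23, 1, 1], [25, 3, 1], [29, 3, 1], [15, 4, 1]] := by unfold JC; decide +kernel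
end W

namespace Mo
variable (h : Mo t V ν f g θ)
include h

theorem pT : IsPGroup 2 (clo g [[21], [19], [17], [15], [13], [11], [9], [7]]) := M.pT h

theorem cnt (p : ℕ → Bool) : {v | v ∈ V ∧ p (ν v) = true}.ncard = ct p := by
  rw [← ct_eq, ← Set.ncard_coe_finset, ← Set.InjOn.ncard_image (f := ν) fun a ha b hb e => h.hz.inj ha.1 hb.1 e]
  congr 1
  ext c
  simp only [Set.mem_image, Set.mem_ofPred_eq, Finset.coe_filter, Finset.mem_range]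
  refine ⟨fun ⟨v, hv, e⟩ => e ▸ ⟨h.toMz.lt' hv.1, hv.2⟩, fun k => ?_⟩
  obtain ⟨v, hv, e⟩ := h.co.surj c k.1
  exact ⟨v, ⟨hv, e ▸ k.2⟩, e⟩

theorem nu0 {v : G} (hv : v ∈ V) : ν v = 0 ↔ v = 1 := (h.co.ker v hv).trans mem_bot

theorem orb {b : G} (hb : b ∈ V) : ♯(𝐂₁ f ⊓ 𝐂₁ b) * sz t (oi t (ν b)) = ♯(𝐂₁ f) := by
  have l : 𝐂₁ f ≤ pv V fun v => oi t (ν v) := h.gen (fun a ha => ⟨le_normalizer ha, fun v hv => by
    rw [h.ab.mul_comm ha hv, mul_inv_cancel_right]⟩) fun i hi => (inv_mem_iff (H := pv V _)).1 ⟨inv_mem (h.nor (h.gC i)),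
      fun v hv => by
        simp only [inv_inv, (h.tb.odd i).2 v hv]
        exact oi_vm h.t3 ((by decide +kernel : ∀ t < 3, ∀ i < 3, EL t (2 * i + 1) ∈ Ms t) t h.t3 i hi) (h.toMz.lt' hv)⟩
  rw [← card_inf_mul_relIndex (𝐂₁ b) (𝐂₁ f), inf_comm, ← ZD.ncard_cl, ← card_cls h.t3 (oi_lt t (ν b))]
  congr 1
  rw [← show _ = _ from (h.cnt fun c => Nat.beq (oi t c) (oi t (ν b))).trans (ct_eq _).symm |>.trans
    (congrArg _ (Finset.filter_congr fun _ _ => beq_iff))]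
  congr 1
  ext v
  refine ⟨fun k => ?_, fun ⟨n, hn, e⟩ => e ▸ ⟨norm_mem' (h.nor hn) hb, beq_iff.2 ((l hn).2 b hb)⟩⟩
  obtain ⟨x, k1, k2, k3⟩ := h.toMz.spr (X := fun y => ∃ n ∈ 𝐂₁ f, n * b * n⁻¹ = y) (fun i _ y ⟨n, hn, e⟩ =>
    ⟨⟨_, mul_mem (h.gC i) hn, by rw [← e]; group⟩, _, mul_mem (inv_mem (h.gC i)) hn, by rw [← e]; group⟩)
    (h.toMz.lt' hb) (h.toMz.lt' k.1) (by rw [beq_iff.1 k.2]) ⟨b, ⟨1, one_mem _, by simp⟩, hb, rfl⟩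
  exact h.hz.inj k2 k.1 k3 ▸ k1

theorem dlV {v : G} (hv : v ∈ Dl V f) : v ∈ V := hv.elim fun _ k => k.2 ▸ norm_mem' k.1 h.fV

theorem dl_iff {v : G} (hv : v ∈ V) : v ∈ Dl V f ↔ Ob (𝐍 V) ν f (ν v) :=
  ⟨fun ⟨n, hn, e⟩ => ⟨n, hn, e ▸ rfl⟩, fun ⟨n, hn, e⟩ => ⟨n, hn, h.hz.inj (norm_mem' hn h.fV) hv e⟩⟩

omit h in
theorem c276 (h : Mo 0 V ν f g θ) (e : ∀ c < 2048, (Ob (𝐍 V) ν f c ↔ oi 0 c ∈ [3, 4, 5])) : C276 V f := by
  have d : ∀ v ∈ V, (v ∈ Dl V f ↔ oi 0 (ν v) ∈ [3, 4, 5]) := fun v hv => (h.dl_iff hv).trans (e _ (h.toMz.lt' hv))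
  have s : ∀ c < 2048, oi 0 c ∈ [3, 4, 5] → ∃ v ∈ Dl V f, ν v = c := fun c hc k =>
    (h.co.surj c hc).elim fun v m => ⟨v, (d v m.1).2 (m.2 ▸ k), m.2⟩
  refine ⟨?_, fun v hv => ?_, fun K l1 l2 => ?_, ?_, fun v hv n m => ?_⟩
  · rw [← chk_276, force_eq, ← h.cnt]
    exact congrArg _ (Set.ext fun v => ⟨fun k => ⟨h.dlV k, lm_iff.2 ((d v (h.dlV k)).1 k)⟩,
      fun k => (d v k.1).2 (lm_iff.1 k.2)⟩)
  · have nK : 𝐍 V ≤ 𝐍 (closure (Dl V f)) := le_norm_of_cj_le fun m hm => cj_le_iff.2 ((closure_le _).2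
      fun x ⟨k, hk, q⟩ => mem_cj_inv.2 (subset_closure ⟨m * k, mul_mem hm hk, by rw [← q]; group⟩))
    obtain ⟨l, -, e1, e2⟩ := chk_G _ (oi_lt 0 (ν v))
    refine h.toMz.pkm bot_le hv (cls_of h.t3 (fun x hx c hc p => h.toMz.spK (fun i _ => nK (h.nor (h.gC i))) hc (v11 _ _)
      (by rw [oi_vm h.t3 hx hc]) p) (h.toMz.lt' hv) (e1 ▸ span_l h.toMz.pk0 h.toMz.pkx fun a ha => ?_))
    obtain ⟨x, m, q⟩ := s a (e2 a ha).1 (e2 a ha).2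
    exact ⟨x, subset_closure m, h.dlV m, q⟩
  · rcases h.toMz.wl0 l2 (fun a _ => T.nb a) fun i => l1 (h.gC i) with k | k | k | k
    · exact .inl (le_antisymm (fun n hn => c1_of (comm_iff_cj.2 (h.hz.inj (norm_mem' (l2 hn) h.fV) h.fV
        ((k n hn).trans h.nf.symm)))) l1)
    · refine .inr (le_antisymm l2 fun n hn => ?_)
      have m := norm_mem' hn h.fV
      obtain ⟨x, hx, q⟩ := (k.2 _ (h.toMz.lt' m)).2 ((e _ (h.toMz.lt' m)).1 ⟨n, hn, rfl⟩)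
      have := h.hz.inj (norm_mem' (l2 hx) h.fV) m q
      simpa using mul_mem hx (l1 (c1_of (y := x⁻¹ * n) (comm_iff_cj.2 (by
        rw [show x⁻¹ * n * f * (x⁻¹ * n)⁻¹ = x⁻¹ * (n * f * n⁻¹) * x by group, ← this]; group))))
    · exact absurd rfl k.1
    · obtain ⟨n, hn, q⟩ := (k 1 (by norm_num)).2 one_ne_zero
      exact absurd ((e 1 (by norm_num)).1 ⟨n, l2 hn, q⟩) (by decide +kernel)
  · obtain ⟨a, ha, e1⟩ := s 43 (by norm_num) (by decide +kernel)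
    obtain ⟨b, hb, e2⟩ := s 138 (by norm_num) (by decide +kernel)
    refine ⟨a, ha, b, hb, (d _ (mul_mem (h.dlV ha) (h.dlV hb))).2 ?_⟩
    rw [h.co.mul a (h.dlV ha) b (h.dlV hb), e1, e2]; decide +kernel
  · have k := chk_big
    rw [force_eq] at k
    have k := allBin_spec k (by norm_num) _ (h.toMz.lt' hv)
    rw [force_eq, decide_eq_true_iff, h.nu0 hv, ← oi, ← d v hv] at k
    exact (Nat.mul_le_mul_left _ ((k.resolve_left n).resolve_left m)).trans (h.orb hv).le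

theorem not_all (e : ∀ v ∈ V, v ≠ 1 → v ∈ Dl V f) : False := by
  obtain ⟨σ, hσ⟩ : ∃ σ, nth 0 [44, 22, 77] t = σ := ⟨_, rfl⟩
  let R : G → G → Prop := fun a b => b ∈ V ∧ b ≠ 1 ∧ a ≠ b ∧ ♯(𝐍 V ⊓ (𝐂₁ a ⊓ 𝐂₁ b)) * σ = ♯(𝐂₁ f)
  have d := three_dvd (T := {p : G × G | (p.1 ∈ V ∧ p.1 ≠ 1) ∧ R p.1 p.2}) (Set.toFinite _) (fun p => (p.2, p.1 * p.2))
    (fun ⟨a, b⟩ ⟨⟨a1, a2⟩, b1, b2, n, q⟩ => ⟨⟨b1, b2⟩, mul_mem a1 b1,
      fun k => n ((eq_inv_of_mul_eq_one_left k).trans (h.vi b1)), fun k => a2 (by simpa using k), ?_⟩)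
    (fun ⟨a, b⟩ ⟨⟨a1, a2⟩, b1, b2, n, q⟩ => ?_) fun ⟨a, b⟩ ⟨_, _, _, n, _⟩ k => n (congrArg Prod.fst k).symm
  rotate_left
  · rw [← q]
    refine congrArg (fun K : Subgroup G => ♯(𝐍 V ⊓ K) * σ) (le_antisymm (fun x hx => ⟨c1_of ?_, hx.1⟩)
      fun x hx => ⟨hx.2, c1_of ((c1_comm hx.1).mul_right (c1_comm hx.2))⟩)
    simpa using (c1_comm hx.2).mul_right (c1_comm hx.1).inv_right
  · have c : a * b = b * a := h.ab.mul_comm a1 b1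
    have k : b * (a * b) = a := by rw [c, ← mul_assoc, h.sq b b1, one_mul]
    simp only [k, Prod.mk.injEq, true_and]
    rw [mul_assoc, ← c, ← mul_assoc, h.sq a a1, one_mul]
  have c0 : {b | R f b}.ncard = ct fun c => Nat.beq (sz t (oi t c)) σ := by
    have p : 0 < ♯(𝐂₁ f) := Nat.card_pos
    have q : ∀ b ∈ V, (♯(𝐍 V ⊓ (𝐂₁ f ⊓ 𝐂₁ b)) * σ = ♯(𝐂₁ f) ↔ sz t (oi t (ν b)) = σ) := fun b hb => by
      rw [inf_eq_right.2 (inf_le_left.trans h.nor), ← h.orb hb, Nat.mul_right_inj Nat.card_pos.ne', eq_comm]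
    rw [← h.cnt]
    refine congrArg _ (Set.ext fun b => ⟨fun k => ⟨k.1, beq_iff.2 ((q b k.1).1 k.2.2.2)⟩, fun k =>
      ⟨k.1, fun n => ?_, fun n => ?_, (q b k.1).2 (beq_iff.1 k.2)⟩⟩)
    · exact chk_3' t h.t3 0 (by simp) (by rw [hσ, ← beq_iff.1 k.2, n, h.co.one])
    · exact chk_3' t h.t3 1024 (by simp) (by rw [hσ, ← beq_iff.1 k.2, ← n, h.nf])
  have k := ZD.ncard_mul_eq (S := {a | a ∈ V ∧ a ≠ 1}) (T := {p : G × G | (p.1 ∈ V ∧ p.1 ≠ 1) ∧ R p.1 p.2})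
    (Set.toFinite _) (Set.toFinite _) (fun a p => p.1 = a) (m := {b | R f b}.ncard) (n := 1) (fun a ha => ?_) fun p hp => by
      rw [Set.ncard_eq_one]; exact ⟨p.1, Set.ext fun a => ⟨fun k => k.2.symm, fun k => ⟨(show a = p.1 from k) ▸ hp.1, k.symm⟩⟩⟩
  · have c1 : {a | a ∈ V ∧ a ≠ 1}.ncard = 2047 := by
      rw [show {a | a ∈ V ∧ a ≠ 1} = (V : Set G) \ {1} from rfl, Set.ncard_sdiff_singleton_of_mem (one_mem V)]
      exact congrArg (· - 1) h.card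
    rw [c0, c1, mul_one] at k
    exact chk_3 t h.t3 (by rw [force_eq, hσ]; exact k ▸ d)
  obtain ⟨n, hn, rfl⟩ := e a ha.1 ha.2
  have r : ∀ n ∈ 𝐍 V, ∀ a b, R a b → R (n * a * n⁻¹) (n * b * n⁻¹) := fun n hn a b k =>
    ⟨norm_mem' hn k.1, by simpa using k.2.1, by simpa using k.2.2.1, by
      rw [← k.2.2.2, ← card_cj n (_ ⊓ (𝐂₁ a ⊓ _)), cj_inf, cj_inf, cj_norm, cj_of_norm hn, cj_cent1, cj_cent1]⟩
  symm
  refine Set.ncard_congr (fun b _ => (n * f * n⁻¹, n * b * n⁻¹)) (fun b k => ⟨⟨ha, r n hn _ _ k⟩, rfl⟩)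
    (fun a b _ _ k => by simpa using k) fun ⟨a, b⟩ ⟨k, q⟩ => ⟨n⁻¹ * b * n, ?_, by simp [mul_assoc, ← show a = _ from q]⟩
  simpa [show a = _ from q, mul_assoc] using r _ (inv_mem hn) _ _ k.2

theorem wl : (∀ n ∈ 𝐍 V, n * f * n⁻¹ = f) ∨ C276 V f ∨ (t ≠ 0 ∧ ∀ v ∈ V, (v ∈ Dl V f ↔ 1024 ≤ ν v)) := by
  rcases h.toMz.wl0 le_rfl (fun a _ => T.nb a) fun i => h.nor (h.gC i) with k | ⟨rfl, k⟩ | k | k
  · exact .inl fun n hn => h.hz.inj (norm_mem' hn h.fV) h.fV ((k n hn).trans h.nf.symm)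
  · exact .inr (.inl (h.c276 k))
  · exact .inr (.inr ⟨k.1, fun v hv => (h.dl_iff hv).trans (k.2 _ (h.toMz.lt' hv))⟩)
  · exact (h.not_all fun v hv n => (h.dl_iff hv).2 ((k _ (h.toMz.lt' hv)).2 (mt (h.nu0 hv).1 n))).elim

theorem kq {a b : G} (ha : a ∈ V) (hb : b ∈ V) {u : List ℕ} (e : vm 11 (ν a) (mw t u) = ν b) :
    (ev g u)⁻¹ * a * (ev g u)⁻¹⁻¹ = b := by
  have k := h.toMz.aw u
  rw [inv_inv]
  exact h.hz.inj (norm_mem k.1 ha) hb ((k.2 a ha).trans e)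

theorem jf0 (A : Af V (Wz h.toMz) f) (n : 𝐂₁ f ≤ 𝐍 (Wz h.toMz)) {a b B : ℕ} {c2 co : List ℕ} {d1 d2 d3 : List (List ℕ)}
    (k : JC t a b B c2 co d1 d2 d3) : ∃ J, Jf V (Wz h.toMz) J f := by
  obtain ⟨k1, k2, k3, k4, k5, k6, k7, k8, k9, k10, k11⟩ := k
  obtain ⟨x, hx, rfl⟩ := h.co.surj a (k1.trans (by norm_num))
  obtain ⟨y, hy, rfl⟩ := h.co.surj b (k3.trans (by norm_num))
  have m : ∀ u, ev g u ∈ 𝐂₁ f ⊓ 𝐍 (Wz h.toMz) := fun u => ⟨M.evC h u, n (M.evC h u)⟩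
  refine A.jf (w₁ := x) (w₂ := y) ⟨hx, k1⟩ (mt (h.nu0 hx).2 k2) (fun e => k4 (e ▸ rfl))
    ⟨_, inv_mem (m c2), h.kq hx hy k5⟩ (fun w hw q => ?_) (fun w hw q => ?_) fun w hw => ?_
  · exact (fx_spec k7 hw.2 fun u hu => (h.hz.fix_iff (h.co.cd.mul' (h.toMz.aw u) (h.toMz.aw u)) hw.1).2
      (q _ (m u) ((h.hz.fix_iff (h.toMz.aw u) hx).1 (k6 u hu)).symm).eq.symm).imp (h.nu0 hw.1).1 (h.hz.inj hw.1 hx)
  · refine (fx_spec k9 hw.2 fun u hu => (h.hz.fix_iff (h.toMz.aw u) hw.1).2 (Commute.inv_left_iff.1 (q _ (inv_mem (m u))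
      ((k8 u hu).imp (And.imp (h.kq hx hx) (h.kq hy hy)) (And.imp (h.kq hx hy) (h.kq hy hx))))).eq.symm).imp
        (h.nu0 hw.1).1 fun e => h.hz.inj hw.1 (mul_mem hx hy) (e.trans (h.co.mul x hx y hy).symm)
  · refine h.toMz.pkm bot_le hw.1 (xor_ind (n := 10) h.toMz.pk0 (fun i hi => ?_) (fun a _ b _ => h.toMz.pkx a b) _ hw.2)
    obtain ⟨c, -, hc, e⟩ := k11 i hi
    refine e ▸ span_vm h.toMz.pk0 h.toMz.pkx (fun i hi => ?_) c hc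
    rcases k10 i hi with e | e | ⟨u, -, e1, e2⟩
    · exact e ▸ h.toMz.pk0
    · exact ⟨x, subset_closure (.inl rfl), hx, e.symm⟩
    · have k := h.toMz.aw u
      exact ⟨_, subset_closure (.inr ⟨_, inv_mem (m u), comm_iff_cj.2 (h.kq hx hx e1), rfl⟩),
        norm_mem' (inv_mem k.1) hy, by rw [inv_inv, k.2 y hy, e2]⟩

theorem jf (t0 : t ≠ 0) (e : ∀ v ∈ V, (v ∈ Dl V f ↔ 1024 ≤ ν v)) :
    𝐂₁ f ≤ 𝐍 (Wz h.toMz) ∧ ∃ J, Jf V (Wz h.toMz) J f := by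
  have e1 : ∀ n ∈ 𝐍 V, 1024 ≤ ν (n * f * n⁻¹) := fun n hn => (e _ (norm_mem' hn h.fV)).1 ⟨n, hn, rfl⟩
  have e2 : ∀ c < 2048, 1024 ≤ c → ∃ n ∈ 𝐍 V, ν (n * f * n⁻¹) = c := fun c hc l => by
    obtain ⟨v, hv, rfl⟩ := h.co.surj c hc
    exact (h.dl_iff hv).1 ((e v hv).2 l)
  have n := h.nor.trans (h.toMz.nW le_rfl (fun a _ => T.nb a) e1 e2)
  have A : Af V (Wz h.toMz) f := ⟨fun _ k => k.1, h.fV, h.toMz.fW, h.sq, fun _ => h.toMz.dec, h.cen, fun w hw => by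
    have m := mul_mem h.fV hw.1
    obtain ⟨j, hj, q1, q2⟩ := h.toMz.tl t0 le_normalizer le_rfl (fun a _ => T.nb a) (fun i => h.nor (h.gC i)) h.pT e1 e2 _
      (h.toMz.lt' m) (h.toMz.fw hw.1 ▸ y10 hw.2)
    exact ⟨j, cen_of fun x hx => (comm_iff_cj.2 (h.hz.inj (norm_mem' hj hx.1) hx.1 (q2 x hx.1 hx.2))).symm,
      h.hz.inj (norm_mem' hj h.fV) m q1⟩⟩
  refine ⟨n, ?_⟩
  obtain rfl | rfl : t = 1 ∨ t = 2 := by have := h.t3; omega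
  exacts [h.jf0 A n jc1, h.jf0 A n jc2]
end Mo

end CF.Tr
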